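/-
CALL BG15 (helper25), piece T1: Thompson's theorem for a fixed-point-free element of prime
order normalizing an arbitrary subgroup.
-/
import Cfsg.Agent.Helper19.ThompsonThesis
import Cfsg.Agent.Helper23.Trans

set_option autoImplicit false

namespace Cfsg.Agent.Helper25

open Cfsg Subgroup

universe u

variable {Γ : Type u} [Group Γ] [Finite Γ]

/-- T1. Thompson: a fixed-point-free element of prime order forces nilpotency. -/
theorem bg15_fpf_nilpotent (H : Subgroup Γ) {p : ℕ} (hp : p.Prime) {k : Γ}
    (hkH : k ∈ normalizer (H : Set Γ)) (hkp : k ^ p = 1)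
    (hfix : ∀ a ∈ H, k * a = a * k → a = 1) : Group.IsNilpotent ↥H := by
  have key : ∀ n : ℕ, ∀ y : ↥H,
      (((⇑(Helper23.conjHom H ⟨k, hkH⟩))^[n] y : ↥H) : Γ) = k ^ n * y * (k ^ n)⁻¹ := by
    intro n
    induction n with
    | zero => intro y; simp
    | succ n ih =>
      intro y
      rw [Function.iterate_succ_apply']
      show k * ((⇑(Helper23.conjHom H ⟨k, hkH⟩))^[n] y : Γ) * k⁻¹ = _
      rw [ih y, pow_succ']
      group
  have hFP : Helper19.FP p (Helper23.conjHom H ⟨k, hkH⟩) := by
    refine ⟨fun x hx => ?_, fun x => ?_⟩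
    · have h1 : k * (x : Γ) * k⁻¹ = x := congrArg Subtype.val hx
      have h2 : k * (x : Γ) = x * k := by
        calc k * (x : Γ) = k * x * k⁻¹ * k := by group
          _ = x * k := by rw [h1]
      exact Subtype.ext (hfix x x.2 h2)
    · apply Subtype.ext
      rw [key, hkp]; simp
  exact Helper19.thompson_thesis hp _ hFP

end Cfsg.Agent.Helper25
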