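/-
CALL BG15 (helper25): the prime-action normal-Sylow theorem, assembled from the pieces.
-/
import Cfsg.Agent.Helper25.BG15T1
import Cfsg.Agent.Helper62.BG15ZP
import Cfsg.Agent.Helper62.BG15T2
import Cfsg.Agent.Helper85.BG15NS
import Cfsg.Agent.Helper85.BG15PB
import Cfsg.Agent.Helper85.BG15DIR
import Cfsg.Agent.Helper85.BG15CN
import Cfsg.Agent.Helper6.BG15NC
import Cfsg.Agent.Helper78.BG15QT
import Cfsg.Agent.Helper33.BG15QC
import Cfsg.Agent.Helper33.BG15SY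
import Cfsg.Agent.Helper87.BG15CQ
import Cfsg.Agent.Helper4.BG15JJ
import Cfsg.Agent.Helper44.BG15TF

set_option autoImplicit false
set_option linter.style.haveILetI false

namespace Cfsg.Agent.Helper25

open Cfsg Subgroup
open Cfsg.Agent.Helper62 Cfsg.Agent.Helper85 Cfsg.Agent.Helper6 Cfsg.Agent.Helper78
  Cfsg.Agent.Helper33 Cfsg.Agent.Helper87 Cfsg.Agent.Helper4 Cfsg.Agent.Helper44

universe u

variable {Γ : Type u} [Group Γ] [Finite Γ]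

omit [Finite Γ] in
theorem bg15_card_eq_mul_relIndex {H K : Subgroup Γ} (h : H ≤ K) :
    Nat.card K = Nat.card H * H.relIndex K := by
  have h1 := Subgroup.relIndex_mul_relIndex (⊥ : Subgroup Γ) H K bot_le h
  rw [Subgroup.relIndex_bot_left, Subgroup.relIndex_bot_left] at h1
  exact h1.symm

/-- Stage 1: `O_{q'}(L) = 1` ⟹ normal Sylow `q`-subgroup. -/
theorem bg15_stage1 (hodd : Odd (Nat.card Γ)) (L : Subgroup Γ) [L.Normal]
    (hsol : Group.IsSolvable ↥L) {p q : ℕ} (hp : p.Prime) (hq : q.Prime) {k z : Γ}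
    (hkp : k ^ p = 1) (hpL : ¬ p ∣ Nat.card L) (hzL : z ∈ L) (hzq : orderOf z = q)
    (hzk : k * z = z * k) (hfix : ∀ a ∈ L, k * a = a * k → a ∈ zpowers z)
    (hcore : Cfsg.pPrimeCore q ↥L = ⊥) :
    ∃ Q : Subgroup Γ, Q.Normal ∧ Q ≤ L ∧ IsPGroup q Q ∧ ¬ q ∣ Q.relIndex L := by
  haveI : Fact q.Prime := ⟨hq⟩
  obtain ⟨-, -, -, hPn, hPL, hPq⟩ := bg15_core_facts L hq
  haveI : ((Cfsg.pCore q ↥L).map L.subtype).Normal := hPn
  have hzP : z ∈ (Cfsg.pCore q ↥L).map L.subtype :=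
    bg15_z_mem_pCore hodd L hsol hp hq hkp hpL hzL hzq hzk hfix hcore
  have hfixP : ∀ a ∈ L, k * a = a * k → a ∈ (Cfsg.pCore q ↥L).map L.subtype :=
    fun a ha hak => (zpowers_le.mpr hzP) (hfix a ha hak)
  have hnil : Group.IsNilpotent
      ↥(L.map (QuotientGroup.mk' ((Cfsg.pCore q ↥L).map L.subtype))) :=
    bg15_section_nilpotent L _ hp hkp hpL hfixP
  haveI : (L.map (QuotientGroup.mk' ((Cfsg.pCore q ↥L).map L.subtype))).Normal :=
    Subgroup.Normal.map inferInstance _ (QuotientGroup.mk'_surjective _)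
  obtain ⟨Qb, hQbn, hQbL, hQbq, hQbidx⟩ :=
    bg15_nilpotent_sylow (L.map (QuotientGroup.mk' ((Cfsg.pCore q ↥L).map L.subtype))) hnil hq
  haveI := hQbn
  obtain ⟨X, hXn, hPX, hXL, ⟨n, hn⟩, hXidx⟩ := bg15_pullback L _ hPL hq Qb hQbL hQbq hQbidx
  refine ⟨X, hXn, hXL, ?_, hXidx⟩
  obtain ⟨m, hm⟩ := (IsPGroup.iff_card).mp hPq
  apply IsPGroup.of_card (n := m + n)
  rw [bg15_card_eq_mul_relIndex hPX, hm, hn, pow_add]

/-- Stage 2a: `N Q ⊴ Γ` for `N = O_{q'}(L)`. -/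
theorem bg15_stage2a (hodd : Odd (Nat.card Γ)) (L : Subgroup Γ) [L.Normal]
    (hsol : Group.IsSolvable ↥L) {p q : ℕ} (hp : p.Prime) (hq : q.Prime) {k z : Γ}
    (hkp : k ^ p = 1) (hpL : ¬ p ∣ Nat.card L) (hzL : z ∈ L) (hzq : orderOf z = q)
    (hzk : k * z = z * k) (hfix : ∀ a ∈ L, k * a = a * k → a ∈ zpowers z) :
    ∃ N X : Subgroup Γ, N.Normal ∧ X.Normal ∧ N ≤ X ∧ X ≤ L ∧ (Nat.card N).Coprime q ∧
      (∃ n : ℕ, N.relIndex X = q ^ n) ∧ ¬ q ∣ X.relIndex L := by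
  obtain ⟨hNn, hNL, hNq, -, -, -⟩ := bg15_core_facts L hq
  haveI : ((Cfsg.pPrimeCore q ↥L).map L.subtype).Normal := hNn
  obtain ⟨h1, h2, h3, h4, h5, h6, h7, h8⟩ :=
    bg15_quot_transfer hodd L _ hNL hsol hp hq hNq hkp hpL hzL hzq hzk hfix
  haveI : (L.map (QuotientGroup.mk' ((Cfsg.pPrimeCore q ↥L).map L.subtype))).Normal :=
    Subgroup.Normal.map inferInstance _ (QuotientGroup.mk'_surjective _)
  have hcore := bg15_core_quot L ((Cfsg.pPrimeCore q ↥L).map L.subtype) (q := q) rfl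
  obtain ⟨Qb, hQbn, hQbL, hQbq, hQbidx⟩ :=
    bg15_stage1 h1 (L.map (QuotientGroup.mk' ((Cfsg.pPrimeCore q ↥L).map L.subtype)))
      h2 hp hq h3 h4 h5 h6 h7 h8 hcore
  haveI := hQbn
  obtain ⟨X, hXn, hNX, hXL, hn, hXidx⟩ := bg15_pullback L _ hNL hq Qb hQbL hQbq hQbidx
  exact ⟨_, X, hNn, hXn, hNX, hXL, hNq, hn, hXidx⟩

/-- Stage 2b. -/
theorem bg15_stage2b (hodd : Odd (Nat.card Γ)) (L N X : Subgroup Γ) [L.Normal] [N.Normal]
    [X.Normal] (hsol : Group.IsSolvable ↥L) {p q : ℕ} (hp : p.Prime) (hq : q.Prime) {k z : Γ}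
    (hkp : k ^ p = 1) (hpL : ¬ p ∣ Nat.card L) (hzL : z ∈ L) (hzq : orderOf z = q)
    (hzk : k * z = z * k) (hfix : ∀ a ∈ L, k * a = a * k → a ∈ zpowers z) (hz' : z ∈ ⁅L, L⁆)
    (hNX : N ≤ X) (hXL : X ≤ L) (hNq : (Nat.card N).Coprime q)
    (hXN : ∃ n : ℕ, N.relIndex X = q ^ n) (hLX : ¬ q ∣ X.relIndex L) :
    ∃ Q : Subgroup Γ, Q ≤ L ∧ IsPGroup q Q ∧ ¬ q ∣ Q.relIndex L ∧ Q.Normal ∧ z ∈ Q := by
  haveI : Fact q.Prime := ⟨hq⟩
  obtain ⟨Q, hQX, hQq, hQidx, hzQ, hkQ, hXeq⟩ :=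
    bg15_invariant_sylow L N X hp hq hkp hpL hzL hzq hzk hNX hXL hNq hXN hLX
  have hNL : N ≤ L := hNX.trans hXL
  have hQL : Q ≤ L := hQX.trans hXL
  have hCQ := bg15_Q_factor hodd L N Q hp hq hkp hpL hzq hfix hNL hNq hQL hQq hkQ
  have hcop : (Nat.card N).Coprime (Nat.card Q) := by
    obtain ⟨m, hm⟩ := (IsPGroup.iff_card).mp hQq
    rw [hm]
    exact Nat.Coprime.pow_right m hNq
  by_cases hzc : z ∈ centralizer (N : Set Γ)
  · have hQc : Q ≤ centralizer (N : Set Γ) := by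
      intro y hy
      obtain ⟨c, hc, w, hw, rfl⟩ := hCQ y hy
      exact mul_mem hc.2 ((zpowers_le.mpr hzc) hw)
    exact ⟨Q, hQL, hQq, hQidx, bg15_direct_normal N Q X hXeq hQc hcop, hzQ⟩
  · exfalso
    haveI hCn : (Q ⊓ centralizer (N : Set Γ)).Normal := bg15_C_normal N Q X hq hXeq hNq hQq
    have hX₀L : N ⊔ (Q ⊓ centralizer (N : Set Γ)) ≤ L := sup_le hNL (inf_le_left.trans hQL)
    have hXgen : ∀ x ∈ X, ∃ x₀ ∈ N ⊔ (Q ⊓ centralizer (N : Set Γ)), ∃ w ∈ zpowers z,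
        x = x₀ * w := by
      intro x hx
      rw [hXeq] at hx
      obtain ⟨n, hn, y, hy, rfl⟩ := Subgroup.mem_sup_of_normal_left.mp hx
      obtain ⟨c, hc, w, hw, rfl⟩ := hCQ y hy
      exact ⟨n * c, mul_mem (mem_sup_left hn) (mem_sup_right hc), w, hw, by rw [mul_assoc]⟩
    have hJ := bg15_J L X (N ⊔ (Q ⊓ centralizer (N : Set Γ))) hp hkp hpL (hQX hzQ) hfix hXgen
    have hsupeq : (N ⊔ (Q ⊓ centralizer (N : Set Γ))) ⊔ zpowers z = X := by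
      apply le_antisymm
      · exact sup_le (sup_le hNX (inf_le_left.trans hQX)) (zpowers_le.mpr (hQX hzQ))
      · intro x hx
        obtain ⟨x₀, hx₀, w, hw, rfl⟩ := hXgen x hx
        exact mul_mem (mem_sup_left hx₀) (mem_sup_right hw)
    have hidx : ¬ q ∣ ((N ⊔ (Q ⊓ centralizer (N : Set Γ))) ⊔ zpowers z).relIndex L := by
      rw [hsupeq]; exact hLX
    have hzX₀ : z ∈ N ⊔ (Q ⊓ centralizer (N : Set Γ)) :=
      bg15_transfer_false L _ hX₀L hq hzL hzq hz' hJ hidx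
    obtain ⟨n, hn, c, hc, hnc⟩ := Subgroup.mem_sup_of_normal_left.mp hzX₀
    have hnQ : n ∈ Q := by
      have : n = z * c⁻¹ := by rw [← hnc]; group
      rw [this]
      exact mul_mem hzQ (inv_mem hc.1)
    have hn1 : n = 1 := by
      have h1 : orderOf n ∣ Nat.card N := by
        have := orderOf_dvd_natCard (⟨n, hn⟩ : ↥N)
        rwa [Subgroup.orderOf_mk] at this
      have h2 : orderOf n ∣ Nat.card Q := by
        have := orderOf_dvd_natCard (⟨n, hnQ⟩ : ↥Q)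
        rwa [Subgroup.orderOf_mk] at this
      exact orderOf_eq_one_iff.mp (Nat.eq_one_of_dvd_coprimes hcop h1 h2)
    apply hzc
    rw [← hnc, hn1, one_mul]
    exact hc.2

/-- **The prime-action normal-Sylow theorem.**  `Γ` finite of odd order, `L` a normal solvable
subgroup, `k ∈ Γ` with `k ^ p = 1`, `p ∤ |L|`, `C_L(k) ≤ ⟨z⟩` with `z ∈ L'` of prime order `q`
commuting with `k`.  Then `L` has a Sylow `q`-subgroup that is normal in `Γ` (and contains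
`z`). -/
theorem bg15_sylow_normal (hodd : Odd (Nat.card Γ)) (L : Subgroup Γ) [L.Normal]
    (hsol : Group.IsSolvable ↥L) {p q : ℕ} (hp : p.Prime) (hq : q.Prime) {k z : Γ}
    (hkp : k ^ p = 1) (hpL : ¬ p ∣ Nat.card L) (hzL : z ∈ L) (hzq : orderOf z = q)
    (hzk : k * z = z * k) (hfix : ∀ a ∈ L, k * a = a * k → a ∈ zpowers z) (hz' : z ∈ ⁅L, L⁆) :
    ∃ Q : Subgroup Γ, Q ≤ L ∧ IsPGroup q Q ∧ ¬ q ∣ Q.relIndex L ∧ Q.Normal ∧ z ∈ Q := by
  obtain ⟨N, X, hNn, hXn, hNX, hXL, hNq, hXN, hLX⟩ :=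
    bg15_stage2a hodd L hsol hp hq hkp hpL hzL hzq hzk hfix
  haveI := hNn
  haveI := hXn
  exact bg15_stage2b hodd L N X hsol hp hq hkp hpL hzL hzq hzk hfix hz' hNX hXL hNq hXN hLX

end Cfsg.Agent.Helper25
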