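/-
CALL BG17 (helper25), piece EXR — the pure core: in an abelian subgroup `U`, for a prime `r`
dividing `|U|`, an element of order the full `r`-part of the exponent whose power of order `r`
is "good" (no fixed point on `S`).
-/
import Mathlib

set_option autoImplicit false

namespace Cfsg.Agent.Helper25

open Subgroup

universe u

variable {G : Type u} [Group G] [Finite G]

/-- EXR, pure core. -/
theorem bg17_exists_good_of (U S : Subgroup G)
    (hUc : ∀ a ∈ U, ∀ b ∈ U, a * b = b * a)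
    (r : ℕ) (hr : r.Prime) (hrU : r ∣ Nat.card U)
    (hcase : (∀ w ∈ U, orderOf w = r → ∀ x ∈ S, w * x = x * w → x = 1) ∨
      (∃ A : Subgroup G, A ≤ U ∧ Nat.card A = r ^ 2 ∧ (∀ y ∈ U, y ^ r = 1 → y ∈ A) ∧
        ∃ a ∈ A, orderOf a = r ∧ ∀ x ∈ S, a * x = x * a → x = 1))
    (hEXD : ∀ A W : Subgroup G, W ≤ A → Nat.card A = r ^ 2 → ∀ a ∈ A, orderOf a = r → a ∉ W →
      ∀ w ∈ W, w ≠ 1 → zpowers w = W)
    (hEXB : ∀ w ∈ U, w ≠ 1 →
      normalizer (U : Set G) ≤ normalizer ((zpowers w : Subgroup G) : Set G) →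
      ∀ x ∈ S, w * x = x * w → x = 1) :
    ∃ v : ↥U, orderOf v = r ^ (Monoid.exponent ↥U).factorization r ∧
      ∀ x ∈ S,
        ((v ^ r ^ ((Monoid.exponent ↥U).factorization r - 1) : ↥U) : G) * x =
          x * ((v ^ r ^ ((Monoid.exponent ↥U).factorization r - 1) : ↥U) : G) → x = 1 := by
  classical
  have : Fact r.Prime := ⟨hr⟩
  set e := (Monoid.exponent ↥U).factorization r with he
  -- `e ≥ 1`
  have he1 : 1 ≤ e := by
    obtain ⟨y, hy⟩ := exists_prime_orderOf_dvd_card' (G := ↥U) r hrU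
    have hd : r ∣ Monoid.exponent ↥U := hy ▸ Monoid.order_dvd_exponent y
    have hpos : Monoid.exponent ↥U ≠ 0 := Monoid.exponent_ne_zero_of_finite
    exact (hr.factorization_pos_of_dvd hpos hd)
  obtain ⟨v₀, hv₀⟩ := hr.exists_orderOf_eq_pow_factorization_exponent ↥U
  rw [← he] at hv₀
  have hee : r ^ (e - 1) * r = r ^ e := by
    rw [← pow_succ, Nat.sub_add_cancel he1]
  have hrpos : 0 < r := hr.pos
  -- the power of order `r`
  have hw₀ord : orderOf (v₀ ^ r ^ (e - 1)) = r := by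
    rw [orderOf_pow_of_dvd (pow_ne_zero _ hr.ne_zero) (by rw [hv₀]; exact pow_dvd_pow r (Nat.sub_le e 1)),
      hv₀, ← hee, Nat.mul_div_cancel_left _ (pow_pos hrpos _)]
  have hw₀ordG : orderOf ((v₀ ^ r ^ (e - 1) : ↥U) : G) = r := by
    rw [Subgroup.orderOf_coe]; exact hw₀ord
  rcases hcase with h1 | ⟨A, hAU, hAcard, hAΩ, a, haA, haord, hafpf⟩
  · exact ⟨v₀, hv₀, fun x hx hc => h1 _ (v₀ ^ r ^ (e - 1)).2 hw₀ordG x hx hc⟩
  · -- the subgroup `W`
    let W : Subgroup G :=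
      { carrier := {w | ∃ v ∈ U, v ^ r ^ e = 1 ∧ v ^ r ^ (e - 1) = w}
        one_mem' := ⟨1, U.one_mem, one_pow _, one_pow _⟩
        mul_mem' := by
          rintro _ _ ⟨v₁, h1U, h1e, rfl⟩ ⟨v₂, h2U, h2e, rfl⟩
          have hc : Commute v₁ v₂ := hUc v₁ h1U v₂ h2U
          exact ⟨v₁ * v₂, U.mul_mem h1U h2U, by rw [hc.mul_pow, h1e, h2e, one_mul],
            hc.mul_pow _⟩
        inv_mem' := by
          rintro _ ⟨v, hvU, hve, rfl⟩
          exact ⟨v⁻¹, U.inv_mem hvU, by rw [inv_pow, hve, inv_one], inv_pow _ _⟩ }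
    have hWmem : ∀ w, w ∈ W ↔ ∃ v ∈ U, v ^ r ^ e = 1 ∧ v ^ r ^ (e - 1) = w := fun w => Iff.rfl
    have hWA : W ≤ A := by
      rintro _ ⟨v, hvU, hve, rfl⟩
      apply hAΩ _ (U.pow_mem hvU _)
      rw [← pow_mul, hee, hve]
    have hv₀G : ((v₀ : ↥U) : G) ^ r ^ e = 1 := by
      rw [← Subgroup.coe_pow, ← hv₀, pow_orderOf_eq_one, Subgroup.coe_one]
    have hw₀W : ((v₀ ^ r ^ (e - 1) : ↥U) : G) ∈ W :=
      ⟨(v₀ : G), v₀.2, hv₀G, by rw [Subgroup.coe_pow]⟩
    have hw₀1 : ((v₀ ^ r ^ (e - 1) : ↥U) : G) ≠ 1 := by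
      intro h
      rw [h, orderOf_one] at hw₀ordG
      exact hr.one_lt.ne hw₀ordG
    have ha1 : a ≠ 1 := by
      intro h
      rw [h, orderOf_one] at haord
      exact hr.one_lt.ne haord
    by_cases haW : a ∈ W
    · obtain ⟨v, hvU, hve, hva⟩ := haW
      have hvord : orderOf v = r ^ e := by
        have := orderOf_eq_prime_pow (x := v) (p := r) (n := e - 1) (by rw [hva]; exact ha1)
          (by rw [Nat.sub_add_cancel he1]; exact hve)
        rwa [Nat.sub_add_cancel he1] at this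
      refine ⟨⟨v, hvU⟩, ?_, ?_⟩
      · rw [← Subgroup.orderOf_coe]; exact hvord
      · intro x hx hc
        rw [Subgroup.coe_pow] at hc
        simp only at hc
        rw [hva] at hc
        exact hafpf x hx hc
    · have hgen := hEXD A W hWA hAcard a haA haord haW _ hw₀W hw₀1
      refine ⟨v₀, hv₀, ?_⟩
      apply hEXB _ (v₀ ^ r ^ (e - 1)).2 hw₀1
      rw [hgen]
      -- `N_G(U)` normalizes `W`
      have hconj : ∀ g ∈ normalizer (U : Set G), ∀ w ∈ W, g * w * g⁻¹ ∈ W := by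
        rintro g hg _ ⟨v, hvU, hve, rfl⟩
        refine ⟨g * v * g⁻¹, ?_, ?_, ?_⟩
        · exact ((Subgroup.mem_normalizer_iff.mp hg) v).mp hvU
        · rw [conj_pow, hve, mul_one, mul_inv_cancel]
        · rw [conj_pow]
      intro g hg
      rw [Subgroup.mem_normalizer_iff]
      intro w
      refine ⟨fun hw => hconj g hg w hw, fun hw => ?_⟩
      have := hconj g⁻¹ (inv_mem hg) _ hw
      simpa [mul_assoc] using this

end Cfsg.Agent.Helper25
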