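import Mathlib

/-!
# Norm-three integer vectors (helper25)

Combinatorial preliminaries for Peterfalvi (3.5): integer vectors `f : X → ℤ` with
`∑ x, f x * f x = 3`, their supports and common points.
-/

set_option autoImplicit false
set_option linter.style.haveILetI false
set_option linter.unusedVariables false
set_option linter.unusedSectionVars false
set_option maxHeartbeats 1000000

namespace Cfsg.Agent.Helper25

section Tri

variable {X : Type*} [Fintype X] [DecidableEq X]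

/-- an integer vector of norm three. -/
def IsTri (f : X → ℤ) : Prop := ∑ x, f x * f x = 3

/-- the number of common points of two norm-three vectors. -/
def triCommon (f g : X → ℤ) : ℤ := ∑ x, f x * f x * (g x * g x)

theorem IsTri.val {f : X → ℤ} (hf : IsTri f) (x : X) : f x = 0 ∨ f x = 1 ∨ f x = -1 := by
  have h1 : f x * f x ≤ 3 := by
    have := Finset.single_le_sum (f := fun x => f x * f x)
      (fun y _ => mul_self_nonneg (f y)) (Finset.mem_univ x)
    have h3 : ∑ x, f x * f x = 3 := hf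
    rw [h3] at this
    exact this
  have h2 : -1 ≤ f x := by nlinarith
  have h3 : f x ≤ 1 := by nlinarith
  omega

theorem IsTri.sq_eq {f : X → ℤ} (hf : IsTri f) {x : X} (hx : f x ≠ 0) : f x * f x = 1 := by
  rcases hf.val x with h | h | h
  · exact absurd h hx
  · rw [h]; rfl
  · rw [h]; rfl

theorem IsTri.card_supp {f : X → ℤ} (hf : IsTri f) :
    (Finset.univ.filter (fun x => f x ≠ 0)).card = 3 := by
  have h1 : ∀ x, f x * f x = if f x ≠ 0 then 1 else 0 := by
    intro x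
    rcases hf.val x with h | h | h <;> simp [h]
  have h2 : ∑ x, f x * f x = ((Finset.univ.filter (fun x => f x ≠ 0)).card : ℤ) := by
    rw [Finset.sum_congr rfl (fun x _ => h1 x), Finset.sum_boole]
  have h3 : ((Finset.univ.filter (fun x => f x ≠ 0)).card : ℤ) = 3 := by
    rw [← h2]; exact hf
  exact_mod_cast h3

theorem IsTri.supp_eq {f : X → ℤ} (hf : IsTri f) {p q r : X} (hpq : p ≠ q) (hpr : p ≠ r)
    (hqr : q ≠ r) (hp : f p ≠ 0) (hq : f q ≠ 0) (hr : f r ≠ 0) :
    Finset.univ.filter (fun x => f x ≠ 0) = {p, q, r} := by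
  symm
  apply Finset.eq_of_subset_of_card_le
  · intro x hx
    simp only [Finset.mem_insert, Finset.mem_singleton] at hx
    rcases hx with rfl | rfl | rfl <;> simp [*]
  · rw [hf.card_supp, Finset.card_insert_of_notMem, Finset.card_insert_of_notMem,
      Finset.card_singleton]
    · simp [hqr]
    · simp [hpq, hpr]

theorem IsTri.eq_of_ne_zero {f : X → ℤ} (hf : IsTri f) {p q r : X} (hpq : p ≠ q) (hpr : p ≠ r)
    (hqr : q ≠ r) (hp : f p ≠ 0) (hq : f q ≠ 0) (hr : f r ≠ 0) (s : X) (hs : f s ≠ 0) :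
    s = p ∨ s = q ∨ s = r := by
  have h1 := hf.supp_eq hpq hpr hqr hp hq hr
  have hs' : s ∈ Finset.univ.filter (fun x => f x ≠ 0) := by simp [hs]
  rw [h1] at hs'
  simpa using hs'

theorem IsTri.sum_mul {f : X → ℤ} (hf : IsTri f) {p q r : X} (hpq : p ≠ q) (hpr : p ≠ r)
    (hqr : q ≠ r) (hp : f p ≠ 0) (hq : f q ≠ 0) (hr : f r ≠ 0) (g : X → ℤ) :
    ∑ x, g x * f x = g p * f p + g q * f q + g r * f r := by
  have h1 : ∑ x, g x * f x = ∑ x ∈ Finset.univ.filter (fun x => f x ≠ 0), g x * f x := by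
    rw [Finset.sum_filter]
    apply Finset.sum_congr rfl
    intro x _
    by_cases h : f x = 0
    · simp [h]
    · simp [h]
  rw [h1, hf.supp_eq hpq hpr hqr hp hq hr, Finset.sum_insert, Finset.sum_insert,
    Finset.sum_singleton]
  · ring
  · simp [hqr]
  · simp [hpq, hpr]

theorem IsTri.exists_third {f : X → ℤ} (hf : IsTri f) {p q : X} (hp : f p ≠ 0) (hq : f q ≠ 0) :
    ∃ r, f r ≠ 0 ∧ r ≠ p ∧ r ≠ q := by
  by_contra hcon
  push Not at hcon
  have hsub : Finset.univ.filter (fun x => f x ≠ 0) ⊆ {p, q} := by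
    intro x hx
    simp only [Finset.mem_filter, Finset.mem_univ, true_and] at hx
    by_cases hxp : x = p
    · simp [hxp]
    · have := hcon x hx hxp
      simp [this]
  have h1 := Finset.card_le_card hsub
  rw [hf.card_supp] at h1
  have h2 : ({p, q} : Finset X).card ≤ 2 := Finset.card_le_two
  omega

theorem triCommon_comm (f g : X → ℤ) : triCommon f g = triCommon g f := by
  unfold triCommon
  exact Finset.sum_congr rfl (fun x _ => mul_comm _ _)

/-- two norm-three vectors with inner product one, separated by a third vector, have exactly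
one common point. -/
theorem triCommon_eq_one {f g h : X → ℤ} (hf : IsTri f) (hg : IsTri g)
    (hfg : ∑ x, f x * g x = 1) (hhf : ∑ x, h x * f x = 1) (hhg : ∑ x, h x * g x = 0) :
    triCommon f g = 1 := by
  have hf3 : ∑ x, f x * f x = 3 := hf
  have hg3 : ∑ x, g x * g x = 3 := hg
  have hpar : (2 : ℤ) ∣ triCommon f g - 1 := by
    have h1 : triCommon f g - 1 = ∑ x, (f x * f x * (g x * g x) - f x * g x) := by
      rw [Finset.sum_sub_distrib, hfg]; rfl
    rw [h1]
    apply Finset.dvd_sum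
    intro x _
    rcases hf.val x with h1 | h1 | h1 <;> rcases hg.val x with h2 | h2 | h2 <;> simp [h1, h2]
  have hnn : 0 ≤ triCommon f g :=
    Finset.sum_nonneg (fun x _ => mul_nonneg (mul_self_nonneg _) (mul_self_nonneg _))
  have hle : triCommon f g ≤ 3 := by
    have h1 : triCommon f g ≤ ∑ x, f x * f x := by
      apply Finset.sum_le_sum
      intro x _
      rcases hf.val x with h1 | h1 | h1 <;> rcases hg.val x with h2 | h2 | h2 <;> simp [h1, h2]
    rw [hf3] at h1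
    exact h1
  have hne3 : triCommon f g ≠ 3 := by
    intro h3
    have h3' : ∑ x, f x * f x * (g x * g x) = 3 := h3
    have e1 : ∀ x, f x * f x * (1 - g x * g x) = 0 := by
      have hs : ∑ x, f x * f x * (1 - g x * g x) = 0 := by
        have h4 : ∀ x, f x * f x * (1 - g x * g x) = f x * f x - f x * f x * (g x * g x) :=
          fun x => by ring
        rw [Finset.sum_congr rfl (fun x _ => h4 x), Finset.sum_sub_distrib, hf3, h3']
        rfl
      have hnn' : ∀ x ∈ Finset.univ, 0 ≤ f x * f x * (1 - g x * g x) := by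
        intro x _
        rcases hf.val x with h1 | h1 | h1 <;> rcases hg.val x with h2 | h2 | h2 <;> simp [h1, h2]
      intro x
      exact (Finset.sum_eq_zero_iff_of_nonneg hnn').mp hs x (Finset.mem_univ x)
    have e2 : ∀ x, g x * g x * (1 - f x * f x) = 0 := by
      have hs : ∑ x, g x * g x * (1 - f x * f x) = 0 := by
        have h4 : ∀ x, g x * g x * (1 - f x * f x) = g x * g x - f x * f x * (g x * g x) :=
          fun x => by ring
        rw [Finset.sum_congr rfl (fun x _ => h4 x), Finset.sum_sub_distrib, hg3, h3']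
        rfl
      have hnn' : ∀ x ∈ Finset.univ, 0 ≤ g x * g x * (1 - f x * f x) := by
        intro x _
        rcases hf.val x with h1 | h1 | h1 <;> rcases hg.val x with h2 | h2 | h2 <;> simp [h1, h2]
      intro x
      exact (Finset.sum_eq_zero_iff_of_nonneg hnn').mp hs x (Finset.mem_univ x)
    have hev : ∀ x, (2 : ℤ) ∣ h x * (f x - g x) := by
      intro x
      have h5 := e1 x
      have h6 := e2 x
      have h7 : (2 : ℤ) ∣ f x - g x := by
        rcases hf.val x with h1 | h1 | h1 <;> rcases hg.val x with h2 | h2 | h2 <;>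
          rw [h1, h2] at h5 h6 ⊢ <;> omega
      exact h7.mul_left _
    have h8 : (2 : ℤ) ∣ ∑ x, h x * (f x - g x) := Finset.dvd_sum (fun x _ => hev x)
    have h9 : ∑ x, h x * (f x - g x) = 1 := by
      simp only [mul_sub, Finset.sum_sub_distrib]
      rw [hhf, hhg]
      rfl
    rw [h9] at h8
    omega
  omega

theorem triCommon_exists {f g : X → ℤ} (hc : triCommon f g = 1) : ∃ p, f p ≠ 0 ∧ g p ≠ 0 := by
  by_contra hcon
  push Not at hcon
  have h1 : triCommon f g = 0 := by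
    apply Finset.sum_eq_zero
    intro x _
    by_cases h : f x = 0
    · simp [h]
    · simp [hcon x h]
  omega

theorem triCommon_unique {f g : X → ℤ} (hf : IsTri f) (hg : IsTri g) (hc : triCommon f g = 1)
    {p q : X} (hfp : f p ≠ 0) (hgp : g p ≠ 0) (hfq : f q ≠ 0) (hgq : g q ≠ 0) : p = q := by
  by_contra hpq
  have h2 : f p * f p * (g p * g p) + f q * f q * (g q * g q) ≤ triCommon f g := by
    unfold triCommon
    rw [← Finset.add_sum_erase Finset.univ _ (Finset.mem_univ p)]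
    have h3 : f q * f q * (g q * g q) ≤ ∑ x ∈ Finset.univ.erase p, f x * f x * (g x * g x) :=
      Finset.single_le_sum (f := fun x => f x * f x * (g x * g x))
        (fun y _ => mul_nonneg (mul_self_nonneg _) (mul_self_nonneg _))
        (Finset.mem_erase.mpr ⟨Ne.symm hpq, Finset.mem_univ q⟩)
    linarith
  rw [hf.sq_eq hfp, hg.sq_eq hgp, hf.sq_eq hfq, hg.sq_eq hgq, hc] at h2
  omega

theorem triCommon_mul {f g : X → ℤ} (hf : IsTri f) (hg : IsTri g) (hc : triCommon f g = 1)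
    (hfg : ∑ x, f x * g x = 1) {p : X} (hfp : f p ≠ 0) (hgp : g p ≠ 0) : f p * g p = 1 := by
  have h1 : ∑ x, f x * g x = f p * g p := by
    apply Finset.sum_eq_single p
    · intro x _ hx
      by_contra h
      have hfx : f x ≠ 0 := fun h0 => h (by rw [h0, zero_mul])
      have hgx : g x ≠ 0 := fun h0 => h (by rw [h0, mul_zero])
      exact hx (triCommon_unique hf hg hc hfx hgx hfp hgp)
    · intro h; exact absurd (Finset.mem_univ p) h
  rw [← h1]; exact hfg

theorem triCommon_val_eq {f g : X → ℤ} (hf : IsTri f) (hg : IsTri g) (hc : triCommon f g = 1)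
    (hfg : ∑ x, f x * g x = 1) {p : X} (hfp : f p ≠ 0) (hgp : g p ≠ 0) : f p = g p := by
  have h1 := triCommon_mul hf hg hc hfg hfp hgp
  rcases hf.val p with h | h | h <;> rcases hg.val p with h' | h' | h' <;>
    rw [h, h'] at h1 ⊢ <;> omega

/-- four norm-three vectors pairwise meeting in one point, separated by a fifth vector, have a
point lying on three of them. -/
theorem tri_T2 {a₁ a₂ a₃ a₄ b : X → ℤ} (h₁ : IsTri a₁) (h₂ : IsTri a₂) (h₃ : IsTri a₃)
    (h₄ : IsTri a₄)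
    (c₁₂ : triCommon a₁ a₂ = 1) (c₁₃ : triCommon a₁ a₃ = 1) (c₁₄ : triCommon a₁ a₄ = 1)
    (c₂₃ : triCommon a₂ a₃ = 1) (c₂₄ : triCommon a₂ a₄ = 1) (c₃₄ : triCommon a₃ a₄ = 1)
    (hb₁ : ∑ x, b x * a₁ x = 1) (hb₂ : ∑ x, b x * a₂ x = 0) (hb₃ : ∑ x, b x * a₃ x = 0)
    (hb₄ : ∑ x, b x * a₄ x = 0) :
    ∃ p, 3 ≤ a₁ p * a₁ p + a₂ p * a₂ p + a₃ p * a₃ p + a₄ p * a₄ p := by
  by_contra hcon
  push Not at hcon
  have h₁' : ∑ x, a₁ x * a₁ x = 3 := h₁
  have h₂' : ∑ x, a₂ x * a₂ x = 3 := h₂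
  have h₃' : ∑ x, a₃ x * a₃ x = 3 := h₃
  have h₄' : ∑ x, a₄ x * a₄ x = 3 := h₄
  have c₁₂' : ∑ x, a₁ x * a₁ x * (a₂ x * a₂ x) = 1 := c₁₂
  have c₁₃' : ∑ x, a₁ x * a₁ x * (a₃ x * a₃ x) = 1 := c₁₃
  have c₁₄' : ∑ x, a₁ x * a₁ x * (a₄ x * a₄ x) = 1 := c₁₄
  have c₂₃' : ∑ x, a₂ x * a₂ x * (a₃ x * a₃ x) = 1 := c₂₃
  have c₂₄' : ∑ x, a₂ x * a₂ x * (a₄ x * a₄ x) = 1 := c₂₄
  have c₃₄' : ∑ x, a₃ x * a₃ x * (a₄ x * a₄ x) = 1 := c₃₄
  have hid : ∀ {a : X → ℤ}, IsTri a → ∀ x, a x * a x * (a x * a x) = a x * a x := by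
    intro a ha x
    rcases ha.val x with h | h | h <;> simp [h]
  have hN : ∀ x, (a₁ x * a₁ x + a₂ x * a₂ x + a₃ x * a₃ x + a₄ x * a₄ x) *
      (2 - (a₁ x * a₁ x + a₂ x * a₂ x + a₃ x * a₃ x + a₄ x * a₄ x))
      = (a₁ x * a₁ x + a₂ x * a₂ x + a₃ x * a₃ x + a₄ x * a₄ x) -
        2 * (a₁ x * a₁ x * (a₂ x * a₂ x) + a₁ x * a₁ x * (a₃ x * a₃ x) +
          a₁ x * a₁ x * (a₄ x * a₄ x) + a₂ x * a₂ x * (a₃ x * a₃ x) +
          a₂ x * a₂ x * (a₄ x * a₄ x) + a₃ x * a₃ x * (a₄ x * a₄ x)) := by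
    intro x
    have e₁ := hid h₁ x
    have e₂ := hid h₂ x
    have e₃ := hid h₃ x
    have e₄ := hid h₄ x
    linear_combination (-1 : ℤ) * e₁ - e₂ - e₃ - e₄
  have hsum : ∑ x, (a₁ x * a₁ x + a₂ x * a₂ x + a₃ x * a₃ x + a₄ x * a₄ x) *
      (2 - (a₁ x * a₁ x + a₂ x * a₂ x + a₃ x * a₃ x + a₄ x * a₄ x)) = 0 := by
    rw [Finset.sum_congr rfl (fun x _ => hN x)]
    simp only [Finset.sum_sub_distrib, Finset.sum_add_distrib, ← Finset.mul_sum]
    rw [h₁', h₂', h₃', h₄', c₁₂', c₁₃', c₁₄', c₂₃', c₂₄', c₃₄']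
    rfl
  have hnn : ∀ x ∈ (Finset.univ : Finset X),
      0 ≤ (a₁ x * a₁ x + a₂ x * a₂ x + a₃ x * a₃ x + a₄ x * a₄ x) *
        (2 - (a₁ x * a₁ x + a₂ x * a₂ x + a₃ x * a₃ x + a₄ x * a₄ x)) := by
    intro x _
    have h1 := hcon x
    have h2 : 0 ≤ a₁ x * a₁ x + a₂ x * a₂ x + a₃ x * a₃ x + a₄ x * a₄ x := by
      have := mul_self_nonneg (a₁ x)
      have := mul_self_nonneg (a₂ x)
      have := mul_self_nonneg (a₃ x)
      have := mul_self_nonneg (a₄ x)
      omega
    exact mul_nonneg h2 (by omega)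
  have hpar : ∀ {a : X → ℤ}, IsTri a → ∀ x, ∃ k : ℤ, a x * a x = a x + 2 * k := by
    intro a ha x
    rcases ha.val x with h | h | h
    · exact ⟨0, by rw [h]; rfl⟩
    · exact ⟨0, by rw [h]; rfl⟩
    · exact ⟨1, by rw [h]; rfl⟩
  have hev : ∀ x, (2 : ℤ) ∣ a₁ x + a₂ x + a₃ x + a₄ x := by
    intro x
    have hx := (Finset.sum_eq_zero_iff_of_nonneg hnn).mp hsum x (Finset.mem_univ x)
    have hN2 : a₁ x * a₁ x + a₂ x * a₂ x + a₃ x * a₃ x + a₄ x * a₄ x = 0 ∨
        a₁ x * a₁ x + a₂ x * a₂ x + a₃ x * a₃ x + a₄ x * a₄ x = 2 := by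
      rcases mul_eq_zero.mp hx with h | h
      · left; exact h
      · right; omega
    obtain ⟨k₁, hk₁⟩ := hpar h₁ x
    obtain ⟨k₂, hk₂⟩ := hpar h₂ x
    obtain ⟨k₃, hk₃⟩ := hpar h₃ x
    obtain ⟨k₄, hk₄⟩ := hpar h₄ x
    omega
  have h8 : (2 : ℤ) ∣ ∑ x, b x * (a₁ x + a₂ x + a₃ x + a₄ x) :=
    Finset.dvd_sum (fun x _ => (hev x).mul_left _)
  have h9 : ∑ x, b x * (a₁ x + a₂ x + a₃ x + a₄ x) = 1 := by
    simp only [mul_add, Finset.sum_add_distrib]
    rw [hb₁, hb₂, hb₃, hb₄]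
    rfl
  rw [h9] at h8
  omega

end Tri

end Cfsg.Agent.Helper25
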