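import Mathlib
import Cfsg.Agent.Helper25.CycEx1

/-!
# The configuration `T1` (helper25)

Combinatorial core of Peterfalvi (3.5): if three norm-three vectors of a row pass through a
point, so does a fourth (`tri_T1`).  The proof reduces to a finite integer problem (`t1_core`).
-/

set_option autoImplicit false
set_option linter.style.haveILetI false
set_option linter.unusedVariables false
set_option linter.unusedSectionVars false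
set_option maxHeartbeats 4000000

namespace Cfsg.Agent.Helper25

/-- one row of the `T1` integer problem. -/
def T1Row (d1 d2 d3 d4 x p q r s t w n : ℤ) : Prop :=
  (-1 ≤ x ∧ x ≤ 1) ∧ (-1 ≤ p ∧ p ≤ 1) ∧ (-1 ≤ q ∧ q ≤ 1) ∧ (-1 ≤ r ∧ r ≤ 1) ∧
  (-1 ≤ s ∧ s ≤ 1) ∧ (-1 ≤ t ∧ t ≤ 1) ∧ (-1 ≤ w ∧ w ≤ 1) ∧
  x + p + s = d1 ∧ x + q + t = d2 ∧ x + r + w = d3 ∧ p + q + r = d4 ∧
  x * x + p * p + q * q + r * r + s * s + t * t + w * w + n = 3 ∧ 0 ≤ n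

/-- compatibility of two rows. -/
def T1Pair (x p q r s t w n x' p' q' r' s' t' w' n' : ℤ) : Prop :=
  ∃ R : ℤ, x * x' + p * p' + q * q' + r * r' + s * s' + t * t' + w * w' + R = 1 ∧
    -n ≤ R ∧ R ≤ n ∧ -n' ≤ R ∧ R ≤ n'

theorem t1_cand1 {x p q r s t w n : ℤ} (h : T1Row 1 0 0 0 x p q r s t w n) :
    (x = 0 ∧ p = 0 ∧ q = 0 ∧ r = 0 ∧ s = 1 ∧ t = 0 ∧ w = 0) ∨
    (x = 0 ∧ p = 1 ∧ q = -1 ∧ r = 0 ∧ s = 0 ∧ t = 1 ∧ w = 0) ∨
    (x = 0 ∧ p = 1 ∧ q = 0 ∧ r = -1 ∧ s = 0 ∧ t = 0 ∧ w = 1) ∨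
    (x = 1 ∧ p = 0 ∧ q = 0 ∧ r = 0 ∧ s = 0 ∧ t = -1 ∧ w = -1) := by
  obtain ⟨hx, hp, hq, hr, hs, ht, hw, e1, e2, e3, e4, hn, hn0⟩ := h
  have hp' : p = 1 - x - s := by omega
  have hq' : q = 0 - x - t := by omega
  have hr' : r = 0 - x - w := by omega
  subst hp' hq' hr'
  have hx' : x = -1 ∨ x = 0 ∨ x = 1 := by omega
  have hs' : s = -1 ∨ s = 0 ∨ s = 1 := by omega
  have ht' : t = -1 ∨ t = 0 ∨ t = 1 := by omega
  have hw' : w = -1 ∨ w = 0 ∨ w = 1 := by omega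
  rcases hx' with rfl | rfl | rfl <;> rcases hs' with rfl | rfl | rfl <;>
    rcases ht' with rfl | rfl | rfl <;> rcases hw' with rfl | rfl | rfl <;> omega

theorem t1_cand2 {x p q r s t w n : ℤ} (h : T1Row 0 1 0 0 x p q r s t w n) :
    (x = 0 ∧ p = -1 ∧ q = 1 ∧ r = 0 ∧ s = 1 ∧ t = 0 ∧ w = 0) ∨
    (x = 0 ∧ p = 0 ∧ q = 0 ∧ r = 0 ∧ s = 0 ∧ t = 1 ∧ w = 0) ∨
    (x = 0 ∧ p = 0 ∧ q = 1 ∧ r = -1 ∧ s = 0 ∧ t = 0 ∧ w = 1) ∨
    (x = 1 ∧ p = 0 ∧ q = 0 ∧ r = 0 ∧ s = -1 ∧ t = 0 ∧ w = -1) := by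
  obtain ⟨hx, hp, hq, hr, hs, ht, hw, e1, e2, e3, e4, hn, hn0⟩ := h
  have hp' : p = 0 - x - s := by omega
  have hq' : q = 1 - x - t := by omega
  have hr' : r = 0 - x - w := by omega
  subst hp' hq' hr'
  have hx' : x = -1 ∨ x = 0 ∨ x = 1 := by omega
  have hs' : s = -1 ∨ s = 0 ∨ s = 1 := by omega
  have ht' : t = -1 ∨ t = 0 ∨ t = 1 := by omega
  have hw' : w = -1 ∨ w = 0 ∨ w = 1 := by omega
  rcases hx' with rfl | rfl | rfl <;> rcases hs' with rfl | rfl | rfl <;>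
    rcases ht' with rfl | rfl | rfl <;> rcases hw' with rfl | rfl | rfl <;> omega

theorem t1_cand3 {x p q r s t w n : ℤ} (h : T1Row 0 0 1 0 x p q r s t w n) :
    (x = 0 ∧ p = -1 ∧ q = 0 ∧ r = 1 ∧ s = 1 ∧ t = 0 ∧ w = 0) ∨
    (x = 0 ∧ p = 0 ∧ q = -1 ∧ r = 1 ∧ s = 0 ∧ t = 1 ∧ w = 0) ∨
    (x = 0 ∧ p = 0 ∧ q = 0 ∧ r = 0 ∧ s = 0 ∧ t = 0 ∧ w = 1) ∨
    (x = 1 ∧ p = 0 ∧ q = 0 ∧ r = 0 ∧ s = -1 ∧ t = -1 ∧ w = 0) := by
  obtain ⟨hx, hp, hq, hr, hs, ht, hw, e1, e2, e3, e4, hn, hn0⟩ := h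
  have hp' : p = 0 - x - s := by omega
  have hq' : q = 0 - x - t := by omega
  have hr' : r = 1 - x - w := by omega
  subst hp' hq' hr'
  have hx' : x = -1 ∨ x = 0 ∨ x = 1 := by omega
  have hs' : s = -1 ∨ s = 0 ∨ s = 1 := by omega
  have ht' : t = -1 ∨ t = 0 ∨ t = 1 := by omega
  have hw' : w = -1 ∨ w = 0 ∨ w = 1 := by omega
  rcases hx' with rfl | rfl | rfl <;> rcases hs' with rfl | rfl | rfl <;>
    rcases ht' with rfl | rfl | rfl <;> rcases hw' with rfl | rfl | rfl <;> omega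

theorem t1_cand4 {x p q r s t w n : ℤ} (h : T1Row 0 0 0 1 x p q r s t w n) :
    (x = 0 ∧ p = 0 ∧ q = 0 ∧ r = 1 ∧ s = 0 ∧ t = 0 ∧ w = -1) ∨
    (x = 0 ∧ p = 0 ∧ q = 1 ∧ r = 0 ∧ s = 0 ∧ t = -1 ∧ w = 0) ∨
    (x = 0 ∧ p = 1 ∧ q = 0 ∧ r = 0 ∧ s = -1 ∧ t = 0 ∧ w = 0) := by
  obtain ⟨hx, hp, hq, hr, hs, ht, hw, e1, e2, e3, e4, hn, hn0⟩ := h
  have hp' : p = 0 - x - s := by omega
  have hq' : q = 0 - x - t := by omega
  have hr' : r = 0 - x - w := by omega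
  subst hp' hq' hr'
  have hx' : x = -1 ∨ x = 0 ∨ x = 1 := by omega
  have hs' : s = -1 ∨ s = 0 ∨ s = 1 := by omega
  have ht' : t = -1 ∨ t = 0 ∨ t = 1 := by omega
  have hw' : w = -1 ∨ w = 0 ∨ w = 1 := by omega
  rcases hx' with rfl | rfl | rfl <;> rcases hs' with rfl | rfl | rfl <;>
    rcases ht' with rfl | rfl | rfl <;> rcases hw' with rfl | rfl | rfl <;> omega

theorem t1_core {x1 p1 q1 r1 s1 t1 w1 n1 x2 p2 q2 r2 s2 t2 w2 n2 x3 p3 q3 r3 s3 t3 w3 n3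
    x4 p4 q4 r4 s4 t4 w4 n4 : ℤ}
    (h1 : T1Row 1 0 0 0 x1 p1 q1 r1 s1 t1 w1 n1) (h2 : T1Row 0 1 0 0 x2 p2 q2 r2 s2 t2 w2 n2)
    (h3 : T1Row 0 0 1 0 x3 p3 q3 r3 s3 t3 w3 n3) (h4 : T1Row 0 0 0 1 x4 p4 q4 r4 s4 t4 w4 n4)
    (h12 : T1Pair x1 p1 q1 r1 s1 t1 w1 n1 x2 p2 q2 r2 s2 t2 w2 n2)
    (h13 : T1Pair x1 p1 q1 r1 s1 t1 w1 n1 x3 p3 q3 r3 s3 t3 w3 n3)
    (h14 : T1Pair x1 p1 q1 r1 s1 t1 w1 n1 x4 p4 q4 r4 s4 t4 w4 n4)
    (h23 : T1Pair x2 p2 q2 r2 s2 t2 w2 n2 x3 p3 q3 r3 s3 t3 w3 n3)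
    (h24 : T1Pair x2 p2 q2 r2 s2 t2 w2 n2 x4 p4 q4 r4 s4 t4 w4 n4)
    (h34 : T1Pair x3 p3 q3 r3 s3 t3 w3 n3 x4 p4 q4 r4 s4 t4 w4 n4) : False := by
  have c1 := t1_cand1 h1
  have c2 := t1_cand2 h2
  have c3 := t1_cand3 h3
  have c4 := t1_cand4 h4
  obtain ⟨-, -, -, -, -, -, -, -, -, -, -, hn1, hn1'⟩ := h1
  obtain ⟨-, -, -, -, -, -, -, -, -, -, -, hn2, hn2'⟩ := h2
  obtain ⟨-, -, -, -, -, -, -, -, -, -, -, hn3, hn3'⟩ := h3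
  obtain ⟨-, -, -, -, -, -, -, -, -, -, -, hn4, hn4'⟩ := h4
  obtain ⟨R12, e12, b12⟩ := h12
  obtain ⟨R13, e13, b13⟩ := h13
  obtain ⟨R14, e14, b14⟩ := h14
  obtain ⟨R23, e23, b23⟩ := h23
  obtain ⟨R24, e24, b24⟩ := h24
  obtain ⟨R34, e34, b34⟩ := h34
  rcases c1 with ⟨rfl, rfl, rfl, rfl, rfl, rfl, rfl⟩ | ⟨rfl, rfl, rfl, rfl, rfl, rfl, rfl⟩ |
      ⟨rfl, rfl, rfl, rfl, rfl, rfl, rfl⟩ | ⟨rfl, rfl, rfl, rfl, rfl, rfl, rfl⟩ <;>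
    rcases c4 with ⟨rfl, rfl, rfl, rfl, rfl, rfl, rfl⟩ | ⟨rfl, rfl, rfl, rfl, rfl, rfl, rfl⟩ |
      ⟨rfl, rfl, rfl, rfl, rfl, rfl, rfl⟩ <;>
    first
    | omega
    | (rcases c2 with ⟨rfl, rfl, rfl, rfl, rfl, rfl, rfl⟩ | ⟨rfl, rfl, rfl, rfl, rfl, rfl, rfl⟩ |
        ⟨rfl, rfl, rfl, rfl, rfl, rfl, rfl⟩ | ⟨rfl, rfl, rfl, rfl, rfl, rfl, rfl⟩ <;>
       first
       | omega
       | (rcases c3 with ⟨rfl, rfl, rfl, rfl, rfl, rfl, rfl⟩ | ⟨rfl, rfl, rfl, rfl, rfl, rfl, rfl⟩ |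
          ⟨rfl, rfl, rfl, rfl, rfl, rfl, rfl⟩ | ⟨rfl, rfl, rfl, rfl, rfl, rfl, rfl⟩ <;> omega))


section T1

variable {X : Type*} [Fintype X] [DecidableEq X]

theorem tri_mul_bounds {f g : X → ℤ} (hf : IsTri f) (hg : IsTri g) (x y : X) :
    -1 ≤ f x * g y ∧ f x * g y ≤ 1 := by
  rcases hf.val x with h | h | h <;> rcases hg.val y with h' | h' | h' <;> rw [h, h'] <;>
    constructor <;> decide

theorem tri_weight_bound {f g w : X → ℤ} (hf : IsTri f) (hg : IsTri g)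
    (hw : ∀ x, w x = 0 ∨ w x = 1) :
    -(∑ x, f x * f x * w x) ≤ ∑ x, f x * g x * w x ∧
      ∑ x, f x * g x * w x ≤ ∑ x, f x * f x * w x := by
  constructor
  · rw [← Finset.sum_neg_distrib]
    apply Finset.sum_le_sum
    intro x _
    rcases hf.val x with h | h | h <;> rcases hg.val x with h' | h' | h' <;>
      rcases hw x with h'' | h'' <;> rw [h, h', h''] <;> decide
  · apply Finset.sum_le_sum
    intro x _
    rcases hf.val x with h | h | h <;> rcases hg.val x with h' | h' | h' <;>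
      rcases hw x with h'' | h'' <;> rw [h, h', h''] <;> decide

/-- If three of four norm-three vectors of a row (pairwise meeting in one point, with a dual
row `b`) pass through `p`, then so does the fourth. -/
theorem tri_T1 {a b : Fin 4 → X → ℤ} (ha : ∀ m, IsTri (a m)) (hb : ∀ m, IsTri (b m))
    (hc : ∀ m m', m ≠ m' → triCommon (a m) (a m') = 1)
    (haa : ∀ m m', m ≠ m' → ∑ x, a m x * a m' x = 1)
    (hba : ∀ l m, ∑ x, b l x * a m x = if l = m then 1 else 0)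
    (hbb : ∀ l l', l ≠ l' → ∑ x, b l x * b l' x = 1)
    {p : X} (hp₀ : a 0 p ≠ 0) (hp₁ : a 1 p ≠ 0) (hp₂ : a 2 p ≠ 0) : a 3 p ≠ 0 := by
  intro h4
  have c01 := hc 0 1 (by decide)
  have c02 := hc 0 2 (by decide)
  have c12 := hc 1 2 (by decide)
  have c03 := hc 0 3 (by decide)
  have c13 := hc 1 3 (by decide)
  have c23 := hc 2 3 (by decide)
  obtain ⟨u₀, hu₀, hu₀'⟩ := triCommon_exists c03
  obtain ⟨u₁, hu₁, hu₁'⟩ := triCommon_exists c13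
  obtain ⟨u₂, hu₂, hu₂'⟩ := triCommon_exists c23
  have hu₀p : u₀ ≠ p := by
    intro h; rw [h] at hu₀'; exact hu₀' h4
  have hu₁p : u₁ ≠ p := by
    intro h; rw [h] at hu₁'; exact hu₁' h4
  have hu₂p : u₂ ≠ p := by
    intro h; rw [h] at hu₂'; exact hu₂' h4
  obtain ⟨v₀, hv₀, hv₀p, hv₀u⟩ := (ha 0).exists_third hp₀ hu₀
  obtain ⟨v₁, hv₁, hv₁p, hv₁u⟩ := (ha 1).exists_third hp₁ hu₁
  obtain ⟨v₂, hv₂, hv₂p, hv₂u⟩ := (ha 2).exists_third hp₂ hu₂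
  have hu01 : u₀ ≠ u₁ := by
    intro h
    rw [← h] at hu₁
    exact hu₀p (triCommon_unique (ha 0) (ha 1) c01 hu₀ hu₁ hp₀ hp₁)
  have hu02 : u₀ ≠ u₂ := by
    intro h
    rw [← h] at hu₂
    exact hu₀p (triCommon_unique (ha 0) (ha 2) c02 hu₀ hu₂ hp₀ hp₂)
  have hu12 : u₁ ≠ u₂ := by
    intro h
    rw [← h] at hu₂
    exact hu₁p (triCommon_unique (ha 1) (ha 2) c12 hu₁ hu₂ hp₁ hp₂)
  have S₀ : ∀ g : X → ℤ, ∑ x, g x * a 0 x = g p * a 0 p + g u₀ * a 0 u₀ + g v₀ * a 0 v₀ :=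
    fun g => (ha 0).sum_mul (Ne.symm hu₀p) (Ne.symm hv₀p) (Ne.symm hv₀u) hp₀ hu₀ hv₀ g
  have S₁ : ∀ g : X → ℤ, ∑ x, g x * a 1 x = g p * a 1 p + g u₁ * a 1 u₁ + g v₁ * a 1 v₁ :=
    fun g => (ha 1).sum_mul (Ne.symm hu₁p) (Ne.symm hv₁p) (Ne.symm hv₁u) hp₁ hu₁ hv₁ g
  have S₂ : ∀ g : X → ℤ, ∑ x, g x * a 2 x = g p * a 2 p + g u₂ * a 2 u₂ + g v₂ * a 2 v₂ :=
    fun g => (ha 2).sum_mul (Ne.symm hu₂p) (Ne.symm hv₂p) (Ne.symm hv₂u) hp₂ hu₂ hv₂ g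
  have S₃ : ∀ g : X → ℤ, ∑ x, g x * a 3 x = g u₀ * a 3 u₀ + g u₁ * a 3 u₁ + g u₂ * a 3 u₂ :=
    fun g => (ha 3).sum_mul hu01 hu02 hu12 hu₀' hu₁' hu₂' g
  have sg₁ : a 1 p = a 0 p :=
    (triCommon_val_eq (ha 0) (ha 1) c01 (haa 0 1 (by decide)) hp₀ hp₁).symm
  have sg₂ : a 2 p = a 0 p :=
    (triCommon_val_eq (ha 0) (ha 2) c02 (haa 0 2 (by decide)) hp₀ hp₂).symm
  have sg₃₀ : a 3 u₀ = a 0 u₀ :=
    (triCommon_val_eq (ha 0) (ha 3) c03 (haa 0 3 (by decide)) hu₀ hu₀').symm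
  have sg₃₁ : a 3 u₁ = a 1 u₁ :=
    (triCommon_val_eq (ha 1) (ha 3) c13 (haa 1 3 (by decide)) hu₁ hu₁').symm
  have sg₃₂ : a 3 u₂ = a 2 u₂ :=
    (triCommon_val_eq (ha 2) (ha 3) c23 (haa 2 3 (by decide)) hu₂ hu₂').symm
  have q₀p := (ha 0).sq_eq hp₀
  have q₀u := (ha 0).sq_eq hu₀
  have q₀v := (ha 0).sq_eq hv₀
  have q₁u := (ha 1).sq_eq hu₁
  have q₁v := (ha 1).sq_eq hv₁
  have q₂u := (ha 2).sq_eq hu₂
  have q₂v := (ha 2).sq_eq hv₂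
  obtain ⟨w, hwdef⟩ : ∃ w : X → ℤ, w = fun x => 1 - a 0 x * a 0 x - a 1 x * a 1 x -
      a 2 x * a 2 x + 2 * (if x = p then 1 else 0) := ⟨_, rfl⟩
  have hw : ∀ x, w x = 0 ∨ w x = 1 := by
    intro x
    rw [hwdef]
    by_cases hx : x = p
    · left
      show 1 - a 0 x * a 0 x - a 1 x * a 1 x - a 2 x * a 2 x + 2 * (if x = p then 1 else 0) = 0
      rw [if_pos hx, hx, q₀p, sg₁, sg₂, q₀p]
      rfl
    · show 1 - a 0 x * a 0 x - a 1 x * a 1 x - a 2 x * a 2 x + 2 * (if x = p then 1 else 0) = 0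
        ∨ 1 - a 0 x * a 0 x - a 1 x * a 1 x - a 2 x * a 2 x + 2 * (if x = p then 1 else 0) = 1
      rw [if_neg hx]
      have h01 : a 0 x = 0 ∨ a 1 x = 0 := by
        by_contra hcon
        push Not at hcon
        exact hx (triCommon_unique (ha 0) (ha 1) c01 hcon.1 hcon.2 hp₀ hp₁)
      have h02 : a 0 x = 0 ∨ a 2 x = 0 := by
        by_contra hcon
        push Not at hcon
        exact hx (triCommon_unique (ha 0) (ha 2) c02 hcon.1 hcon.2 hp₀ hp₂)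
      have h12 : a 1 x = 0 ∨ a 2 x = 0 := by
        by_contra hcon
        push Not at hcon
        exact hx (triCommon_unique (ha 1) (ha 2) c12 hcon.1 hcon.2 hp₁ hp₂)
      have hs : ∀ m, (a m x = 0 ∧ a m x * a m x = 0) ∨ (a m x ≠ 0 ∧ a m x * a m x = 1) := by
        intro m
        by_cases hm : a m x = 0
        · left; exact ⟨hm, by rw [hm]; rfl⟩
        · right; exact ⟨hm, (ha m).sq_eq hm⟩
      have hs0 := hs 0
      have hs1 := hs 1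
      have hs2 := hs 2
      omega
  have D : ∀ g : X → ℤ, ∑ x, g x =
      (g p + g u₀ + g u₁ + g u₂ + g v₀ + g v₁ + g v₂) + ∑ x, g x * w x := by
    intro g
    have e₀ : ∑ x, g x * a 0 x * a 0 x
        = g p * a 0 p * a 0 p + g u₀ * a 0 u₀ * a 0 u₀ + g v₀ * a 0 v₀ * a 0 v₀ :=
      S₀ (fun x => g x * a 0 x)
    have e₁ : ∑ x, g x * a 1 x * a 1 x
        = g p * a 1 p * a 1 p + g u₁ * a 1 u₁ * a 1 u₁ + g v₁ * a 1 v₁ * a 1 v₁ :=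
      S₁ (fun x => g x * a 1 x)
    have e₂ : ∑ x, g x * a 2 x * a 2 x
        = g p * a 2 p * a 2 p + g u₂ * a 2 u₂ * a 2 u₂ + g v₂ * a 2 v₂ * a 2 v₂ :=
      S₂ (fun x => g x * a 2 x)
    have e₃ : ∑ x, g x * (if x = p then 1 else 0) = g p := by simp
    have h5 : ∀ x, g x = g x * a 0 x * a 0 x + g x * a 1 x * a 1 x + g x * a 2 x * a 2 x -
        2 * (g x * (if x = p then 1 else 0)) + g x * w x := by
      intro x
      rw [hwdef]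
      ring
    have key : ∑ x, g x = ∑ x, (g x * a 0 x * a 0 x + g x * a 1 x * a 1 x + g x * a 2 x * a 2 x -
        2 * (g x * (if x = p then 1 else 0)) + g x * w x) :=
      Finset.sum_congr rfl (fun x _ => h5 x)
    rw [key, Finset.sum_add_distrib, Finset.sum_sub_distrib, Finset.sum_add_distrib,
      Finset.sum_add_distrib, ← Finset.mul_sum, e₃, e₀, e₁, e₂, sg₁, sg₂]
    linear_combination (3 * g p) * q₀p + g u₀ * q₀u + g v₀ * q₀v + g u₁ * q₁u + g v₁ * q₁v +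
      g u₂ * q₂u + g v₂ * q₂v
  have hnn : ∀ l, 0 ≤ ∑ x, b l x * b l x * w x := by
    intro l
    apply Finset.sum_nonneg
    intro x _
    rcases hw x with h | h
    · rw [h, mul_zero]
    · rw [h, mul_one]; exact mul_self_nonneg _
  have row : ∀ (l : Fin 4) (d0 d1 d2 d3 : ℤ), ∑ x, b l x * a 0 x = d0 → ∑ x, b l x * a 1 x = d1 →
      ∑ x, b l x * a 2 x = d2 → ∑ x, b l x * a 3 x = d3 →
      T1Row d0 d1 d2 d3 (b l p * a 0 p) (b l u₀ * a 0 u₀) (b l u₁ * a 1 u₁) (b l u₂ * a 2 u₂)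
        (b l v₀ * a 0 v₀) (b l v₁ * a 1 v₁) (b l v₂ * a 2 v₂) (∑ x, b l x * b l x * w x) := by
    intro l d0 d1 d2 d3 e0 e1 e2 e3
    rw [S₀] at e0
    rw [S₁, sg₁] at e1
    rw [S₂, sg₂] at e2
    rw [S₃, sg₃₀, sg₃₁, sg₃₂] at e3
    have hD := D (fun x => b l x * b l x)
    have h3 : ∑ x, b l x * b l x = 3 := hb l
    rw [h3] at hD
    refine ⟨tri_mul_bounds (hb l) (ha 0) p p, tri_mul_bounds (hb l) (ha 0) u₀ u₀,
      tri_mul_bounds (hb l) (ha 1) u₁ u₁, tri_mul_bounds (hb l) (ha 2) u₂ u₂,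
      tri_mul_bounds (hb l) (ha 0) v₀ v₀, tri_mul_bounds (hb l) (ha 1) v₁ v₁,
      tri_mul_bounds (hb l) (ha 2) v₂ v₂, e0, e1, e2, e3, ?_, hnn l⟩
    linear_combination (-1 : ℤ) * hD + (b l p * b l p) * q₀p + (b l u₀ * b l u₀) * q₀u +
      (b l v₀ * b l v₀) * q₀v + (b l u₁ * b l u₁) * q₁u + (b l v₁ * b l v₁) * q₁v +
      (b l u₂ * b l u₂) * q₂u + (b l v₂ * b l v₂) * q₂v
  have pair : ∀ l l' : Fin 4, l ≠ l' →
      T1Pair (b l p * a 0 p) (b l u₀ * a 0 u₀) (b l u₁ * a 1 u₁) (b l u₂ * a 2 u₂)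
        (b l v₀ * a 0 v₀) (b l v₁ * a 1 v₁) (b l v₂ * a 2 v₂) (∑ x, b l x * b l x * w x)
        (b l' p * a 0 p) (b l' u₀ * a 0 u₀) (b l' u₁ * a 1 u₁) (b l' u₂ * a 2 u₂)
        (b l' v₀ * a 0 v₀) (b l' v₁ * a 1 v₁) (b l' v₂ * a 2 v₂) (∑ x, b l' x * b l' x * w x) := by
    intro l l' hll
    have hD := D (fun x => b l x * b l' x)
    rw [hbb l l' hll] at hD
    have hB1 := tri_weight_bound (hb l) (hb l') hw
    have hB2 := tri_weight_bound (hb l') (hb l) hw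
    have hsw : ∑ x, b l' x * b l x * w x = ∑ x, b l x * b l' x * w x :=
      Finset.sum_congr rfl (fun x _ => by ring)
    rw [hsw] at hB2
    refine ⟨∑ x, b l x * b l' x * w x, ?_, hB1.1, hB1.2, hB2.1, hB2.2⟩
    linear_combination (-1 : ℤ) * hD + (b l p * b l' p) * q₀p + (b l u₀ * b l' u₀) * q₀u +
      (b l v₀ * b l' v₀) * q₀v + (b l u₁ * b l' u₁) * q₁u + (b l v₁ * b l' v₁) * q₁v +
      (b l u₂ * b l' u₂) * q₂u + (b l v₂ * b l' v₂) * q₂v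
  exact t1_core
    (row 0 1 0 0 0 ((hba 0 0).trans (if_pos rfl)) ((hba 0 1).trans (if_neg (by decide)))
      ((hba 0 2).trans (if_neg (by decide))) ((hba 0 3).trans (if_neg (by decide))))
    (row 1 0 1 0 0 ((hba 1 0).trans (if_neg (by decide))) ((hba 1 1).trans (if_pos rfl))
      ((hba 1 2).trans (if_neg (by decide))) ((hba 1 3).trans (if_neg (by decide))))
    (row 2 0 0 1 0 ((hba 2 0).trans (if_neg (by decide))) ((hba 2 1).trans (if_neg (by decide)))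
      ((hba 2 2).trans (if_pos rfl)) ((hba 2 3).trans (if_neg (by decide))))
    (row 3 0 0 0 1 ((hba 3 0).trans (if_neg (by decide))) ((hba 3 1).trans (if_neg (by decide)))
      ((hba 3 2).trans (if_neg (by decide))) ((hba 3 3).trans (if_pos rfl)))
    (pair 0 1 (by decide)) (pair 0 2 (by decide)) (pair 0 3 (by decide))
    (pair 1 2 (by decide)) (pair 1 3 (by decide)) (pair 2 3 (by decide))

end T1

end Cfsg.Agent.Helper25
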