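import Mathlib
import Cfsg.Agent.Helper25.CycEx2

/-!
# The structure of a grid of norm-three vectors (helper25)

Peterfalvi (3.5), combinatorial form: a family `β i j` of integer vectors with
`⟨β i j, β k l⟩ = δ_ik + δ_jl + δ_ik δ_jl` is of the form `β i j = ε i x_i + η j y_j + θ i j z_ij`
for pairwise distinct points, provided the index sets have size `2` or `≥ 4`, not both `2`.
-/

set_option autoImplicit false
set_option linter.style.haveILetI false
set_option linter.unusedVariables false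
set_option linter.unusedSectionVars false
set_option maxHeartbeats 1000000

namespace Cfsg.Agent.Helper25

theorem injective_vec4 {α : Type*} {a b c d : α} (hab : a ≠ b) (hac : a ≠ c) (had : a ≠ d)
    (hbc : b ≠ c) (hbd : b ≠ d) (hcd : c ≠ d) : Function.Injective ![a, b, c, d] := by
  have hba := hab.symm
  have hca := hac.symm
  have hda := had.symm
  have hcb := hbc.symm
  have hdb := hbd.symm
  have hdc := hcd.symm
  intro x y hxy
  fin_cases x <;> fin_cases y <;> simp_all

section Grid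

variable {X : Type*} [Fintype X] [DecidableEq X] {I J : Type*} [Fintype I] [Fintype J]
  [DecidableEq I] [DecidableEq J]

/-- The Gram condition of Peterfalvi (3.5). -/
def IsGrid (β : I → J → X → ℤ) : Prop :=
  ∀ i j k l, ∑ x, β i j x * β k l x =
    (if i = k then 1 else 0) + (if j = l then 1 else 0) + (if i = k ∧ j = l then 1 else 0)

variable {β : I → J → X → ℤ}

theorem IsGrid.tri (h : IsGrid β) (i : I) (j : J) : IsTri (β i j) := by
  have h1 := h i j i j
  simp only [if_true, and_self] at h1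
  exact h1

theorem IsGrid.transpose (h : IsGrid β) : IsGrid (fun (j : J) (i : I) => β i j) := by
  intro j i l k
  have h1 := h i j k l
  show ∑ x, β i j x * β k l x = _
  rw [h1]
  by_cases h1 : i = k <;> by_cases h2 : j = l <;> simp [h1, h2]

theorem IsGrid.row_inner (h : IsGrid β) (i : I) {j l : J} (hjl : j ≠ l) :
    ∑ x, β i j x * β i l x = 1 := by
  have h1 := h i j i l
  simpa [hjl] using h1

theorem IsGrid.col_inner (h : IsGrid β) {i k : I} (hik : i ≠ k) (j : J) :
    ∑ x, β i j x * β k j x = 1 := by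
  have h1 := h i j k j
  simpa [hik] using h1

theorem IsGrid.off_inner (h : IsGrid β) {i k : I} (hik : i ≠ k) {j l : J} (hjl : j ≠ l) :
    ∑ x, β i j x * β k l x = 0 := by
  have h1 := h i j k l
  simpa [hik, hjl] using h1

theorem IsGrid.row_common (h : IsGrid β) {i k : I} (hik : i ≠ k) {j l : J} (hjl : j ≠ l) :
    triCommon (β i j) (β i l) = 1 :=
  triCommon_eq_one (h.tri i j) (h.tri i l) (h.row_inner i hjl) (h.col_inner (Ne.symm hik) j)
    (h.off_inner (Ne.symm hik) hjl)

theorem IsGrid.col_common (h : IsGrid β) {i k : I} (hik : i ≠ k) {j l : J} (hjl : j ≠ l) :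
    triCommon (β i j) (β k j) = 1 :=
  triCommon_eq_one (h.tri i j) (h.tri k j) (h.col_inner hik j) (h.row_inner i (Ne.symm hjl))
    (h.off_inner hik (Ne.symm hjl))

/-- four entries of a row have a common point. -/
theorem IsGrid.four_common (h : IsGrid β) {i k : I} (hik : i ≠ k) (l : Fin 4 → J)
    (hl : Function.Injective l) : ∃ p, ∀ m, β i (l m) p ≠ 0 := by
  have hne : ∀ m m' : Fin 4, m ≠ m' → l m ≠ l m' := fun m m' hmm hh => hmm (hl hh)
  obtain ⟨p, hp⟩ := tri_T2 (a₁ := β i (l 0)) (a₂ := β i (l 1)) (a₃ := β i (l 2))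
    (a₄ := β i (l 3)) (b := β k (l 0))
    (h.tri _ _) (h.tri _ _) (h.tri _ _) (h.tri _ _)
    (h.row_common hik (hne 0 1 (by decide))) (h.row_common hik (hne 0 2 (by decide)))
    (h.row_common hik (hne 0 3 (by decide))) (h.row_common hik (hne 1 2 (by decide)))
    (h.row_common hik (hne 1 3 (by decide))) (h.row_common hik (hne 2 3 (by decide)))
    (h.col_inner (Ne.symm hik) (l 0)) (h.off_inner (Ne.symm hik) (hne 0 1 (by decide)))
    (h.off_inner (Ne.symm hik) (hne 0 2 (by decide)))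
    (h.off_inner (Ne.symm hik) (hne 0 3 (by decide)))
  have T1 : ∀ σ : Fin 4 → Fin 4, Function.Injective σ → β i (l (σ 0)) p ≠ 0 →
      β i (l (σ 1)) p ≠ 0 → β i (l (σ 2)) p ≠ 0 → β i (l (σ 3)) p ≠ 0 := by
    intro σ hσ h0 h1 h2
    have hne' : ∀ m m' : Fin 4, m ≠ m' → l (σ m) ≠ l (σ m') :=
      fun m m' hmm hh => hmm (hσ (hl hh))
    exact tri_T1 (a := fun m => β i (l (σ m))) (b := fun m => β k (l (σ m)))
      (fun m => h.tri _ _) (fun m => h.tri _ _)
      (fun m m' hmm => h.row_common hik (hne' m m' hmm))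
      (fun m m' hmm => h.row_inner i (hne' m m' hmm))
      (fun l' m => by
        by_cases hlm : l' = m
        · subst hlm
          rw [if_pos rfl]
          exact h.col_inner (Ne.symm hik) _
        · rw [if_neg hlm]
          exact h.off_inner (Ne.symm hik) (hne' l' m hlm))
      (fun m m' hmm => h.row_inner k (hne' m m' hmm))
      h0 h1 h2
  have hs : ∀ m, (β i (l m) p = 0 ∧ β i (l m) p * β i (l m) p = 0) ∨
      (β i (l m) p ≠ 0 ∧ β i (l m) p * β i (l m) p = 1) := by
    intro m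
    by_cases hm : β i (l m) p = 0
    · left; exact ⟨hm, by rw [hm]; rfl⟩
    · right; exact ⟨hm, (h.tri _ _).sq_eq hm⟩
  have hs0 := hs 0
  have hs1 := hs 1
  have hs2 := hs 2
  have hs3 := hs 3
  by_cases z3 : β i (l 3) p = 0
  · have n0 : β i (l 0) p ≠ 0 := by omega
    have n1 : β i (l 1) p ≠ 0 := by omega
    have n2 : β i (l 2) p ≠ 0 := by omega
    exact absurd z3 (T1 ![0, 1, 2, 3] (by decide) n0 n1 n2)
  by_cases z2 : β i (l 2) p = 0
  · have n0 : β i (l 0) p ≠ 0 := by omega
    have n1 : β i (l 1) p ≠ 0 := by omega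
    exact absurd z2 (T1 ![0, 1, 3, 2] (by decide) n0 n1 z3)
  by_cases z1 : β i (l 1) p = 0
  · have n0 : β i (l 0) p ≠ 0 := by omega
    exact absurd z1 (T1 ![0, 2, 3, 1] (by decide) n0 z2 z3)
  by_cases z0 : β i (l 0) p = 0
  · exact absurd z0 (T1 ![1, 2, 3, 0] (by decide) z1 z2 z3)
  refine ⟨p, fun m => ?_⟩
  fin_cases m
  · exact z0
  · exact z1
  · exact z2
  · exact z3

/-- every row has a common point (at least two rows, at least four columns). -/
theorem IsGrid.row_point (h : IsGrid β) (hI : 2 ≤ Fintype.card I) (hJ : 4 ≤ Fintype.card J)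
    (i : I) : ∃ p, ∀ j, β i j p ≠ 0 := by
  obtain ⟨k, hik⟩ : ∃ k, i ≠ k := by
    obtain ⟨k, hk⟩ := Fintype.exists_ne_of_one_lt_card (by omega) i
    exact ⟨k, Ne.symm hk⟩
  obtain ⟨j₀, j₁, hj01⟩ : ∃ j₀ j₁ : J, j₀ ≠ j₁ := Fintype.exists_pair_of_one_lt_card (by omega)
  obtain ⟨x₀, hx₀, hx₀'⟩ := triCommon_exists (h.row_common hik hj01)
  refine ⟨x₀, fun m => ?_⟩
  by_cases hm0 : m = j₀
  · rw [hm0]; exact hx₀
  by_cases hm1 : m = j₁
  · rw [hm1]; exact hx₀'
  obtain ⟨m', hm'0, hm'1, hm'2⟩ : ∃ m', m' ≠ j₀ ∧ m' ≠ j₁ ∧ m' ≠ m := by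
    have hlt : ({j₀, j₁, m} : Finset J).card < (Finset.univ : Finset J).card := by
      have h3 : ({j₀, j₁, m} : Finset J).card ≤ 3 := Finset.card_le_three
      rw [Finset.card_univ]
      omega
    obtain ⟨m', -, hm'⟩ := Finset.exists_mem_notMem_of_card_lt_card hlt
    simp only [Finset.mem_insert, Finset.mem_singleton, not_or] at hm'
    exact ⟨m', hm'.1, hm'.2.1, hm'.2.2⟩
  obtain ⟨y, hy⟩ := h.four_common hik ![j₀, j₁, m, m']
    (injective_vec4 hj01 (Ne.symm hm0) (Ne.symm hm'0) (Ne.symm hm1) (Ne.symm hm'1) (Ne.symm hm'2))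
  have hy0 : β i j₀ y ≠ 0 := hy 0
  have hy1 : β i j₁ y ≠ 0 := hy 1
  have hy2 : β i m y ≠ 0 := hy 2
  have hyx : y = x₀ :=
    triCommon_unique (h.tri _ _) (h.tri _ _) (h.row_common hik hj01) hy0 hy1 hx₀ hx₀'
  rw [← hyx]
  exact hy2

/-- every column has a common point (two or at least four rows, at least two columns). -/
theorem IsGrid.col_point (h : IsGrid β) (hI : Fintype.card I = 2 ∨ 4 ≤ Fintype.card I)
    (hJ : 2 ≤ Fintype.card J) (j : J) : ∃ q, ∀ i, β i j q ≠ 0 := by
  rcases hI with hI | hI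
  · rw [← Finset.card_univ, Finset.card_eq_two] at hI
    obtain ⟨i, k, hik, huniv⟩ := hI
    obtain ⟨l, hl⟩ : ∃ l, j ≠ l := by
      obtain ⟨l, hl⟩ := Fintype.exists_ne_of_one_lt_card (by omega) j
      exact ⟨l, Ne.symm hl⟩
    obtain ⟨q, hq1, hq2⟩ := triCommon_exists (h.col_common hik hl)
    refine ⟨q, fun i' => ?_⟩
    have hi' : i' ∈ ({i, k} : Finset I) := by rw [← huniv]; exact Finset.mem_univ i'
    simp only [Finset.mem_insert, Finset.mem_singleton] at hi'
    rcases hi' with rfl | rfl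
    · exact hq1
    · exact hq2
  · exact h.transpose.row_point hJ hI j

end Grid

end Cfsg.Agent.Helper25
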