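import Mathlib
import Cfsg.Agent.Helper25.CycEx3

/-!
# The structure theorem for a grid of norm-three vectors (helper25)

`IsGrid.structure'`: `β i j = ε i x_i + η j y_j + θ i j z_ij` with pairwise distinct points.
-/

set_option autoImplicit false
set_option linter.style.haveILetI false
set_option linter.unusedVariables false
set_option linter.unusedSectionVars false
set_option maxHeartbeats 1000000

namespace Cfsg.Agent.Helper25

section Grid2

variable {X : Type*} [Fintype X] [DecidableEq X] {I J : Type*} [Fintype I] [Fintype J]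
  [DecidableEq I] [DecidableEq J]

variable {β : I → J → X → ℤ}

theorem IsGrid.structure (h : IsGrid β) (hI : 2 ≤ Fintype.card I) (hJ : 4 ≤ Fintype.card J)
    (hcol : ∀ j, ∃ q, ∀ i, β i j q ≠ 0) :
    ∃ (x : I → X) (y : J → X) (z : I → J → X) (ε : I → ℤ) (η : J → ℤ) (θ : I → J → ℤ),
      (∀ i j q, β i j q = (if q = x i then ε i else 0) + (if q = y j then η j else 0) +
        (if q = z i j then θ i j else 0)) ∧
      (∀ i, ε i = 1 ∨ ε i = -1) ∧ (∀ j, η j = 1 ∨ η j = -1) ∧ (∀ i j, θ i j = 1 ∨ θ i j = -1) ∧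
      (∀ i j, x i ≠ y j) ∧ Function.Injective x ∧ Function.Injective y ∧
      (∀ i j k, z i j ≠ x k) ∧ (∀ i j l, z i j ≠ y l) ∧
      (∀ i j k l, z i j = z k l → i = k ∧ j = l) := by
  classical
  have hrow : ∀ i, ∃ p, ∀ j, β i j p ≠ 0 := fun i => h.row_point hI hJ i
  choose x hx using hrow
  choose y hy using hcol
  have hI' : ∀ i : I, ∃ k, i ≠ k := by
    intro i
    obtain ⟨k, hk⟩ := Fintype.exists_ne_of_one_lt_card (by omega) i
    exact ⟨k, Ne.symm hk⟩
  have hJ' : ∀ j : J, ∃ l, j ≠ l := by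
    intro j
    obtain ⟨l, hl⟩ := Fintype.exists_ne_of_one_lt_card (by omega) j
    exact ⟨l, Ne.symm hl⟩
  obtain ⟨i₀⟩ : Nonempty I := by
    rw [← Fintype.card_pos_iff]; omega
  obtain ⟨j₀⟩ : Nonempty J := by
    rw [← Fintype.card_pos_iff]; omega
  have rc : ∀ (i : I) {j l : J}, j ≠ l → triCommon (β i j) (β i l) = 1 := by
    intro i j l hjl
    obtain ⟨k, hk⟩ := hI' i
    exact h.row_common hk hjl
  have cc : ∀ {i k : I} (j : J), i ≠ k → triCommon (β i j) (β k j) = 1 := by
    intro i k j hik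
    obtain ⟨l, hl⟩ := hJ' j
    exact h.col_common hik hl
  -- row points and column points are different
  have D1 : ∀ i j, x i ≠ y j := by
    intro i j hxy
    obtain ⟨k, hik⟩ := hI' i
    obtain ⟨l₁, l₂, l₃, h1, h2, h3, h12, h13, h23⟩ : ∃ l₁ l₂ l₃ : J, l₁ ≠ j ∧ l₂ ≠ j ∧ l₃ ≠ j ∧
        l₁ ≠ l₂ ∧ l₁ ≠ l₃ ∧ l₂ ≠ l₃ := by
      have hc : 3 ≤ (Finset.univ.erase j).card := by
        rw [Finset.card_erase_of_mem (Finset.mem_univ j), Finset.card_univ]; omega
      obtain ⟨s, hs, hs3⟩ := Finset.exists_subset_card_eq hc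
      obtain ⟨l₁, l₂, l₃, h12, h13, h23, rfl⟩ := Finset.card_eq_three.mp hs3
      refine ⟨l₁, l₂, l₃, ?_, ?_, ?_, h12, h13, h23⟩
      · exact Finset.ne_of_mem_erase (hs (by simp))
      · exact Finset.ne_of_mem_erase (hs (by simp))
      · exact Finset.ne_of_mem_erase (hs (by simp))
    have hpk : β k j (x i) ≠ 0 := by rw [hxy]; exact hy j k
    have key : ∀ l, l ≠ j → ∃ q, q ≠ x i ∧ β i l q ≠ 0 ∧ β k j q ≠ 0 := by
      intro l hl
      by_contra hcon
      push Not at hcon
      have hsum : ∑ q, β i l q * β k j q = β i l (x i) * β k j (x i) := by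
        apply Finset.sum_eq_single (x i)
        · intro q _ hq
          by_contra hne
          have h1 : β i l q ≠ 0 := fun h0 => hne (by rw [h0, zero_mul])
          have h2 : β k j q ≠ 0 := fun h0 => hne (by rw [h0, mul_zero])
          exact h2 (hcon q hq h1)
        · intro hh; exact absurd (Finset.mem_univ (x i)) hh
      rw [h.off_inner hik hl] at hsum
      exact mul_ne_zero (hx i l) hpk hsum.symm
    obtain ⟨q₁, hq₁p, hq₁a, hq₁b⟩ := key l₁ h1
    obtain ⟨q₂, hq₂p, hq₂a, hq₂b⟩ := key l₂ h2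
    obtain ⟨q₃, hq₃p, hq₃a, hq₃b⟩ := key l₃ h3
    have d12 : q₁ ≠ q₂ := by
      intro hq
      rw [← hq] at hq₂a
      exact hq₁p (triCommon_unique (h.tri _ _) (h.tri _ _) (rc i h12) hq₁a hq₂a (hx i l₁)
        (hx i l₂))
    have d13 : q₁ ≠ q₃ := by
      intro hq
      rw [← hq] at hq₃a
      exact hq₁p (triCommon_unique (h.tri _ _) (h.tri _ _) (rc i h13) hq₁a hq₃a (hx i l₁)
        (hx i l₃))
    have d23 : q₂ ≠ q₃ := by
      intro hq
      rw [← hq] at hq₃a
      exact hq₂p (triCommon_unique (h.tri _ _) (h.tri _ _) (rc i h23) hq₂a hq₃a (hx i l₂)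
        (hx i l₃))
    have hsub : ({x i, q₁, q₂, q₃} : Finset X) ⊆ Finset.univ.filter (fun q => β k j q ≠ 0) := by
      intro q hq
      simp only [Finset.mem_insert, Finset.mem_singleton] at hq
      simp only [Finset.mem_filter, Finset.mem_univ, true_and]
      rcases hq with rfl | rfl | rfl | rfl
      · exact hpk
      · exact hq₁b
      · exact hq₂b
      · exact hq₃b
    have hcard : ({x i, q₁, q₂, q₃} : Finset X).card = 4 := by
      rw [Finset.card_insert_of_notMem, Finset.card_insert_of_notMem,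
        Finset.card_insert_of_notMem, Finset.card_singleton]
      · simp [d23]
      · simp [d12, d13]
      · simp [Ne.symm hq₁p, Ne.symm hq₂p, Ne.symm hq₃p]
    have hle := Finset.card_le_card hsub
    rw [hcard, (h.tri k j).card_supp] at hle
    omega
  have hxinj : Function.Injective x := by
    intro i k hxk
    by_contra hik
    have h2 : β k j₀ (x i) ≠ 0 := by rw [hxk]; exact hx k j₀
    exact D1 i j₀ (triCommon_unique (h.tri _ _) (h.tri _ _) (cc j₀ hik) (hx i j₀) h2 (hy j₀ i)
      (hy j₀ k))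
  have hyinj : Function.Injective y := by
    intro j l hyl
    by_contra hjl
    have h2 : β i₀ l (y j) ≠ 0 := by rw [hyl]; exact hy l i₀
    exact D1 i₀ j (triCommon_unique (h.tri _ _) (h.tri _ _) (rc i₀ hjl) (hx i₀ j) (hx i₀ l)
      (hy j i₀) h2)
  have hz : ∀ i j, ∃ r, β i j r ≠ 0 ∧ r ≠ x i ∧ r ≠ y j :=
    fun i j => (h.tri i j).exists_third (hx i j) (hy j i)
  choose z hz0 hzx hzy using hz
  have hsupp : ∀ i j q, β i j q ≠ 0 → q = x i ∨ q = y j ∨ q = z i j := fun i j q hq =>
    (h.tri i j).eq_of_ne_zero (D1 i j) (Ne.symm (hzx i j)) (Ne.symm (hzy i j)) (hx i j) (hy j i)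
      (hz0 i j) q hq
  have Dzx : ∀ i j k, z i j ≠ x k := by
    intro i j k hzk
    by_cases hik : i = k
    · subst hik; exact hzx i j hzk
    · have h1 : β i j (x k) ≠ 0 := by rw [← hzk]; exact hz0 i j
      exact D1 k j (triCommon_unique (h.tri _ _) (h.tri _ _) (cc j hik) h1 (hx k j) (hy j i)
        (hy j k))
  have Dzy : ∀ i j l, z i j ≠ y l := by
    intro i j l hzl
    by_cases hjl : j = l
    · subst hjl; exact hzy i j hzl
    · have h1 : β i j (y l) ≠ 0 := by rw [← hzl]; exact hz0 i j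
      exact D1 i l (triCommon_unique (h.tri _ _) (h.tri _ _) (rc i hjl) (hx i j) (hx i l) h1
        (hy l i))
  have Dzz : ∀ i j k l, z i j = z k l → i = k ∧ j = l := by
    intro i j k l hzz
    by_cases hik : i = k
    · subst hik
      refine ⟨rfl, ?_⟩
      by_contra hjl
      have h2 : β i l (z i j) ≠ 0 := by rw [hzz]; exact hz0 i l
      exact hzx i j (triCommon_unique (h.tri _ _) (h.tri _ _) (rc i hjl) (hz0 i j) h2 (hx i j)
        (hx i l))
    · exfalso
      by_cases hjl : j = l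
      · subst hjl
        have h2 : β k j (z i j) ≠ 0 := by rw [hzz]; exact hz0 k j
        exact hzy i j (triCommon_unique (h.tri _ _) (h.tri _ _) (cc j hik) (hz0 i j) h2 (hy j i)
          (hy j k))
      · have hsum := (h.tri i j).sum_mul (D1 i j) (Ne.symm (hzx i j)) (Ne.symm (hzy i j))
          (hx i j) (hy j i) (hz0 i j) (β k l)
        have e0 : ∑ q, β k l q * β i j q = 0 := h.off_inner (Ne.symm hik) (Ne.symm hjl)
        have z1 : β k l (x i) = 0 := by
          by_contra hne
          rcases hsupp k l (x i) hne with h1 | h1 | h1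
          · exact hik (hxinj h1)
          · exact D1 i l h1
          · exact Dzx k l i h1.symm
        have z2 : β k l (y j) = 0 := by
          by_contra hne
          rcases hsupp k l (y j) hne with h1 | h1 | h1
          · exact D1 k j h1.symm
          · exact hjl (hyinj h1)
          · exact Dzy k l j h1.symm
        rw [e0, z1, z2, zero_mul, zero_mul, zero_add, zero_add] at hsum
        have h3 : β k l (z i j) ≠ 0 := by rw [hzz]; exact hz0 k l
        exact mul_ne_zero h3 (hz0 i j) hsum.symm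
  -- signs
  have sx : ∀ i j, β i j (x i) = β i j₀ (x i) := by
    intro i j
    by_cases hj : j = j₀
    · rw [hj]
    · exact triCommon_val_eq (h.tri _ _) (h.tri _ _) (rc i hj) (h.row_inner i hj) (hx i j)
        (hx i j₀)
  have sy : ∀ i j, β i j (y j) = β i₀ j (y j) := by
    intro i j
    by_cases hi : i = i₀
    · rw [hi]
    · exact triCommon_val_eq (h.tri _ _) (h.tri _ _) (cc j hi) (h.col_inner hi j) (hy j i)
        (hy j i₀)
  have hpm : ∀ {i j q}, β i j q ≠ 0 → β i j q = 1 ∨ β i j q = -1 := by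
    intro i j q hq
    rcases (h.tri i j).val q with h1 | h1 | h1
    · exact absurd h1 hq
    · left; exact h1
    · right; exact h1
  refine ⟨x, y, z, fun i => β i j₀ (x i), fun j => β i₀ j (y j), fun i j => β i j (z i j), ?_,
    fun i => hpm (hx i j₀), fun j => hpm (hy j i₀), fun i j => hpm (hz0 i j), D1, hxinj, hyinj,
    Dzx, Dzy, Dzz⟩
  intro i j q
  by_cases hq : β i j q = 0
  · have h1 : q ≠ x i := fun hh => hx i j (hh ▸ hq)
    have h2 : q ≠ y j := fun hh => hy j i (hh ▸ hq)
    have h3 : q ≠ z i j := fun hh => hz0 i j (hh ▸ hq)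
    rw [if_neg h1, if_neg h2, if_neg h3, hq]
    rfl
  · rcases hsupp i j q hq with h1 | h1 | h1
    · rw [h1, if_pos rfl, if_neg (D1 i j), if_neg (Ne.symm (hzx i j)), add_zero, add_zero]
      exact sx i j
    · rw [h1, if_neg (Ne.symm (D1 i j)), if_pos rfl, if_neg (Ne.symm (hzy i j)), zero_add,
        add_zero]
      exact sy i j
    · rw [h1, if_neg (hzx i j), if_neg (hzy i j), if_pos rfl, zero_add, zero_add]

/-- Peterfalvi (3.5), combinatorial form. -/
theorem IsGrid.structure' (h : IsGrid β) (hI : Fintype.card I = 2 ∨ 4 ≤ Fintype.card I)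
    (hJ : Fintype.card J = 2 ∨ 4 ≤ Fintype.card J)
    (hIJ : 4 ≤ Fintype.card I ∨ 4 ≤ Fintype.card J) :
    ∃ (x : I → X) (y : J → X) (z : I → J → X) (ε : I → ℤ) (η : J → ℤ) (θ : I → J → ℤ),
      (∀ i j q, β i j q = (if q = x i then ε i else 0) + (if q = y j then η j else 0) +
        (if q = z i j then θ i j else 0)) ∧
      (∀ i, ε i = 1 ∨ ε i = -1) ∧ (∀ j, η j = 1 ∨ η j = -1) ∧ (∀ i j, θ i j = 1 ∨ θ i j = -1) ∧
      (∀ i j, x i ≠ y j) ∧ Function.Injective x ∧ Function.Injective y ∧
      (∀ i j k, z i j ≠ x k) ∧ (∀ i j l, z i j ≠ y l) ∧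
      (∀ i j k l, z i j = z k l → i = k ∧ j = l) := by
  have hI2 : 2 ≤ Fintype.card I := by omega
  have hJ2 : 2 ≤ Fintype.card J := by omega
  by_cases hJ4 : 4 ≤ Fintype.card J
  · exact h.structure hI2 hJ4 (fun j => h.col_point hI hJ2 j)
  · have hI4 : 4 ≤ Fintype.card I := by omega
    obtain ⟨x', y', z', ε', η', θ', hform, hε, hη, hθ, D1, hxinj, hyinj, Dzx, Dzy, Dzz⟩ :=
      h.transpose.structure hJ2 hI4 (fun i => h.transpose.col_point hJ hI2 i)
    refine ⟨y', x', fun i j => z' j i, η', ε', fun i j => θ' j i, ?_, hη, hε, fun i j => hθ j i,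
      fun i j => Ne.symm (D1 j i), hyinj, hxinj, fun i j k => Dzy j i k, fun i j l => Dzx j i l,
      fun i j k l hz => ?_⟩
    · intro i j q
      have h1 := hform j i q
      rw [h1]
      ring
    · have h1 := Dzz j i l k hz
      exact ⟨h1.2, h1.1⟩

end Grid2

end Cfsg.Agent.Helper25
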