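import Mathlib
import Cfsg.Prelude.Def_OddOrderChar
import Cfsg.Prelude.Def_OddOrderLocal
import Cfsg.Agent.Helper25.Dade

set_option autoImplicit false
set_option linter.style.haveILetI false
set_option linter.unusedVariables false
set_option maxHeartbeats 1000000

namespace Cfsg.Agent.Helper25

open Cfsg

section CyclicTI

variable {G : Type*} [Group G] {W₁ W₂ : Subgroup G}

/-- decomposition of an element of `W₁ ⊔ W₂` when the factors commute. -/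
theorem exists_mul_of_mem_sup_of_commute (hcomm : ∀ a ∈ W₁, ∀ b ∈ W₂, a * b = b * a)
    (w : ↥(W₁ ⊔ W₂)) :
    ∃ (a : ↥(W₁ ⊔ W₂)) (b : ↥(W₁ ⊔ W₂)), (a : G) ∈ W₁ ∧ (b : G) ∈ W₂ ∧ w = a * b := by
  have hnorm : ∀ k ∈ W₂, ∀ n ∈ W₁, k * n * k⁻¹ ∈ W₁ := by
    intro k hk n hn
    have : k * n * k⁻¹ = n := by
      rw [← hcomm n hn k hk]; group
    rw [this]; exact hn
  obtain ⟨a, ha, b, hb, e⟩ := exists_mul_of_mem_sup_of_normalizes hnorm w.2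
  exact ⟨⟨a, Subgroup.mem_sup_left ha⟩, ⟨b, Subgroup.mem_sup_right hb⟩, ha, hb, Subtype.ext e⟩

/-- A pair `(φ, ψ)` of homomorphisms on `W₁ ⊔ W₂`, `φ` trivial on `W₂` and `ψ` trivial on `W₁`,
is determined by the product `φ * ψ`. -/
theorem hom_eq_of_mul_eq {M : Type*} [CommMonoid M] (hcomm : ∀ a ∈ W₁, ∀ b ∈ W₂, a * b = b * a)
    {φ ψ φ' ψ' : ↥(W₁ ⊔ W₂) →* M}
    (hφ : ∀ w : ↥(W₁ ⊔ W₂), (w : G) ∈ W₂ → φ w = 1)
    (hψ : ∀ w : ↥(W₁ ⊔ W₂), (w : G) ∈ W₁ → ψ w = 1)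
    (hφ' : ∀ w : ↥(W₁ ⊔ W₂), (w : G) ∈ W₂ → φ' w = 1)
    (hψ' : ∀ w : ↥(W₁ ⊔ W₂), (w : G) ∈ W₁ → ψ' w = 1)
    (h : φ * ψ = φ' * ψ') : φ = φ' ∧ ψ = ψ' := by
  constructor
  · ext w
    obtain ⟨a, b, ha, hb, rfl⟩ := exists_mul_of_mem_sup_of_commute hcomm w
    have h1 := DFunLike.congr_fun h a
    simp only [MonoidHom.mul_apply, hψ a ha, hψ' a ha, mul_one] at h1
    rw [map_mul, map_mul, hφ b hb, hφ' b hb, h1]
  · ext w
    obtain ⟨a, b, ha, hb, rfl⟩ := exists_mul_of_mem_sup_of_commute hcomm w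
    have h1 := DFunLike.congr_fun h b
    simp only [MonoidHom.mul_apply, hφ b hb, hφ' b hb, one_mul] at h1
    rw [map_mul, map_mul, hψ a ha, hψ' a ha, h1]

end CyclicTI

end Cfsg.Agent.Helper25
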