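import Mathlib
import Cfsg.Prelude.Def_OddOrderChar
import Cfsg.Prelude.Def_OddOrderLocal
import Cfsg.Agent.Helper25.CyclicTI

set_option autoImplicit false
set_option linter.style.haveILetI false
set_option linter.unusedVariables false
set_option maxHeartbeats 1000000

namespace Cfsg.Agent.Helper25

open Cfsg

/-- Combinatorial core: a matrix `r i + c j` with few nonzero entries is zero, or a constant
column, or a constant row. -/
theorem grid_sum_few {I J : Type*} [Fintype I] [Fintype J] [DecidableEq I] [DecidableEq J]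
    (r : I → ℂ) (c : J → ℂ) (w : ℕ)
    (hI : w ≤ Fintype.card I) (hJ : w + 2 ≤ Fintype.card J)
    (hfew : (Finset.univ.filter (fun p : I × J => r p.1 + c p.2 ≠ 0)).card < 2 * w) :
    (∀ i j, r i + c j = 0) ∨
    (∃ j₁ a, ∀ i j, r i + c j = if j = j₁ then a else 0) ∨
    (∃ i₁ a, ∀ i j, r i + c j = if i = i₁ then a else 0) := by
  classical
  set S := Finset.univ.filter (fun p : I × J => r p.1 + c p.2 ≠ 0) with hS
  have hJne : Nonempty J := by
    rw [← Fintype.card_pos_iff]; omega
  obtain ⟨j₀⟩ := hJne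
  by_cases hc : ∀ j, c j = c j₀
  · by_cases hr : ∀ i, r i + c j₀ = 0
    · left; intro i j; rw [hc j]; exact hr i
    · push Not at hr
      obtain ⟨i₁, hi₁⟩ := hr
      right; right
      refine ⟨i₁, r i₁ + c j₀, ?_⟩
      intro i j
      rw [hc j]
      split_ifs with h
      · rw [h]
      · by_contra h0
        have hsub : ({i₁, i} : Finset I) ×ˢ (Finset.univ : Finset J) ⊆ S := by
          intro p hp
          simp only [Finset.mem_product, Finset.mem_insert, Finset.mem_singleton,
            Finset.mem_univ, and_true] at hp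
          simp only [hS, Finset.mem_filter, Finset.mem_univ, true_and]
          rw [hc p.2]
          rcases hp with hp | hp <;> rw [hp] <;> assumption
        have hcard := Finset.card_le_card hsub
        rw [Finset.card_product, Finset.card_pair (Ne.symm h), Finset.card_univ] at hcard
        omega
  · push Not at hc
    obtain ⟨j₁', hj₁'⟩ := hc
    by_cases hr : ∀ i i', r i = r i'
    · rcases isEmpty_or_nonempty I with hIe | ⟨⟨i₀⟩⟩
      · left; intro i; exact (hIe.false i).elim
      · have : ∃ j₁, r i₀ + c j₁ ≠ 0 := by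
          by_contra hcon
          push Not at hcon
          have h1 := hcon j₀
          have h2 := hcon j₁'
          apply hj₁'
          linear_combination h2 - h1
        obtain ⟨j₁, hj₁⟩ := this
        right; left
        refine ⟨j₁, r i₀ + c j₁, ?_⟩
        intro i j
        rw [hr i i₀]
        split_ifs with h
        · rw [h]
        · by_contra h0
          have hsub : (Finset.univ : Finset I) ×ˢ ({j₁, j} : Finset J) ⊆ S := by
            intro p hp
            simp only [Finset.mem_product, Finset.mem_insert, Finset.mem_singleton,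
              Finset.mem_univ, true_and] at hp
            simp only [hS, Finset.mem_filter, Finset.mem_univ, true_and]
            rw [hr p.1 i₀]
            rcases hp with hp | hp <;> rw [hp] <;> assumption
          have hcard := Finset.card_le_card hsub
          rw [Finset.card_product, Finset.card_pair (Ne.symm h), Finset.card_univ] at hcard
          omega
    · exfalso
      push Not at hr
      obtain ⟨i₁', i₂', hi'⟩ := hr
      set T := ∑ i : I, (Finset.univ.filter (fun j : J => r i + c j ≠ 0)).card with hT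
      have hN : S.card = T := by
        rw [hS, hT, Finset.card_filter, Fintype.sum_prod_type]
        refine Finset.sum_congr rfl fun i _ => ?_
        rw [Finset.card_filter]
      have hn1 : ∀ i : I, 1 ≤ (Finset.univ.filter (fun j : J => r i + c j ≠ 0)).card := by
        intro i
        rw [Finset.one_le_card]
        by_cases h : r i + c j₀ ≠ 0
        · exact ⟨j₀, by simp [h]⟩
        · push Not at h
          refine ⟨j₁', ?_⟩
          simp only [Finset.mem_filter, Finset.mem_univ, true_and]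
          intro h2
          apply hj₁'
          linear_combination h2 - h
      by_cases hA : ∀ i : I, 2 ≤ (Finset.univ.filter (fun j : J => r i + c j ≠ 0)).card
      · have : ∑ i : I, 2 ≤ T := Finset.sum_le_sum (fun i _ => hA i)
        rw [Finset.sum_const, Finset.card_univ, smul_eq_mul] at this
        omega
      · push Not at hA
        obtain ⟨i₁, hi₁⟩ := hA
        have hi₁' : (Finset.univ.filter (fun j : J => r i₁ + c j ≠ 0)).card = 1 := by
          have := hn1 i₁; omega
        obtain ⟨j₁, hj₁⟩ := Finset.card_eq_one.mp hi₁'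
        have hz : ∀ j, j ≠ j₁ → r i₁ + c j = 0 := by
          intro j hj
          by_contra h
          have : j ∈ Finset.univ.filter (fun j : J => r i₁ + c j ≠ 0) := by simp [h]
          rw [hj₁, Finset.mem_singleton] at this
          exact hj this
        obtain ⟨i₂, hi₂⟩ : ∃ i₂, r i₂ ≠ r i₁ := by
          by_contra hcon
          push Not at hcon
          exact hi' ((hcon i₁').trans (hcon i₂').symm)
        have hn2 : Fintype.card J - 1
            ≤ (Finset.univ.filter (fun j : J => r i₂ + c j ≠ 0)).card := by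
          have hsub : Finset.univ.erase j₁
              ⊆ Finset.univ.filter (fun j : J => r i₂ + c j ≠ 0) := by
            intro j hj
            simp only [Finset.mem_erase, Finset.mem_univ, and_true] at hj
            simp only [Finset.mem_filter, Finset.mem_univ, true_and]
            intro h
            apply hi₂
            linear_combination h - hz j hj
          have := Finset.card_le_card hsub
          rw [Finset.card_erase_of_mem (Finset.mem_univ _), Finset.card_univ] at this
          exact this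
        have hsum : (Fintype.card J - 1) + (Fintype.card I - 1) ≤ T := by
          rw [hT, ← Finset.add_sum_erase Finset.univ _ (Finset.mem_univ i₂)]
          have h3 : ∑ i ∈ Finset.univ.erase i₂, 1 ≤ ∑ i ∈ Finset.univ.erase i₂,
              (Finset.univ.filter (fun j : J => r i + c j ≠ 0)).card :=
            Finset.sum_le_sum (fun i _ => hn1 i)
          rw [Finset.sum_const, Finset.card_erase_of_mem (Finset.mem_univ _), Finset.card_univ,
            smul_eq_mul, mul_one] at h3
          omega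
        omega

/-- the number of linear characters of a finite commutative group. -/
theorem card_monoidHom_of_commute {H : Type*} [Group H] [Finite H]
    (hc : ∀ a b : H, a * b = b * a) : Nat.card (H →* ℂˣ) = Nat.card H := by
  letI : CommGroup H := { (inferInstance : Group H) with mul_comm := hc }
  have hne : NeZero (Monoid.exponent H) := ⟨Monoid.exponent_ne_zero_of_finite⟩
  exact CommGroup.card_monoidHom_of_hasEnoughRootsOfUnity H ℂ

section Prod

variable {G : Type*} [Group G] {W₁ W₂ : Subgroup G}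

/-- the multiplication map of an internal direct product. -/
noncomputable def supProdHom (hcomm : ∀ a ∈ W₁, ∀ b ∈ W₂, a * b = b * a) :
    W₁ × W₂ →* ↥(W₁ ⊔ W₂) :=
  MonoidHom.noncommCoprod (Subgroup.inclusion le_sup_left) (Subgroup.inclusion le_sup_right)
    (fun a b => Subtype.ext (hcomm a a.2 b b.2))

theorem supProdHom_coe (hcomm : ∀ a ∈ W₁, ∀ b ∈ W₂, a * b = b * a) (p : W₁ × W₂) :
    ((supProdHom hcomm p : ↥(W₁ ⊔ W₂)) : G) = (p.1 : G) * (p.2 : G) := rfl

theorem supProdHom_bijective (hdisj : W₁ ⊓ W₂ = ⊥)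
    (hcomm : ∀ a ∈ W₁, ∀ b ∈ W₂, a * b = b * a) : Function.Bijective (supProdHom hcomm) := by
  constructor
  · rw [injective_iff_map_eq_one]
    rintro ⟨a, b⟩ h
    have h' : (a : G) * (b : G) = 1 := by
      have := congrArg Subtype.val h
      rw [supProdHom_coe] at this
      exact this
    have ha : (a : G) ∈ W₁ ⊓ W₂ := by
      refine ⟨a.2, ?_⟩
      have : (a : G) = (b : G)⁻¹ := eq_inv_of_mul_eq_one_left h'
      rw [this]
      exact W₂.inv_mem b.2
    rw [hdisj, Subgroup.mem_bot] at ha
    have hb : (b : G) = 1 := by rw [ha, one_mul] at h'; exact h'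
    exact Prod.ext (Subtype.ext ha) (Subtype.ext hb)
  · intro w
    obtain ⟨a, b, ha, hb, rfl⟩ := exists_mul_of_mem_sup_of_commute hcomm w
    exact ⟨(⟨a, ha⟩, ⟨b, hb⟩), Subtype.ext (by rw [supProdHom_coe]; rfl)⟩

/-- `W₁ × W₂ ≃* W₁ ⊔ W₂` for an internal direct product. -/
noncomputable def supProdEquiv (hdisj : W₁ ⊓ W₂ = ⊥)
    (hcomm : ∀ a ∈ W₁, ∀ b ∈ W₂, a * b = b * a) : W₁ × W₂ ≃* ↥(W₁ ⊔ W₂) :=
  MulEquiv.ofBijective (supProdHom hcomm) (supProdHom_bijective hdisj hcomm)

/-- extension of a character of `W₁` to `W₁ ⊔ W₂`, trivial on `W₂`. -/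
noncomputable def extLeft (hdisj : W₁ ⊓ W₂ = ⊥) (hcomm : ∀ a ∈ W₁, ∀ b ∈ W₂, a * b = b * a)
    (α : W₁ →* ℂˣ) : ↥(W₁ ⊔ W₂) →* ℂˣ :=
  (α.comp (MonoidHom.fst W₁ W₂)).comp (supProdEquiv hdisj hcomm).symm.toMonoidHom

/-- extension of a character of `W₂` to `W₁ ⊔ W₂`, trivial on `W₁`. -/
noncomputable def extRight (hdisj : W₁ ⊓ W₂ = ⊥) (hcomm : ∀ a ∈ W₁, ∀ b ∈ W₂, a * b = b * a)
    (β : W₂ →* ℂˣ) : ↥(W₁ ⊔ W₂) →* ℂˣ :=
  (β.comp (MonoidHom.snd W₁ W₂)).comp (supProdEquiv hdisj hcomm).symm.toMonoidHom

theorem supProdEquiv_symm_apply (hdisj : W₁ ⊓ W₂ = ⊥)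
    (hcomm : ∀ a ∈ W₁, ∀ b ∈ W₂, a * b = b * a) (a : W₁) (b : W₂) (w : ↥(W₁ ⊔ W₂))
    (hw : (w : G) = a * b) : (supProdEquiv hdisj hcomm).symm w = (a, b) := by
  rw [MulEquiv.symm_apply_eq]
  exact Subtype.ext hw

theorem extLeft_apply (hdisj : W₁ ⊓ W₂ = ⊥) (hcomm : ∀ a ∈ W₁, ∀ b ∈ W₂, a * b = b * a)
    (α : W₁ →* ℂˣ) (a : W₁) (b : W₂) (w : ↥(W₁ ⊔ W₂)) (hw : (w : G) = a * b) :
    extLeft hdisj hcomm α w = α a := by
  show α ((supProdEquiv hdisj hcomm).symm w).1 = α a
  rw [supProdEquiv_symm_apply hdisj hcomm a b w hw]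

theorem extRight_apply (hdisj : W₁ ⊓ W₂ = ⊥) (hcomm : ∀ a ∈ W₁, ∀ b ∈ W₂, a * b = b * a)
    (β : W₂ →* ℂˣ) (a : W₁) (b : W₂) (w : ↥(W₁ ⊔ W₂)) (hw : (w : G) = a * b) :
    extRight hdisj hcomm β w = β b := by
  show β ((supProdEquiv hdisj hcomm).symm w).2 = β b
  rw [supProdEquiv_symm_apply hdisj hcomm a b w hw]

theorem extLeft_trivial (hdisj : W₁ ⊓ W₂ = ⊥) (hcomm : ∀ a ∈ W₁, ∀ b ∈ W₂, a * b = b * a)
    (α : W₁ →* ℂˣ) (w : ↥(W₁ ⊔ W₂)) (hw : (w : G) ∈ W₂) : extLeft hdisj hcomm α w = 1 := by
  rw [extLeft_apply hdisj hcomm α 1 ⟨w, hw⟩ w (by simp), map_one]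

theorem extRight_trivial (hdisj : W₁ ⊓ W₂ = ⊥) (hcomm : ∀ a ∈ W₁, ∀ b ∈ W₂, a * b = b * a)
    (β : W₂ →* ℂˣ) (w : ↥(W₁ ⊔ W₂)) (hw : (w : G) ∈ W₁) : extRight hdisj hcomm β w = 1 := by
  rw [extRight_apply hdisj hcomm β ⟨w, hw⟩ 1 w (by simp), map_one]

theorem extLeft_mul_extRight_apply (hdisj : W₁ ⊓ W₂ = ⊥)
    (hcomm : ∀ a ∈ W₁, ∀ b ∈ W₂, a * b = b * a) (α : W₁ →* ℂˣ) (β : W₂ →* ℂˣ)
    (a : W₁) (b : W₂) (w : ↥(W₁ ⊔ W₂)) (hw : (w : G) = a * b) :
    (extLeft hdisj hcomm α * extRight hdisj hcomm β) w = α a * β b := by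
  rw [MonoidHom.mul_apply, extLeft_apply hdisj hcomm α a b w hw,
    extRight_apply hdisj hcomm β a b w hw]

/-- every character of `W₁ ⊔ W₂` is uniquely `extLeft α * extRight β`. -/
theorem extLeft_mul_extRight_bijective (hdisj : W₁ ⊓ W₂ = ⊥)
    (hcomm : ∀ a ∈ W₁, ∀ b ∈ W₂, a * b = b * a) :
    Function.Bijective (fun p : (W₁ →* ℂˣ) × (W₂ →* ℂˣ) =>
      extLeft hdisj hcomm p.1 * extRight hdisj hcomm p.2) := by
  constructor
  · rintro ⟨α, β⟩ ⟨α', β'⟩ h
    simp only at h
    refine Prod.ext ?_ ?_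
    · ext a
      have h1 := DFunLike.congr_fun h ⟨a, Subgroup.mem_sup_left a.2⟩
      rw [extLeft_mul_extRight_apply hdisj hcomm α β a 1 _ (by simp),
        extLeft_mul_extRight_apply hdisj hcomm α' β' a 1 _ (by simp), map_one, map_one,
        mul_one, mul_one] at h1
      rw [h1]
    · ext b
      have h1 := DFunLike.congr_fun h ⟨b, Subgroup.mem_sup_right b.2⟩
      rw [extLeft_mul_extRight_apply hdisj hcomm α β 1 b _ (by simp),
        extLeft_mul_extRight_apply hdisj hcomm α' β' 1 b _ (by simp), map_one, map_one,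
        one_mul, one_mul] at h1
      rw [h1]
  · intro ω
    refine ⟨(ω.comp (Subgroup.inclusion le_sup_left), ω.comp (Subgroup.inclusion le_sup_right)),
      ?_⟩
    ext w
    obtain ⟨a, b, ha, hb, rfl⟩ := exists_mul_of_mem_sup_of_commute hcomm w
    have := extLeft_mul_extRight_apply hdisj hcomm (ω.comp (Subgroup.inclusion le_sup_left))
      (ω.comp (Subgroup.inclusion le_sup_right)) ⟨a, ha⟩ ⟨b, hb⟩ (a * b) rfl
    simp only at this ⊢
    rw [this, map_mul]
    rfl

end Prod

end Cfsg.Agent.Helper25
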