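import Mathlib
import Cfsg.Prelude.Def_OddOrderChar
import Cfsg.Prelude.Def_OddOrderLocal
import Cfsg.Agent.Helper25.CyclicTI
import Cfsg.Agent.Helper3.IndFun
import Cfsg.Agent.Helper75.InnerLin

set_option autoImplicit false
set_option linter.style.haveILetI false
set_option linter.unusedVariables false
set_option maxHeartbeats 1000000

namespace Cfsg.Agent.Helper25

open Cfsg

/-- In a cyclic group `H`, a subgroup `K` consists of all elements of order dividing `|K|`. -/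
theorem mem_of_pow_card_eq_one_of_isCyclic {G : Type*} [Group G] [Finite G] {H K : Subgroup G}
    (hcyc : IsCyclic ↥H) (hKH : K ≤ H) {x : G} (hx : x ∈ H) (hpow : x ^ Nat.card K = 1) :
    x ∈ K := by
  classical
  haveI : Fintype ↥H := Fintype.ofFinite _
  have hpos : 0 < Nat.card K := Nat.card_pos
  have h1 : (Finset.univ.filter (fun y : ↥H => y ^ Nat.card K = 1)).card ≤ Nat.card K :=
    IsCyclic.card_pow_eq_one_le hpos
  have hsub : Finset.univ.filter (fun y : ↥H => (y : G) ∈ K)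
      ⊆ Finset.univ.filter (fun y : ↥H => y ^ Nat.card K = 1) := by
    intro y hy
    simp only [Finset.mem_filter, Finset.mem_univ, true_and] at hy ⊢
    apply Subtype.ext
    rw [Subgroup.coe_pow, Subgroup.coe_one]
    exact orderOf_dvd_iff_pow_eq_one.mp (Subgroup.orderOf_dvd_natCard K hy)
  have hcard : (Finset.univ.filter (fun y : ↥H => (y : G) ∈ K)).card = Nat.card K := by
    rw [← Fintype.card_subtype, ← Nat.card_eq_fintype_card]
    exact Nat.card_congr (Subgroup.subgroupOfEquivOfLe hKH).toEquiv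
  have heq := Finset.eq_of_subset_of_card_le hsub (by rw [hcard]; exact h1)
  have hmem : (⟨x, hx⟩ : ↥H) ∈ Finset.univ.filter (fun y : ↥H => y ^ Nat.card K = 1) := by
    simp only [Finset.mem_filter, Finset.mem_univ, true_and]
    apply Subtype.ext
    simpa using hpow
  rw [← heq] at hmem
  simpa using hmem

section TI

variable {G : Type*} [Group G] {W₁ W₂ : Subgroup G}

/-- The set `W \ (W₁ ∪ W₂)` of a self-normalising cyclic pair is a TI-set with normaliser `W`. -/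
theorem selfNormalizingCyclic_TI [Finite G] (hW : IsSelfNormalizingCyclic W₁ W₂) {g t : G}
    (ht : t ∈ (↑(W₁ ⊔ W₂) : Set G) \ (↑W₁ ∪ ↑W₂))
    (hgt : g * t * g⁻¹ ∈ (↑(W₁ ⊔ W₂) : Set G) \ (↑W₁ ∪ ↑W₂)) : g ∈ W₁ ⊔ W₂ := by
  obtain ⟨hW₁, hW₂, hdisj, hcomm, hcyc, hnorm⟩ := hW
  have hWcomm : ∀ x ∈ W₁ ⊔ W₂, ∀ y ∈ W₁ ⊔ W₂, x * y = y * x := by
    intro x hx y hy
    obtain ⟨c, hc⟩ := hcyc.exists_generator
    obtain ⟨i, hi⟩ := Subgroup.mem_zpowers_iff.mp (hc ⟨x, hx⟩)
    obtain ⟨j, hj⟩ := Subgroup.mem_zpowers_iff.mp (hc ⟨y, hy⟩)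
    have := (Commute.refl c).zpow_zpow i j
    rw [hi, hj] at this
    exact congrArg Subtype.val this
  -- the key property, for a pair (g, t)
  have key : ∀ (g t : G), t ∈ (↑(W₁ ⊔ W₂) : Set G) \ (↑W₁ ∪ ↑W₂) →
      g * t * g⁻¹ ∈ (↑(W₁ ⊔ W₂) : Set G) \ (↑W₁ ∪ ↑W₂) →
      (∀ x ∈ W₁ ⊔ W₂, g * x * g⁻¹ ∈ W₁ ⊔ W₂) ∧ (∀ x ∈ W₁, g * x * g⁻¹ ∈ W₁) ∧
        (∀ x ∈ W₂, g * x * g⁻¹ ∈ W₂) := by
    intro g t ht hgt
    have hN : Subgroup.normalizer ({g * t * g⁻¹} : Set G) = W₁ ⊔ W₂ :=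
      hnorm _ (by intro x hx; rw [Set.mem_singleton_iff] at hx; rw [hx]; exact hgt)
        (Set.singleton_nonempty _)
    rw [Subgroup.normalizer_singleton] at hN
    have h1 : ∀ x ∈ W₁ ⊔ W₂, g * x * g⁻¹ ∈ W₁ ⊔ W₂ := by
      intro x hx
      rw [← hN, Subgroup.mem_centralizer_iff]
      intro y hy
      rw [Set.mem_singleton_iff] at hy
      subst hy
      have hxt := hWcomm x hx t ht.1
      calc g * t * g⁻¹ * (g * x * g⁻¹) = g * (t * x) * g⁻¹ := by group
        _ = g * (x * t) * g⁻¹ := by rw [hxt]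
        _ = g * x * g⁻¹ * (g * t * g⁻¹) := by group
    refine ⟨h1, ?_, ?_⟩
    · intro x hx
      refine mem_of_pow_card_eq_one_of_isCyclic hcyc le_sup_left (h1 x (Subgroup.mem_sup_left hx)) ?_
      rw [conj_pow]
      have h3 : x ^ Nat.card W₁ = 1 :=
        orderOf_dvd_iff_pow_eq_one.mp (Subgroup.orderOf_dvd_natCard W₁ hx)
      rw [h3]; group
    · intro x hx
      refine mem_of_pow_card_eq_one_of_isCyclic hcyc le_sup_right (h1 x (Subgroup.mem_sup_right hx)) ?_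
      rw [conj_pow]
      have h3 : x ^ Nat.card W₂ = 1 :=
        orderOf_dvd_iff_pow_eq_one.mp (Subgroup.orderOf_dvd_natCard W₂ hx)
      rw [h3]; group
  obtain ⟨k1, k2, k3⟩ := key g t ht hgt
  have hgt' : g⁻¹ * (g * t * g⁻¹) * g⁻¹⁻¹ ∈ (↑(W₁ ⊔ W₂) : Set G) \ (↑W₁ ∪ ↑W₂) := by
    have : g⁻¹ * (g * t * g⁻¹) * g⁻¹⁻¹ = t := by group
    rw [this]; exact ht
  obtain ⟨k1', k2', k3'⟩ := key g⁻¹ (g * t * g⁻¹) hgt hgt'
  have hNV := hnorm ((↑(W₁ ⊔ W₂) : Set G) \ (↑W₁ ∪ ↑W₂)) (le_refl _) ⟨t, ht⟩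
  rw [← hNV, Subgroup.mem_set_normalizer_iff]
  intro n
  have hback : ∀ y : G, g⁻¹ * (g * y * g⁻¹) * g⁻¹⁻¹ = y := fun y => by group
  constructor
  · intro hn
    refine ⟨k1 n hn.1, ?_⟩
    rintro (h | h)
    · exact hn.2 (Or.inl (hback n ▸ k2' _ h))
    · exact hn.2 (Or.inr (hback n ▸ k3' _ h))
  · intro hn
    refine ⟨hback n ▸ k1' _ hn.1, ?_⟩
    rintro (h | h)
    · exact hn.2 (Or.inl (k2 n h))
    · exact hn.2 (Or.inr (k3 n h))

end TI

section Ind

variable {G : Type*} [Group G] [Fintype G]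

/-- Induction from a subgroup `H` containing a TI-set `V` with `{g | g V g⁻¹ ∩ V ≠ ∅} ⊆ H`:
values on `V`. -/
theorem indFun_TI_apply' (H : Subgroup G) (V : Set G)
    (hTI : ∀ g : G, ∀ t ∈ V, g * t * g⁻¹ ∈ V → g ∈ H)
    (ψ : H → ℂ) (hψ : IsClassFunction H ψ) (hψV : ∀ x : H, (x : G) ∉ V → ψ x = 0)
    (t : H) (ht : (t : G) ∈ V) : indFun H ψ t = ψ t := by
  classical
  haveI : Fintype H := Fintype.ofFinite _
  have hN : (Nat.card H : ℂ) ≠ 0 := by exact_mod_cast Nat.card_pos.ne'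
  have key : ∀ x : G, extendByZero H ψ (x⁻¹ * (t : G) * x) = extendByZero H (fun _ => ψ t) x := by
    intro x
    by_cases hx : x ∈ H
    · rw [Cfsg.Agent.Helper3.extendByZero_of_mem _ _ hx]
      have hmem : x⁻¹ * (t : G) * x ∈ H := H.mul_mem (H.mul_mem (H.inv_mem hx) t.2) hx
      rw [Cfsg.Agent.Helper3.extendByZero_of_mem _ _ hmem]
      have := hψ t (⟨x, hx⟩⁻¹ : H)
      rw [← this]
      congr 1
      apply Subtype.ext
      simp
    · rw [Cfsg.Agent.Helper3.extendByZero_of_not_mem _ _ hx]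
      by_cases hmem : x⁻¹ * (t : G) * x ∈ H
      · rw [Cfsg.Agent.Helper3.extendByZero_of_mem _ _ hmem]
        apply hψV
        intro hV
        apply hx
        have h1 : x⁻¹ * (t : G) * x⁻¹⁻¹ ∈ V := by simpa using hV
        have := hTI x⁻¹ (t : G) ht h1
        simpa using H.inv_mem this
      · rw [Cfsg.Agent.Helper3.extendByZero_of_not_mem _ _ hmem]
  unfold indFun
  simp only [key]
  rw [Cfsg.Agent.Helper3.sum_extendByZero, Finset.sum_const, Finset.card_univ, nsmul_eq_mul,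
    ← Nat.card_eq_fintype_card]
  field_simp

/-- TI induction is an isometry on functions supported on `V`. -/
theorem classInner_indFun_TI' (H : Subgroup G) [Fintype H] (V : Set G)
    (hTI : ∀ g : G, ∀ t ∈ V, g * t * g⁻¹ ∈ V → g ∈ H)
    (ψ θ : H → ℂ) (hθ : IsClassFunction H θ)
    (hψV : ∀ x : H, (x : G) ∉ V → ψ x = 0) (hθV : ∀ x : H, (x : G) ∉ V → θ x = 0) :
    classInner (indFun H ψ) (indFun H θ) = classInner ψ θ := by
  rw [Cfsg.Agent.Helper3.frobenius_reciprocity _ _ _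
    (Cfsg.Agent.Helper3.indFun_isClassFunction _ _)]
  unfold classInner
  congr 1
  refine Finset.sum_congr rfl ?_
  intro n _
  by_cases hn : (n : G) ∈ V
  · show ψ n * (starRingEnd ℂ) (indFun H θ (n : G)) = _
    rw [indFun_TI_apply' H V hTI θ hθ hθV n hn]
  · rw [hψV n hn]
    simp

/-- Orthonormality of the linear characters of a finite group. -/
theorem classInner_monoidHom {H : Type*} [Group H] [Fintype H] (ω ω' : H →* ℂˣ) :
    classInner (fun w => (ω w : ℂ)) (fun w => (ω' w : ℂ)) = if ω = ω' then 1 else 0 := by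
  classical
  unfold classInner
  have hnorm : ∀ w, ‖(ω' w : ℂ)‖ = 1 := by
    intro w
    have hpow : (ω' w : ℂ) ^ orderOf w = 1 := by
      rw [← Units.val_pow_eq_pow_val, ← map_pow, pow_orderOf_eq_one, map_one, Units.val_one]
    exact Complex.norm_eq_one_of_pow_eq_one hpow (orderOf_pos w).ne'
  have h1 : ∀ w, (ω w : ℂ) * (starRingEnd ℂ) (ω' w : ℂ)
      = ((Units.coeHom ℂ).comp (ω * ω'⁻¹)) w := by
    intro w
    rw [← Complex.inv_eq_conj (hnorm w)]
    simp
  simp only [h1]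
  have hcard : (Nat.card H : ℂ) ≠ 0 := by exact_mod_cast Nat.card_pos.ne'
  by_cases h : ω = ω'
  · subst h
    rw [if_pos rfl]
    have : ∀ w, ((Units.coeHom ℂ).comp (ω * ω⁻¹)) w = 1 := by intro w; simp
    simp only [this, Finset.sum_const, Finset.card_univ, nsmul_eq_mul, mul_one]
    rw [← Nat.card_eq_fintype_card]
    exact inv_mul_cancel₀ hcard
  · rw [if_neg h]
    have hne : (Units.coeHom ℂ).comp (ω * ω'⁻¹) ≠ 1 := by
      intro h1
      apply h
      ext w
      have := DFunLike.congr_fun h1 w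
      simp only [MonoidHom.coe_comp, Function.comp_apply, MonoidHom.mul_apply,
        MonoidHom.inv_apply, Units.coeHom_apply, MonoidHom.one_apply] at this
      have h2 : ω w * (ω' w)⁻¹ = 1 := Units.ext (by simpa using this)
      rw [mul_inv_eq_one.mp h2]
    rw [sum_hom_units_eq_zero _ hne, mul_zero]

end Ind

end Cfsg.Agent.Helper25
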