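import Mathlib
import Cfsg.Agent.Helper25.CyclicTI4
import Cfsg.Agent.Helper25.CyclicTI3
import Cfsg.Agent.Helper3.Exceptional
import Cfsg.Agent.Helper3.BrauerInd
import Cfsg.Agent.Helper81.AbelChar

/-!
# Exceptional characters for a TI-set with respect to a subgroup (helper25)

* `indFun_finset_sum`: induction of functions commutes with finite sums.
* `exc_chars_TI`: if `χ i` are distinct irreducible characters of a subgroup `H` which agree off
  a subset `V` with `{g | g V g⁻¹ ∩ V ≠ ∅} ⊆ H`, `1 ∉ V`, then there are a sign `ε` and distinct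
  irreducible characters `θ i` of `G` with `Ind (χ i - χ j) = ε (θ i - θ j)`.
* `sum_hom_apply_of_commute`: `∑ φ, φ x = |H| [x = 1]` over the linear characters of a finite
  commutative group.
-/

set_option autoImplicit false
set_option linter.style.haveILetI false
set_option linter.unusedVariables false
set_option linter.unusedSectionVars false
set_option maxHeartbeats 1000000

namespace Cfsg.Agent.Helper25

open Cfsg

theorem indFun_finset_sum {G : Type*} [Group G] [Fintype G] (H : Subgroup G) {ι : Type*}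
    (s : Finset ι) (f : ι → (H → ℂ)) :
    indFun H (∑ i ∈ s, f i) = ∑ i ∈ s, indFun H (f i) := by
  classical
  induction s using Finset.induction_on with
  | empty =>
    rw [Finset.sum_empty, Finset.sum_empty]
    exact Cfsg.Agent.Helper3.indFun_zero H
  | insert a s ha ih =>
    rw [Finset.sum_insert ha, Finset.sum_insert ha, Cfsg.Agent.Helper3.indFun_add, ih]

/-- Exceptional characters for a subgroup `H` and a subset `V` with
`{g | g V g⁻¹ ∩ V ≠ ∅} ⊆ H`. -/
theorem exc_chars_TI {G : Type*} [Group G] [Fintype G] (H : Subgroup G) [Fintype H] (V : Set G)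
    (hTI : ∀ g : G, ∀ t ∈ V, g * t * g⁻¹ ∈ V → g ∈ H) (hV1 : (1 : G) ∉ V) (n : ℕ) (hn : 2 ≤ n)
    (χ : Fin n → (H → ℂ)) (hirr : ∀ i, IsIrrCharacter H (χ i)) (hinj : Function.Injective χ)
    (hvan : ∀ i j, ∀ x : H, (x : G) ∉ V → χ i x = χ j x) :
    ∃ ε : ℂ, (ε = 1 ∨ ε = -1) ∧ ∃ θ : Fin n → (G → ℂ), (∀ i, IsIrrCharacter G (θ i)) ∧
      Function.Injective θ ∧ ∀ i j, indFun H (χ i - χ j) = ε • (θ i - θ j) := by
  classical
  set i0 : Fin n := ⟨0, by omega⟩ with hi0
  have hchar : ∀ i, IsCharacter G (indFun H (χ i)) := fun i =>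
    Cfsg.Agent.Helper3.isCharacter_indFun H (χ i) (Cfsg.Agent.Helper79.isCharacter_of_irr (hirr i))
  have hcl : ∀ i, IsClassFunction H (χ i) := fun i =>
    Cfsg.Agent.Helper79.isCharacter_isClassFunction
      (Cfsg.Agent.Helper79.isCharacter_of_irr (hirr i))
  have hcl2 : ∀ i j, IsClassFunction H (χ i - χ j) := by
    intro i j g h
    show χ i (h * g * h⁻¹) - χ j (h * g * h⁻¹) = χ i g - χ j g
    rw [hcl i g h, hcl j g h]
  have hvan2 : ∀ i j, ∀ x : H, (x : G) ∉ V → (χ i - χ j) x = 0 := by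
    intro i j x hx
    show χ i x - χ j x = 0
    rw [hvan i j x hx, sub_self]
  have hinner : ∀ k l : Fin n, classInner (indFun H (χ k - χ i0)) (indFun H (χ l - χ i0))
      = (if k = l then 1 else 0) - (if k = i0 then 1 else 0) - (if i0 = l then 1 else 0) + 1 := by
    intro k l
    rw [classInner_indFun_TI' H V hTI (χ k - χ i0) (χ l - χ i0) (hcl2 l i0) (hvan2 k i0)
      (hvan2 l i0), Cfsg.Agent.Helper3.classInner_sub_sub]
    have e := fun a b : Fin n => Cfsg.Agent.Helper3.classInner_irr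
      (⟨χ a, hirr a⟩ : IrrCharacter H) ⟨χ b, hirr b⟩
    simp only at e
    rw [e, e, e, e]
    have hiff : ∀ a b : Fin n,
        ((⟨χ a, hirr a⟩ : IrrCharacter H) = ⟨χ b, hirr b⟩) ↔ a = b := by
      intro a b
      constructor
      · intro h
        exact hinj (congrArg Subtype.val h)
      · intro h
        rw [h]
    simp only [hiff, if_true]
  have hex : ∀ k : Fin n, ∃ X Y : IrrCharacter G, k ≠ i0 →
      (X ≠ Y ∧ indFun H (χ k - χ i0) = (X : G → ℂ) - (Y : G → ℂ)) := by
    intro k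
    by_cases hk : k = i0
    · exact ⟨⟨_, Cfsg.Agent.Helper79.isIrrCharacter_one⟩,
        ⟨_, Cfsg.Agent.Helper79.isIrrCharacter_one⟩, fun h => absurd hk h⟩
    · have h := Cfsg.Agent.Helper3.exists_irr_sub_of_norm_two (indFun H (χ k - χ i0))
        (Cfsg.Agent.Helper3.indFun_isClassFunction H _) ?_ ?_ ?_
      · obtain ⟨X, Y, h1, h2⟩ := h
        exact ⟨X, Y, fun _ => ⟨h1, h2⟩⟩
      · intro θ
        obtain ⟨a, ha⟩ := Cfsg.Agent.Helper3.classInner_isCharacter_nat (hchar k)
          (Cfsg.Agent.Helper79.irr_isCharacter θ)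
        obtain ⟨b, hb⟩ := Cfsg.Agent.Helper3.classInner_isCharacter_nat (hchar i0)
          (Cfsg.Agent.Helper79.irr_isCharacter θ)
        refine ⟨(a : ℤ) - (b : ℤ), ?_⟩
        rw [Cfsg.Agent.Helper3.indFun_sub, Cfsg.Agent.Helper3.classInner_sub_left, ha, hb]
        push_cast
        ring
      · rw [hinner k k, if_pos rfl, if_neg hk, if_neg (show ¬ i0 = k from fun h => hk h.symm)]
        norm_num
      · apply Cfsg.Agent.Helper3.indFun_apply_one_of_zero
        by_contra hne
        have h1 : ((1 : H) : G) ∈ V := by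
          by_contra h2
          exact hne (hvan2 k i0 1 h2)
        exact hV1 h1
  choose X Y hXYF using hex
  have hXY : ∀ k : Fin n, k ≠ i0 → X k ≠ Y k := fun k hk => (hXYF k hk).1
  have hF : ∀ k : Fin n, k ≠ i0 → indFun H (χ k - χ i0) = (X k : G → ℂ) - (Y k : G → ℂ) :=
    fun k hk => (hXYF k hk).2
  have hP : ∀ k l : Fin n, k ≠ i0 → l ≠ i0 → k ≠ l →
      (X k = X l ∧ Y k ≠ Y l) ∨ (X k ≠ X l ∧ Y k = Y l) := by
    intro k l hk hl hkl
    have h := hinner k l
    rw [hF k hk, hF l hl, Cfsg.Agent.Helper3.classInner_sub_sub,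
      Cfsg.Agent.Helper3.classInner_irr, Cfsg.Agent.Helper3.classInner_irr,
      Cfsg.Agent.Helper3.classInner_irr, Cfsg.Agent.Helper3.classInner_irr, if_neg hkl,
      if_neg hk, if_neg (show ¬ i0 = l from fun h => hl h.symm)] at h
    have hk' := hXY k hk
    have hl' := hXY l hl
    by_cases h1 : X k = X l <;> by_cases h2 : Y k = Y l
    · exfalso
      have h3 : X k ≠ Y l := fun h => hk' (h.trans h2.symm)
      have h4 : Y k ≠ X l := fun h => hk' (h1.trans h.symm)
      rw [if_pos h1, if_pos h2, if_neg h3, if_neg h4] at h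
      norm_num at h
    · exact Or.inl ⟨h1, h2⟩
    · exact Or.inr ⟨h1, h2⟩
    · exfalso
      rw [if_neg h1, if_neg h2] at h
      by_cases h3 : X k = Y l <;> by_cases h4 : Y k = X l
      · rw [if_pos h3, if_pos h4] at h; norm_num at h
      · rw [if_pos h3, if_neg h4] at h; norm_num at h
      · rw [if_neg h3, if_pos h4] at h; norm_num at h
      · rw [if_neg h3, if_neg h4] at h; norm_num at h
  have hdiff : ∀ i j : Fin n, indFun H (χ i - χ j)
      = indFun H (χ i - χ i0) - indFun H (χ j - χ i0) := by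
    intro i j
    rw [Cfsg.Agent.Helper3.indFun_sub, Cfsg.Agent.Helper3.indFun_sub,
      Cfsg.Agent.Helper3.indFun_sub]
    abel
  have hzero : indFun H (χ i0 - χ i0) = 0 := by
    rw [sub_self]
    exact Cfsg.Agent.Helper3.indFun_zero H
  rcases Cfsg.Agent.Helper3.coherent_choice hn X Y hXY hP with ⟨Θ, hΘinj, hΘ⟩ | ⟨Θ, hΘinj, hΘ⟩
  · replace hΘ : ∀ k : Fin n, k ≠ i0 → X k = Θ k ∧ Y k = Θ i0 := hΘ
    refine ⟨1, Or.inl rfl, fun i => (Θ i : G → ℂ), fun i => (Θ i).2, ?_, ?_⟩
    · intro i j hij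
      exact hΘinj (Subtype.ext hij)
    · intro i j
      rw [hdiff, one_smul]
      by_cases hi : i = i0 <;> by_cases hj : j = i0
      · rw [hi, hj]; simp
      · rw [hi, hzero, hF j hj, (hΘ j hj).1, (hΘ j hj).2]; simp
      · rw [hj, hzero, hF i hi, (hΘ i hi).1, (hΘ i hi).2]; simp
      · rw [hF i hi, hF j hj, (hΘ i hi).1, (hΘ i hi).2, (hΘ j hj).1, (hΘ j hj).2]; simp
  · replace hΘ : ∀ k : Fin n, k ≠ i0 → Y k = Θ k ∧ X k = Θ i0 := hΘ
    refine ⟨-1, Or.inr rfl, fun i => (Θ i : G → ℂ), fun i => (Θ i).2, ?_, ?_⟩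
    · intro i j hij
      exact hΘinj (Subtype.ext hij)
    · intro i j
      rw [hdiff, neg_one_smul]
      by_cases hi : i = i0 <;> by_cases hj : j = i0
      · rw [hi, hj]; simp
      · rw [hi, hzero, hF j hj, (hΘ j hj).1, (hΘ j hj).2]; simp
      · rw [hj, hzero, hF i hi, (hΘ i hi).1, (hΘ i hi).2]; simp
      · rw [hF i hi, hF j hj, (hΘ i hi).1, (hΘ i hi).2, (hΘ j hj).1, (hΘ j hj).2]; simp

/-- Column orthogonality at the identity for the linear characters of a finite commutative
group. -/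
theorem sum_hom_apply_of_commute {H : Type*} [Group H] [Fintype H] [DecidableEq H]
    (hc : ∀ a b : H, a * b = b * a) [Fintype (H →* ℂˣ)] (x : H) :
    ∑ φ : H →* ℂˣ, ((φ x : ℂˣ) : ℂ) = if x = 1 then (Nat.card H : ℂ) else 0 := by
  letI : CommGroup H := { (inferInstance : Group H) with mul_comm := hc }
  have h := Cfsg.Agent.Helper81.sum_dual (Q := H) x
  rw [Nat.card_eq_fintype_card]
  convert h using 2

end Cfsg.Agent.Helper25
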