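import Mathlib
import Cfsg.Agent.Helper25.PrimeAct1
import Cfsg.Agent.Helper80.LinChar

/-!
# Prime action: the TI-property and the characters `μ ω` (helper25)

Let `L = K ⋊ W₁` with `W₁` a cyclic Hall subgroup and `C_K(x) = W₂` for all `x ∈ W₁ ∖ 1`.

* `prime_action_commute`, `prime_action_TI`: `W₁` centralises `W₂`, and `W ∖ W₂` is a TI-subset
  of `L` with normaliser `W = W₁ ⊔ W₂`.
* `classInner_smul_smul`: sesquilinearity of `classInner`.
* `sum_conj_smul_resR_eq_zero`: sums over the linear characters of `W₁ ⊔ W₂` of terms depending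
  only on the restriction to `W₂`.
* `prime_action_chars`: the characters `μ ω` and the signs `δ ω` (Peterfalvi (4.3)).
-/

set_option autoImplicit false
set_option linter.style.haveILetI false
set_option linter.unusedVariables false
set_option linter.unusedSectionVars false
set_option maxHeartbeats 1000000

namespace Cfsg.Agent.Helper25

open Cfsg

section PA

variable {L : Type*} [Group L]

theorem prime_action_commute (K W₁ W₂ : Subgroup L)
    (hC : ∀ x ∈ W₁, x ≠ 1 → K ⊓ Subgroup.centralizer ({x} : Set L) = W₂) :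
    ∀ a ∈ W₁, ∀ b ∈ W₂, a * b = b * a := by
  intro a ha b hb
  by_cases ha1 : a = 1
  · rw [ha1, one_mul, mul_one]
  · have h1 : b ∈ K ⊓ Subgroup.centralizer ({a} : Set L) := by
      rw [hC a ha ha1]
      exact hb
    exact (Subgroup.mem_centralizer_iff.mp h1.2) a rfl

theorem prime_action_TI [Finite L] (K W₁ W₂ : Subgroup L) [hK : K.Normal] (hKW₁ : K ⊓ W₁ = ⊥)
    (hKW₁' : K ⊔ W₁ = ⊤) (hW₁comm : ∀ x ∈ W₁, ∀ y ∈ W₁, x * y = y * x)
    (hHall : Nat.Coprime (Nat.card W₁) W₁.index) (hW₂K : W₂ ≤ K)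
    (hC : ∀ x ∈ W₁, x ≠ 1 → K ⊓ Subgroup.centralizer ({x} : Set L) = W₂) :
    ∀ g : L, ∀ t ∈ {x : L | x ∈ W₁ ⊔ W₂ ∧ x ∉ W₂},
      g * t * g⁻¹ ∈ {x : L | x ∈ W₁ ⊔ W₂ ∧ x ∉ W₂} → g ∈ W₁ ⊔ W₂ := by
  classical
  have hcomm := prime_action_commute K W₁ W₂ hC
  have hcompl : Subgroup.IsComplement' K W₁ :=
    Subgroup.isComplement'_of_disjoint_and_mul_eq_univ (disjoint_iff.mpr hKW₁)
      (by rw [← Subgroup.normal_mul, hKW₁', Subgroup.coe_top])
  have hidx : W₁.index = Nat.card K := hcompl.index_eq_card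
  have hcop : Nat.Coprime (Nat.card W₁) (Nat.card W₂) := by
    rw [hidx] at hHall
    exact Nat.Coprime.coprime_dvd_right (Subgroup.card_dvd_of_le hW₂K) hHall
  have hpow : ∀ w ∈ W₁ ⊔ W₂, w ^ Nat.card W₂ ∈ W₁ ∧ (w ∉ W₂ → w ^ Nat.card W₂ ≠ 1) := by
    intro w hw
    obtain ⟨a, b, ha, hb, hab⟩ := exists_mul_of_mem_sup_of_commute hcomm ⟨w, hw⟩
    have hw' : w = (a : L) * (b : L) := congrArg Subtype.val hab
    have hbpow : (b : L) ^ Nat.card W₂ = 1 := by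
      have h := pow_card_eq_one' (G := W₂) (x := ⟨(b : L), hb⟩)
      exact congrArg Subtype.val h
    have hwpow : w ^ Nat.card W₂ = (a : L) ^ Nat.card W₂ := by
      rw [hw', (show Commute (a : L) (b : L) from hcomm a ha b hb).mul_pow, hbpow, mul_one]
    refine ⟨by rw [hwpow]; exact W₁.pow_mem ha _, fun hwW₂ h1 => ?_⟩
    rw [hwpow] at h1
    have h2 : orderOf (a : L) ∣ Nat.card W₂ := orderOf_dvd_of_pow_eq_one h1
    have h3 : orderOf (a : L) ∣ Nat.card W₁ := by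
      have h := orderOf_dvd_natCard (⟨(a : L), ha⟩ : W₁)
      rwa [Subgroup.orderOf_mk] at h
    have h4 := Nat.dvd_gcd h3 h2
    rw [Nat.Coprime.gcd_eq_one hcop, Nat.dvd_one, orderOf_eq_one_iff] at h4
    apply hwW₂
    rw [hw', h4, one_mul]
    exact hb
  intro g t ht hgt
  obtain ⟨htW, htW₂⟩ := ht
  obtain ⟨hgtW, -⟩ := hgt
  obtain ⟨ha', ha'1⟩ := hpow t htW
  replace ha'1 := ha'1 htW₂
  have hga' : g * t ^ Nat.card W₂ * g⁻¹ ∈ W₁ := by
    have := (hpow (g * t * g⁻¹) hgtW).1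
    rwa [conj_pow] at this
  obtain ⟨k, hk, u, hu, rfl⟩ := Subgroup.mem_sup_of_normal_left.mp
    (show g ∈ K ⊔ W₁ by rw [hKW₁']; exact Subgroup.mem_top g)
  have h1 : k * u * t ^ Nat.card W₂ * (k * u)⁻¹ = k * t ^ Nat.card W₂ * k⁻¹ := by
    have := hW₁comm u hu _ ha'
    calc k * u * t ^ Nat.card W₂ * (k * u)⁻¹
        = k * (u * t ^ Nat.card W₂) * u⁻¹ * k⁻¹ := by group
      _ = k * (t ^ Nat.card W₂ * u) * u⁻¹ * k⁻¹ := by rw [this]
      _ = k * t ^ Nat.card W₂ * k⁻¹ := by group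
  rw [h1] at hga'
  have h2 : k * t ^ Nat.card W₂ * k⁻¹ * (t ^ Nat.card W₂)⁻¹ ∈ K ⊓ W₁ := by
    refine ⟨?_, W₁.mul_mem hga' (W₁.inv_mem ha')⟩
    have : k * t ^ Nat.card W₂ * k⁻¹ * (t ^ Nat.card W₂)⁻¹
        = k * (t ^ Nat.card W₂ * k⁻¹ * (t ^ Nat.card W₂)⁻¹) := by group
    rw [this]
    exact K.mul_mem hk (hK.conj_mem _ (K.inv_mem hk) _)
  rw [hKW₁, Subgroup.mem_bot] at h2
  have h3 : t ^ Nat.card W₂ * k = k * t ^ Nat.card W₂ := by
    calc t ^ Nat.card W₂ * k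
        = (k * t ^ Nat.card W₂ * k⁻¹ * (t ^ Nat.card W₂)⁻¹)⁻¹ * k * t ^ Nat.card W₂ := by group
      _ = k * t ^ Nat.card W₂ := by rw [h2, inv_one, one_mul]
  have hkW₂ : k ∈ W₂ := by
    rw [← hC _ ha' ha'1]
    refine ⟨hk, Subgroup.mem_centralizer_iff.mpr (fun h hh => ?_)⟩
    rw [Set.mem_singleton_iff] at hh
    rw [hh]
    exact h3
  exact Subgroup.mul_mem _ (Subgroup.mem_sup_right hkW₂) (Subgroup.mem_sup_left hu)

end PA

theorem classInner_smul_smul {G : Type*} [Group G] [Fintype G] (a b : ℂ) (f g : G → ℂ) :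
    classInner (a • f) (b • g) = a * (starRingEnd ℂ) b * classInner f g := by
  unfold classInner
  simp only [Pi.smul_apply, smul_eq_mul, map_mul]
  rw [Finset.mul_sum, Finset.mul_sum, Finset.mul_sum]
  refine Finset.sum_congr rfl (fun x _ => ?_)
  ring

section Chars

variable {L : Type*} [Group L] {W₁ W₂ : Subgroup L}

/-- A sum over the linear characters `ω` of `W₁ ⊔ W₂` of `conj (ω w) • F (ω|W₂)` vanishes when
`w ∉ W₂`. -/
theorem sum_conj_smul_resR_eq_zero [Finite L] (hdisj : W₁ ⊓ W₂ = ⊥)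
    (hcomm : ∀ a ∈ W₁, ∀ b ∈ W₂, a * b = b * a)
    (hW₁comm : ∀ x ∈ W₁, ∀ y ∈ W₁, x * y = y * x)
    [Fintype (↥(W₁ ⊔ W₂) →* ℂˣ)] [Fintype (W₁ →* ℂˣ)] [Fintype (W₂ →* ℂˣ)]
    {M : Type*} [AddCommGroup M] [Module ℂ M] (F : (W₂ →* ℂˣ) → M) (w : ↥(W₁ ⊔ W₂))
    (hw : (w : L) ∉ W₂) :
    ∑ ω : ↥(W₁ ⊔ W₂) →* ℂˣ, (starRingEnd ℂ) ((ω w : ℂˣ) : ℂ) •
      F (ω.comp (Subgroup.inclusion le_sup_right)) = 0 := by
  classical
  haveI : Fintype W₁ := Fintype.ofFinite _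
  obtain ⟨a, b, ha, hb, hab⟩ := exists_mul_of_mem_sup_of_commute hcomm w
  have hw' : (w : L) = (a : L) * (b : L) := congrArg Subtype.val hab
  have ha1 : (⟨(a : L), ha⟩ : W₁) ≠ 1 := by
    intro h
    have h1 : (a : L) = 1 := congrArg Subtype.val h
    apply hw
    rw [hw', h1, one_mul]
    exact hb
  have hbij := extLeft_mul_extRight_bijective hdisj hcomm
  rw [← Fintype.sum_bijective _ hbij
    (fun p : (W₁ →* ℂˣ) × (W₂ →* ℂˣ) =>
      (starRingEnd ℂ) (((p.1 ⟨(a : L), ha⟩ : ℂˣ) : ℂ)) •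
        ((starRingEnd ℂ) (((p.2 ⟨(b : L), hb⟩ : ℂˣ) : ℂ)) • F p.2)) _ ?_]
  · rw [Fintype.sum_prod_type, Finset.sum_comm]
    refine Finset.sum_eq_zero (fun β _ => ?_)
    show ∑ x : W₁ →* ℂˣ, (starRingEnd ℂ) (((x ⟨(a : L), ha⟩ : ℂˣ) : ℂ)) •
      ((starRingEnd ℂ) (((β ⟨(b : L), hb⟩ : ℂˣ) : ℂ)) • F β) = 0
    rw [← Finset.sum_smul, ← map_sum,
      sum_hom_apply_of_commute (fun x y => Subtype.ext (hW₁comm x x.2 y y.2)), if_neg ha1,
      map_zero, zero_smul]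
  · rintro ⟨α, β⟩
    have h1 := extLeft_mul_extRight_apply hdisj hcomm α β ⟨(a : L), ha⟩ ⟨(b : L), hb⟩ w hw'
    have h2 : (extLeft hdisj hcomm α * extRight hdisj hcomm β).comp
        (Subgroup.inclusion le_sup_right) = β := by
      ext x
      have h3 := extLeft_mul_extRight_apply hdisj hcomm α β 1 x
        (Subgroup.inclusion le_sup_right x) (by simp)
      rw [MonoidHom.comp_apply, h3, map_one, one_mul]
    simp only
    rw [h1, h2, Units.val_mul, map_mul, mul_smul]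

end Chars

end Cfsg.Agent.Helper25
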