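import Mathlib
import Cfsg.Agent.Helper25.PrimeAct2

/-!
# Prime action: existence of the characters `μ ω` (helper25)

* `resLeft`, `resRight`: restriction of a linear character of `W₁ ⊔ W₂` to `W₁`, `W₂`.
* `prime_action_exists`: the characters `μ ω` and signs `δ ω` with
  `Ind (ω - ω') = δ ω (μ ω - μ ω')` for `ω`, `ω'` agreeing on `W₂`.
-/

set_option autoImplicit false
set_option linter.style.haveILetI false
set_option linter.unusedVariables false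
set_option linter.unusedSectionVars false
set_option maxHeartbeats 1000000

namespace Cfsg.Agent.Helper25

open Cfsg

section Chars3

variable {L : Type*} [Group L] {W₁ W₂ : Subgroup L}

/-- restriction of a linear character of `W₁ ⊔ W₂` to `W₁`. -/
noncomputable def resLeft (ω : ↥(W₁ ⊔ W₂) →* ℂˣ) : W₁ →* ℂˣ :=
  ω.comp (Subgroup.inclusion le_sup_left)

/-- restriction of a linear character of `W₁ ⊔ W₂` to `W₂`. -/
noncomputable def resRight (ω : ↥(W₁ ⊔ W₂) →* ℂˣ) : W₂ →* ℂˣ :=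
  ω.comp (Subgroup.inclusion le_sup_right)

theorem extLeft_mul_extRight_res (hdisj : W₁ ⊓ W₂ = ⊥)
    (hcomm : ∀ a ∈ W₁, ∀ b ∈ W₂, a * b = b * a) (ω : ↥(W₁ ⊔ W₂) →* ℂˣ) :
    extLeft hdisj hcomm (resLeft ω) * extRight hdisj hcomm (resRight ω) = ω := by
  ext w
  obtain ⟨a, b, ha, hb, rfl⟩ := exists_mul_of_mem_sup_of_commute hcomm w
  have := extLeft_mul_extRight_apply hdisj hcomm (resLeft ω) (resRight ω) ⟨a, ha⟩ ⟨b, hb⟩
    (a * b) rfl
  rw [this, map_mul]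
  rfl

theorem resRight_extLeft_mul_extRight (hdisj : W₁ ⊓ W₂ = ⊥)
    (hcomm : ∀ a ∈ W₁, ∀ b ∈ W₂, a * b = b * a) (α : W₁ →* ℂˣ) (β : W₂ →* ℂˣ) :
    resRight (extLeft hdisj hcomm α * extRight hdisj hcomm β) = β := by
  ext x
  have h3 := extLeft_mul_extRight_apply hdisj hcomm α β 1 x
    (Subgroup.inclusion le_sup_right x) (by simp)
  show ((extLeft hdisj hcomm α * extRight hdisj hcomm β) (Subgroup.inclusion le_sup_right x) : ℂ)
    = _
  rw [h3, map_one, one_mul]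

theorem resLeft_extLeft_mul_extRight (hdisj : W₁ ⊓ W₂ = ⊥)
    (hcomm : ∀ a ∈ W₁, ∀ b ∈ W₂, a * b = b * a) (α : W₁ →* ℂˣ) (β : W₂ →* ℂˣ) :
    resLeft (extLeft hdisj hcomm α * extRight hdisj hcomm β) = α := by
  ext x
  have h3 := extLeft_mul_extRight_apply hdisj hcomm α β x 1
    (Subgroup.inclusion le_sup_left x) (by simp)
  show ((extLeft hdisj hcomm α * extRight hdisj hcomm β) (Subgroup.inclusion le_sup_left x) : ℂ)
    = _
  rw [h3, map_one, mul_one]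

theorem resRight_eq_of_agree {ω ω' : ↥(W₁ ⊔ W₂) →* ℂˣ}
    (h : ∀ w : ↥(W₁ ⊔ W₂), (w : L) ∈ W₂ → ω w = ω' w) : resRight ω = resRight ω' := by
  ext b
  show ((ω (Subgroup.inclusion le_sup_right b) : ℂˣ) : ℂ) = _
  rw [h (Subgroup.inclusion le_sup_right b) b.2]
  rfl

theorem agree_of_resRight_eq {ω ω' : ↥(W₁ ⊔ W₂) →* ℂˣ} (h : resRight ω = resRight ω')
    (w : ↥(W₁ ⊔ W₂)) (hw : (w : L) ∈ W₂) : ω w = ω' w := by
  have h1 := DFunLike.congr_fun h ⟨(w : L), hw⟩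
  exact h1

theorem prime_action_exists [Fintype L] (W₁ W₂ : Subgroup L) (hdisj : W₁ ⊓ W₂ = ⊥)
    (hcomm : ∀ a ∈ W₁, ∀ b ∈ W₂, a * b = b * a)
    (hW₁comm : ∀ x ∈ W₁, ∀ y ∈ W₁, x * y = y * x) (hW₁ : W₁ ≠ ⊥)
    (hTI : ∀ g : L, ∀ t ∈ {x : L | x ∈ W₁ ⊔ W₂ ∧ x ∉ W₂},
      g * t * g⁻¹ ∈ {x : L | x ∈ W₁ ⊔ W₂ ∧ x ∉ W₂} → g ∈ W₁ ⊔ W₂) :
    ∃ (μ : (↥(W₁ ⊔ W₂) →* ℂˣ) → (L → ℂ)) (δ : (↥(W₁ ⊔ W₂) →* ℂˣ) → ℂ),
      (∀ ω, IsIrrCharacter L (μ ω)) ∧ (∀ ω, δ ω = 1 ∨ δ ω = -1) ∧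
      (∀ ω ω' : ↥(W₁ ⊔ W₂) →* ℂˣ, (∀ w : ↥(W₁ ⊔ W₂), (w : L) ∈ W₂ → ω w = ω' w) →
        δ ω = δ ω' ∧
        indFun (W₁ ⊔ W₂) (fun w => (ω w : ℂ) - (ω' w : ℂ)) = δ ω • (μ ω - μ ω') ∧
        (μ ω = μ ω' → ω = ω')) := by
  classical
  haveI : Fintype ↥(W₁ ⊔ W₂) := Fintype.ofFinite _
  haveI : Finite (W₁ →* ℂˣ) := Cfsg.Agent.Helper80.finite_hom
  have hV1 : (1 : L) ∉ {x : L | x ∈ W₁ ⊔ W₂ ∧ x ∉ W₂} := fun h => h.2 W₂.one_mem
  have hcardW₁ : 2 ≤ Nat.card W₁ := by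
    have h1 : Nat.card W₁ ≠ 1 := fun h => hW₁ (Subgroup.card_eq_one.mp h)
    have h0 : 0 < Nat.card W₁ := Nat.card_pos
    omega
  have hn2 : 2 ≤ Nat.card (W₁ →* ℂˣ) := by
    rw [card_monoidHom_of_commute (H := W₁) (fun a b => Subtype.ext (hW₁comm a a.2 b b.2))]
    exact hcardW₁
  obtain ⟨e⟩ : Nonempty (Fin (Nat.card (W₁ →* ℂˣ)) ≃ (W₁ →* ℂˣ)) :=
    ⟨(Finite.equivFin _).symm⟩
  have key : ∀ β : W₂ →* ℂˣ, ∃ ε : ℂ, (ε = 1 ∨ ε = -1) ∧
      ∃ θ : Fin (Nat.card (W₁ →* ℂˣ)) → (L → ℂ), (∀ i, IsIrrCharacter L (θ i)) ∧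
        Function.Injective θ ∧ ∀ i j, indFun (W₁ ⊔ W₂)
          ((fun w => (((extLeft hdisj hcomm (e i) * extRight hdisj hcomm β) w : ℂˣ) : ℂ)) -
            (fun w => (((extLeft hdisj hcomm (e j) * extRight hdisj hcomm β) w : ℂˣ) : ℂ)))
          = ε • (θ i - θ j) := by
    intro β
    apply exc_chars_TI (W₁ ⊔ W₂) _ hTI hV1 _ hn2
      (fun i w => (((extLeft hdisj hcomm (e i) * extRight hdisj hcomm β) w : ℂˣ) : ℂ))
    · intro i
      exact Cfsg.Agent.Helper79.isIrrCharacter_of_hom _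
    · intro i j hij
      have h1 : extLeft hdisj hcomm (e i) * extRight hdisj hcomm β
          = extLeft hdisj hcomm (e j) * extRight hdisj hcomm β := by
        ext w
        exact congrFun hij w
      have h2 := congrArg resLeft h1
      rw [resLeft_extLeft_mul_extRight, resLeft_extLeft_mul_extRight] at h2
      exact e.injective h2
    · intro i j x hx
      have hxW₂ : (x : L) ∈ W₂ := by
        by_contra h
        exact hx ⟨x.2, h⟩
      show (((extLeft hdisj hcomm (e i) * extRight hdisj hcomm β) x : ℂˣ) : ℂ)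
        = (((extLeft hdisj hcomm (e j) * extRight hdisj hcomm β) x : ℂˣ) : ℂ)
      rw [MonoidHom.mul_apply, MonoidHom.mul_apply, extLeft_trivial hdisj hcomm _ x hxW₂,
        extLeft_trivial hdisj hcomm _ x hxW₂]
  choose ε hε θ hθirr hθinj hθ using key
  have hfun : ∀ ω₀ : ↥(W₁ ⊔ W₂) →* ℂˣ, (fun w => ((ω₀ w : ℂˣ) : ℂ))
      = (fun w => (((extLeft hdisj hcomm (e (e.symm (resLeft ω₀))) *
          extRight hdisj hcomm (resRight ω₀)) w : ℂˣ) : ℂ)) := by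
    intro ω₀
    rw [e.apply_symm_apply, extLeft_mul_extRight_res]
  refine ⟨fun ω => θ (resRight ω) (e.symm (resLeft ω)), fun ω => ε (resRight ω),
    fun ω => hθirr _ _, fun ω => hε _, ?_⟩
  intro ω ω' hag
  have hres : resRight ω = resRight ω' := resRight_eq_of_agree hag
  refine ⟨?_, ?_, ?_⟩
  · show ε (resRight ω) = ε (resRight ω')
    rw [hres]
  · have h1 := hfun ω
    have h2 := hfun ω'
    rw [← hres] at h2
    show indFun (W₁ ⊔ W₂) ((fun w => ((ω w : ℂˣ) : ℂ)) - (fun w => ((ω' w : ℂˣ) : ℂ)))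
      = ε (resRight ω) • (θ (resRight ω) (e.symm (resLeft ω)) -
          θ (resRight ω') (e.symm (resLeft ω')))
    rw [h1, h2, hθ, ← hres]
  · intro hμ
    have hμ' : θ (resRight ω) (e.symm (resLeft ω)) = θ (resRight ω') (e.symm (resLeft ω')) := hμ
    rw [← hres] at hμ'
    have h3 := e.symm.injective (hθinj _ hμ')
    rw [← extLeft_mul_extRight_res hdisj hcomm ω, ← extLeft_mul_extRight_res hdisj hcomm ω',
      h3, hres]

end Chars3

end Cfsg.Agent.Helper25
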