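import Mathlib
import Cfsg.Agent.Helper25.PrimeAct3

/-!
# Prime action: injectivity of `μ` and the restriction formula (helper25)

* `sup_commute`: `W₁ ⊔ W₂` is commutative when `W₁`, `W₂` are and commute with each other.
* `prime_action_injective`: `ω ↦ μ ω` is injective.
* `prime_action_formula`: for a class function `θ₀` of `L` and `w ∈ W ∖ W₂`,
  `conj (θ₀ w) = ∑ ω, conj (ω w) δ ω ⟨μ ω, θ₀⟩`.
-/

set_option autoImplicit false
set_option linter.style.haveILetI false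
set_option linter.unusedVariables false
set_option linter.unusedSectionVars false
set_option maxHeartbeats 1000000

namespace Cfsg.Agent.Helper25

open Cfsg

theorem isClassFunction_hom_sub {H : Type*} [Group H] (ω ω' : H →* ℂˣ) :
    IsClassFunction H (fun w => ((ω w : ℂˣ) : ℂ) - ((ω' w : ℂˣ) : ℂ)) := by
  intro g h
  have h1 : ∀ f : H →* ℂˣ, f (h * g * h⁻¹) = f g := by
    intro f
    rw [map_mul, map_mul, map_inv, mul_comm (f h), mul_assoc, mul_inv_cancel, mul_one]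
  show ((ω (h * g * h⁻¹) : ℂˣ) : ℂ) - ((ω' (h * g * h⁻¹) : ℂˣ) : ℂ) = _
  rw [h1 ω, h1 ω']

theorem classInner_irr_fun {G : Type*} [Group G] [Fintype G] [DecidableEq (G → ℂ)] {f g : G → ℂ}
    (hf : IsIrrCharacter G f) (hg : IsIrrCharacter G g) :
    classInner f g = if f = g then 1 else 0 := by
  classical
  have h := Cfsg.Agent.Helper3.classInner_irr (⟨f, hf⟩ : IrrCharacter G) ⟨g, hg⟩
  simp only [Subtype.mk.injEq] at h
  rw [h]

section Chars4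

variable {L : Type*} [Group L] {W₁ W₂ : Subgroup L}

theorem sup_commute (hcomm : ∀ a ∈ W₁, ∀ b ∈ W₂, a * b = b * a)
    (hW₁comm : ∀ x ∈ W₁, ∀ y ∈ W₁, x * y = y * x)
    (hW₂comm : ∀ x ∈ W₂, ∀ y ∈ W₂, x * y = y * x) (x y : ↥(W₁ ⊔ W₂)) : x * y = y * x := by
  obtain ⟨a, b, ha, hb, rfl⟩ := exists_mul_of_mem_sup_of_commute hcomm x
  obtain ⟨c, d, hc, hd, rfl⟩ := exists_mul_of_mem_sup_of_commute hcomm y
  apply Subtype.ext
  show (a : L) * (b : L) * ((c : L) * (d : L)) = (c : L) * (d : L) * ((a : L) * (b : L))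
  have h1 := hcomm c hc b hb
  have h2 := hW₁comm a ha c hc
  have h3 := hW₂comm b hb d hd
  have h4 := hcomm a ha d hd
  calc (a : L) * (b : L) * ((c : L) * (d : L)) = (a : L) * ((b : L) * (c : L)) * (d : L) := by
        group
    _ = (a : L) * ((c : L) * (b : L)) * (d : L) := by rw [h1]
    _ = ((a : L) * (c : L)) * ((b : L) * (d : L)) := by group
    _ = ((c : L) * (a : L)) * ((d : L) * (b : L)) := by rw [h2, h3]
    _ = (c : L) * ((a : L) * (d : L)) * (b : L) := by group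
    _ = (c : L) * ((d : L) * (a : L)) * (b : L) := by rw [h4]
    _ = (c : L) * (d : L) * ((a : L) * (b : L)) := by group

theorem prime_action_injective [Fintype L] (W₁ W₂ : Subgroup L) (hdisj : W₁ ⊓ W₂ = ⊥)
    (hcomm : ∀ a ∈ W₁, ∀ b ∈ W₂, a * b = b * a)
    (hW₁comm : ∀ x ∈ W₁, ∀ y ∈ W₁, x * y = y * x) (hW₁ : W₁ ≠ ⊥)
    (hTI : ∀ g : L, ∀ t ∈ {x : L | x ∈ W₁ ⊔ W₂ ∧ x ∉ W₂},
      g * t * g⁻¹ ∈ {x : L | x ∈ W₁ ⊔ W₂ ∧ x ∉ W₂} → g ∈ W₁ ⊔ W₂)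
    (μ : (↥(W₁ ⊔ W₂) →* ℂˣ) → (L → ℂ)) (δ : (↥(W₁ ⊔ W₂) →* ℂˣ) → ℂ)
    (hirr : ∀ ω, IsIrrCharacter L (μ ω)) (hδ : ∀ ω, δ ω = 1 ∨ δ ω = -1)
    (hC : ∀ ω ω' : ↥(W₁ ⊔ W₂) →* ℂˣ, (∀ w : ↥(W₁ ⊔ W₂), (w : L) ∈ W₂ → ω w = ω' w) →
        δ ω = δ ω' ∧
        indFun (W₁ ⊔ W₂) (fun w => (ω w : ℂ) - (ω' w : ℂ)) = δ ω • (μ ω - μ ω') ∧
        (μ ω = μ ω' → ω = ω')) :
    Function.Injective μ := by
  classical
  intro ω ω' hμ
  by_cases hag : ∀ w : ↥(W₁ ⊔ W₂), (w : L) ∈ W₂ → ω w = ω' w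
  · exact (hC ω ω' hag).2.2 hμ
  exfalso
  haveI : Fintype ↥(W₁ ⊔ W₂) := Fintype.ofFinite _
  haveI : Finite (W₁ →* ℂˣ) := Cfsg.Agent.Helper80.finite_hom
  have hcardW₁ : 2 ≤ Nat.card W₁ := by
    have h1 : Nat.card W₁ ≠ 1 := fun h => hW₁ (Subgroup.card_eq_one.mp h)
    have h0 : 0 < Nat.card W₁ := Nat.card_pos
    omega
  have hn2 : 2 ≤ Nat.card (W₁ →* ℂˣ) := by
    rw [card_monoidHom_of_commute (H := W₁) (fun a b => Subtype.ext (hW₁comm a a.2 b b.2))]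
    exact hcardW₁
  obtain ⟨α, hα⟩ : ∃ α : W₁ →* ℂˣ, α ≠ 1 := by
    by_contra hcon
    push Not at hcon
    haveI : Subsingleton (W₁ →* ℂˣ) := ⟨fun a b => (hcon a).trans (hcon b).symm⟩
    have : Nat.card (W₁ →* ℂˣ) ≤ 1 := Finite.card_le_one_iff_subsingleton.mpr inferInstance
    omega
  obtain ⟨lam, hlam⟩ : ∃ lam : ↥(W₁ ⊔ W₂) →* ℂˣ, lam = extLeft hdisj hcomm α := ⟨_, rfl⟩
  have hlam1 : ∀ w : ↥(W₁ ⊔ W₂), (w : L) ∈ W₂ → lam w = 1 := by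
    intro w hw
    rw [hlam]
    exact extLeft_trivial hdisj hcomm α w hw
  have hlamne : lam ≠ 1 := by
    intro h
    apply hα
    ext a
    have h1 := extLeft_apply hdisj hcomm α a 1 (Subgroup.inclusion le_sup_left a) (by simp)
    rw [← hlam, h] at h1
    rw [← h1]
    rfl
  have hag1 : ∀ w : ↥(W₁ ⊔ W₂), (w : L) ∈ W₂ → ω w = (ω * lam) w := by
    intro w hw
    rw [MonoidHom.mul_apply, hlam1 w hw, mul_one]
  have hag1' : ∀ w : ↥(W₁ ⊔ W₂), (w : L) ∈ W₂ → ω' w = (ω' * lam) w := by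
    intro w hw
    rw [MonoidHom.mul_apply, hlam1 w hw, mul_one]
  have hne0 : ∀ ω₀ : ↥(W₁ ⊔ W₂) →* ℂˣ, ω₀ ≠ ω₀ * lam := by
    intro ω₀ h
    apply hlamne
    ext w
    have h1 := DFunLike.congr_fun h w
    rw [MonoidHom.mul_apply] at h1
    rw [left_eq_mul.mp h1]
    rfl
  have hne1 : ω ≠ ω * lam := hne0 ω
  have hne1' : ω' ≠ ω' * lam := hne0 ω'
  obtain ⟨-, hI1, hinj1⟩ := hC ω (ω * lam) hag1
  obtain ⟨-, hI2, hinj2⟩ := hC ω' (ω' * lam) hag1'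
  have hvan : ∀ ω₀ : ↥(W₁ ⊔ W₂) →* ℂˣ, ∀ x : ↥(W₁ ⊔ W₂),
      (x : L) ∉ {x : L | x ∈ W₁ ⊔ W₂ ∧ x ∉ W₂} →
      (fun w => ((ω₀ w : ℂˣ) : ℂ) - (((ω₀ * lam) w : ℂˣ) : ℂ)) x = 0 := by
    intro ω₀ x hx
    have hxW₂ : (x : L) ∈ W₂ := by
      by_contra h
      exact hx ⟨x.2, h⟩
    show ((ω₀ x : ℂˣ) : ℂ) - (((ω₀ * lam) x : ℂˣ) : ℂ) = 0
    rw [MonoidHom.mul_apply, hlam1 x hxW₂, mul_one, sub_self]
  have hI : classInner (indFun (W₁ ⊔ W₂) (fun w => ((ω w : ℂˣ) : ℂ) - (((ω * lam) w : ℂˣ) : ℂ)))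
      (indFun (W₁ ⊔ W₂) (fun w => ((ω' w : ℂˣ) : ℂ) - (((ω' * lam) w : ℂˣ) : ℂ))) = 0 := by
    rw [classInner_indFun_TI' (W₁ ⊔ W₂) _ hTI _ _ (isClassFunction_hom_sub ω' (ω' * lam))
      (hvan ω) (hvan ω')]
    show classInner ((fun w => ((ω w : ℂˣ) : ℂ)) - (fun w => (((ω * lam) w : ℂˣ) : ℂ)))
      ((fun w => ((ω' w : ℂˣ) : ℂ)) - (fun w => (((ω' * lam) w : ℂˣ) : ℂ))) = 0
    have d1 : ω ≠ ω' := by
      intro h
      apply hag
      intro w _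
      rw [h]
    have d2 : ω ≠ ω' * lam := by
      intro h
      apply hag
      intro w hw
      rw [h, MonoidHom.mul_apply, hlam1 w hw, mul_one]
    have d3 : ω * lam ≠ ω' := by
      intro h
      apply hag
      intro w hw
      rw [← h, MonoidHom.mul_apply, hlam1 w hw, mul_one]
    have d4 : ω * lam ≠ ω' * lam := fun h => d1 (mul_right_cancel h)
    rw [Cfsg.Agent.Helper3.classInner_sub_sub, classInner_monoidHom, classInner_monoidHom,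
      classInner_monoidHom, classInner_monoidHom, if_neg d1, if_neg d2, if_neg d3, if_neg d4]
    ring
  rw [hI1, hI2, classInner_smul_smul, Cfsg.Agent.Helper3.classInner_sub_sub,
    classInner_irr_fun (hirr ω) (hirr ω'), classInner_irr_fun (hirr ω) (hirr (ω' * lam)),
    classInner_irr_fun (hirr (ω * lam)) (hirr ω'),
    classInner_irr_fun (hirr (ω * lam)) (hirr (ω' * lam)), if_pos hμ,
    if_neg (fun h => hne1' (hinj2 (hμ.symm.trans h))),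
    if_neg (fun h => hne1 (hinj1 (hμ.trans h.symm)))] at hI
  have hδ1 : δ ω ≠ 0 := by
    rcases hδ ω with h | h <;> rw [h] <;> norm_num
  have hδ2 : (starRingEnd ℂ) (δ ω') ≠ 0 := by
    rcases hδ ω' with h | h <;> rw [h] <;> norm_num
  have h3 := (mul_eq_zero.mp hI).resolve_left (mul_ne_zero hδ1 hδ2)
  split_ifs at h3 <;> norm_num at h3

end Chars4

end Cfsg.Agent.Helper25
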