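import Mathlib
import Cfsg.Agent.Helper25.PrimeAct4

/-!
# Prime action: the restriction formula and the main theorem (helper25)

* `prime_action_formula`: for a class function `θ₀` of `L` and `w ∈ W ∖ W₂`,
  `conj (θ₀ w) = ∑ ω, conj (ω w) δ ω ⟨μ ω, θ₀⟩`.
* `prime_action_chars`: Peterfalvi (4.3) for `L = K ⋊ W₁` (abstract form, from the TI-property).
-/

set_option autoImplicit false
set_option linter.style.haveILetI false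
set_option linter.unusedVariables false
set_option linter.unusedSectionVars false
set_option maxHeartbeats 1000000

namespace Cfsg.Agent.Helper25

open Cfsg

section Chars5

variable {L : Type*} [Group L] {W₁ W₂ : Subgroup L}

theorem extRight_resRight_agree (hdisj : W₁ ⊓ W₂ = ⊥)
    (hcomm : ∀ a ∈ W₁, ∀ b ∈ W₂, a * b = b * a) (ω : ↥(W₁ ⊔ W₂) →* ℂˣ)
    (w : ↥(W₁ ⊔ W₂)) (hw : (w : L) ∈ W₂) :
    ω w = extRight hdisj hcomm (resRight ω) w := by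
  rw [extRight_apply hdisj hcomm (resRight ω) 1 ⟨(w : L), hw⟩ w (by simp)]
  rfl

theorem prime_action_formula [Fintype L] (W₁ W₂ : Subgroup L) (hdisj : W₁ ⊓ W₂ = ⊥)
    (hcomm : ∀ a ∈ W₁, ∀ b ∈ W₂, a * b = b * a)
    (hW₁comm : ∀ x ∈ W₁, ∀ y ∈ W₁, x * y = y * x)
    (hW₂comm : ∀ x ∈ W₂, ∀ y ∈ W₂, x * y = y * x)
    (μ : (↥(W₁ ⊔ W₂) →* ℂˣ) → (L → ℂ)) (δ : (↥(W₁ ⊔ W₂) →* ℂˣ) → ℂ)
    (hC : ∀ ω ω' : ↥(W₁ ⊔ W₂) →* ℂˣ, (∀ w : ↥(W₁ ⊔ W₂), (w : L) ∈ W₂ → ω w = ω' w) →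
        δ ω = δ ω' ∧
        indFun (W₁ ⊔ W₂) (fun w => (ω w : ℂ) - (ω' w : ℂ)) = δ ω • (μ ω - μ ω'))
    [Fintype (↥(W₁ ⊔ W₂) →* ℂˣ)]
    (θ₀ : L → ℂ) (hθ₀ : IsClassFunction L θ₀) (w : ↥(W₁ ⊔ W₂)) (hw : (w : L) ∉ W₂) :
    (starRingEnd ℂ) (θ₀ w) = ∑ ω : ↥(W₁ ⊔ W₂) →* ℂˣ,
      (starRingEnd ℂ) ((ω w : ℂˣ) : ℂ) * δ ω * classInner (μ ω) θ₀ := by
  classical
  haveI : Fintype ↥(W₁ ⊔ W₂) := Fintype.ofFinite _
  haveI : Finite (W₁ →* ℂˣ) := Cfsg.Agent.Helper80.finite_hom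
  haveI : Finite (W₂ →* ℂˣ) := Cfsg.Agent.Helper80.finite_hom
  haveI : Fintype (W₁ →* ℂˣ) := Fintype.ofFinite _
  haveI : Fintype (W₂ →* ℂˣ) := Fintype.ofFinite _
  have hWcomm := sup_commute hcomm hW₁comm hW₂comm
  obtain ⟨ψ, hψdef⟩ : ∃ ψ : ↥(W₁ ⊔ W₂) → ℂ, ψ = ∑ ω : ↥(W₁ ⊔ W₂) →* ℂˣ,
      (starRingEnd ℂ) ((ω w : ℂˣ) : ℂ) • (fun x => ((ω x : ℂˣ) : ℂ)) := ⟨_, rfl⟩
  -- (a) column orthogonality
  have hψ : ∀ x, ψ x = if x = w then (Nat.card ↥(W₁ ⊔ W₂) : ℂ) else 0 := by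
    intro x
    rw [hψdef, Finset.sum_apply]
    have h1 : ∀ ω : ↥(W₁ ⊔ W₂) →* ℂˣ,
        ((starRingEnd ℂ) ((ω w : ℂˣ) : ℂ) • (fun x => ((ω x : ℂˣ) : ℂ))) x
          = ((ω (w⁻¹ * x) : ℂˣ) : ℂ) := by
      intro ω
      rw [Pi.smul_apply, smul_eq_mul, Cfsg.Agent.Helper79.conj_hom_apply, map_mul, Units.val_mul]
    rw [Finset.sum_congr rfl (fun ω _ => h1 ω), sum_hom_apply_of_commute hWcomm]
    have h2 : w⁻¹ * x = 1 ↔ x = w := by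
      rw [inv_mul_eq_one]
      exact eq_comm
    simp only [h2]
  -- (b) Frobenius reciprocity
  have hb : classInner (indFun (W₁ ⊔ W₂) ψ) θ₀ = (starRingEnd ℂ) (θ₀ w) := by
    rw [Cfsg.Agent.Helper3.frobenius_reciprocity (W₁ ⊔ W₂) ψ θ₀ hθ₀]
    unfold classInner
    rw [Finset.sum_eq_single w]
    · rw [hψ w, if_pos rfl, ← mul_assoc, inv_mul_cancel₀, one_mul]
      exact_mod_cast Nat.card_pos.ne'
    · intro x _ hx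
      rw [hψ x, if_neg hx, zero_mul]
    · intro h
      exact absurd (Finset.mem_univ w) h
  -- (c) splitting off the base points
  have hagree : ∀ ω : ↥(W₁ ⊔ W₂) →* ℂˣ, ∀ x : ↥(W₁ ⊔ W₂), (x : L) ∈ W₂ →
      ω x = extRight hdisj hcomm (resRight ω) x :=
    fun ω x hx => extRight_resRight_agree hdisj hcomm ω x hx
  have hzero1 := sum_conj_smul_resR_eq_zero hdisj hcomm hW₁comm
    (fun β : W₂ →* ℂˣ => (fun x : ↥(W₁ ⊔ W₂) => ((extRight hdisj hcomm β x : ℂˣ) : ℂ))) w hw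
  have hsplit : ψ = ∑ ω : ↥(W₁ ⊔ W₂) →* ℂˣ, (starRingEnd ℂ) ((ω w : ℂˣ) : ℂ) •
      (fun x => ((ω x : ℂˣ) : ℂ) - ((extRight hdisj hcomm (resRight ω) x : ℂˣ) : ℂ)) := by
    have h1 : ∀ ω : ↥(W₁ ⊔ W₂) →* ℂˣ, (starRingEnd ℂ) ((ω w : ℂˣ) : ℂ) •
        (fun x => ((ω x : ℂˣ) : ℂ) - ((extRight hdisj hcomm (resRight ω) x : ℂˣ) : ℂ))
        = (starRingEnd ℂ) ((ω w : ℂˣ) : ℂ) • (fun x => ((ω x : ℂˣ) : ℂ)) -
          (starRingEnd ℂ) ((ω w : ℂˣ) : ℂ) •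
            (fun x => ((extRight hdisj hcomm (resRight ω) x : ℂˣ) : ℂ)) := by
      intro ω
      rw [← smul_sub]
      rfl
    rw [Finset.sum_congr rfl (fun ω _ => h1 ω), Finset.sum_sub_distrib, ← hψdef]
    have h2 : ∑ ω : ↥(W₁ ⊔ W₂) →* ℂˣ, (starRingEnd ℂ) ((ω w : ℂˣ) : ℂ) •
        (fun x => ((extRight hdisj hcomm (resRight ω) x : ℂˣ) : ℂ)) = 0 := hzero1
    rw [h2, sub_zero]
  -- (d) induction
  have hzero2 := sum_conj_smul_resR_eq_zero hdisj hcomm hW₁comm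
    (fun β : W₂ →* ℂˣ => δ (extRight hdisj hcomm β) • μ (extRight hdisj hcomm β)) w hw
  have hind : indFun (W₁ ⊔ W₂) ψ = ∑ ω : ↥(W₁ ⊔ W₂) →* ℂˣ,
      ((starRingEnd ℂ) ((ω w : ℂˣ) : ℂ) * δ ω) • μ ω := by
    rw [hsplit, indFun_finset_sum]
    have h1 : ∀ ω : ↥(W₁ ⊔ W₂) →* ℂˣ, indFun (W₁ ⊔ W₂) ((starRingEnd ℂ) ((ω w : ℂˣ) : ℂ) •
        (fun x => ((ω x : ℂˣ) : ℂ) - ((extRight hdisj hcomm (resRight ω) x : ℂˣ) : ℂ)))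
        = ((starRingEnd ℂ) ((ω w : ℂˣ) : ℂ) * δ ω) • μ ω -
          (starRingEnd ℂ) ((ω w : ℂˣ) : ℂ) •
            (δ (extRight hdisj hcomm (resRight ω)) • μ (extRight hdisj hcomm (resRight ω))) := by
      intro ω
      obtain ⟨hδeq, hI⟩ := hC ω (extRight hdisj hcomm (resRight ω)) (hagree ω)
      rw [Cfsg.Agent.Helper3.indFun_smul, hI, ← hδeq, smul_sub, smul_sub, smul_smul]
    rw [Finset.sum_congr rfl (fun ω _ => h1 ω), Finset.sum_sub_distrib]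
    have h2 : ∑ ω : ↥(W₁ ⊔ W₂) →* ℂˣ, (starRingEnd ℂ) ((ω w : ℂˣ) : ℂ) •
        (δ (extRight hdisj hcomm (resRight ω)) • μ (extRight hdisj hcomm (resRight ω))) = 0 :=
      hzero2
    rw [h2, sub_zero]
  rw [← hb, hind, Cfsg.Agent.Helper3.classInner_sum_left]

end Chars5

end Cfsg.Agent.Helper25
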