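import Mathlib
import Cfsg.Agent.Helper25.PrimeAct5
import Cfsg.Agent.Helper3.Induced
import Cfsg.Agent.Helper79.Basic

/-!
# The functions `(1 - φ)(1 - ψ)` on a self-normalising cyclic subgroup (helper25)

For `W = W₁ × W₂`, `a` a linear character of `W₁` and `b` one of `W₂`:
`cycF a b` is the linear character `a × b` of `W`, `cycAlpha a b = (1 - a)(1 - b)`.
Inner products of the `cycAlpha` and of the functions they induce to `G`.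
-/

set_option autoImplicit false
set_option linter.style.haveILetI false
set_option linter.unusedVariables false
set_option linter.unusedSectionVars false
set_option linter.unusedSimpArgs false
set_option linter.unnecessarySeqFocus false
set_option maxHeartbeats 1000000

namespace Cfsg.Agent.Helper25

open Cfsg

section CycEx

variable {G : Type*} [Group G] {W₁ W₂ : Subgroup G}

/-- the linear character `extLeft a * extRight b` of `W₁ ⊔ W₂` as a complex function. -/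
noncomputable def cycF (hdisj : W₁ ⊓ W₂ = ⊥) (hcomm : ∀ a ∈ W₁, ∀ b ∈ W₂, a * b = b * a)
    (a : W₁ →* ℂˣ) (b : W₂ →* ℂˣ) : ↥(W₁ ⊔ W₂) → ℂ :=
  fun w => (((extLeft hdisj hcomm a * extRight hdisj hcomm b) w : ℂˣ) : ℂ)

/-- the function `(1 - φ_a)(1 - ψ_b)` on `W₁ ⊔ W₂`. -/
noncomputable def cycAlpha (hdisj : W₁ ⊓ W₂ = ⊥) (hcomm : ∀ a ∈ W₁, ∀ b ∈ W₂, a * b = b * a)
    (a : W₁ →* ℂˣ) (b : W₂ →* ℂˣ) : ↥(W₁ ⊔ W₂) → ℂ :=
  fun w => 1 - ((extLeft hdisj hcomm a w : ℂˣ) : ℂ) - ((extRight hdisj hcomm b w : ℂˣ) : ℂ) +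
    ((extLeft hdisj hcomm a w : ℂˣ) : ℂ) * ((extRight hdisj hcomm b w : ℂˣ) : ℂ)

theorem extLeft_one (hdisj : W₁ ⊓ W₂ = ⊥) (hcomm : ∀ a ∈ W₁, ∀ b ∈ W₂, a * b = b * a) :
    extLeft hdisj hcomm (1 : W₁ →* ℂˣ) = 1 := by
  ext w
  simp [extLeft]

theorem extRight_one (hdisj : W₁ ⊓ W₂ = ⊥) (hcomm : ∀ a ∈ W₁, ∀ b ∈ W₂, a * b = b * a) :
    extRight hdisj hcomm (1 : W₂ →* ℂˣ) = 1 := by
  ext w
  simp [extRight]

theorem cycF_one_one (hdisj : W₁ ⊓ W₂ = ⊥) (hcomm : ∀ a ∈ W₁, ∀ b ∈ W₂, a * b = b * a) :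
    cycF hdisj hcomm 1 1 = fun _ => 1 := by
  funext w
  simp [cycF, extLeft_one, extRight_one]

theorem cycAlpha_eq (hdisj : W₁ ⊓ W₂ = ⊥) (hcomm : ∀ a ∈ W₁, ∀ b ∈ W₂, a * b = b * a)
    (a : W₁ →* ℂˣ) (b : W₂ →* ℂˣ) :
    cycAlpha hdisj hcomm a b = (cycF hdisj hcomm 1 1 - cycF hdisj hcomm a 1) -
      (cycF hdisj hcomm 1 b - cycF hdisj hcomm a b) := by
  funext w
  simp only [cycAlpha, cycF, Pi.sub_apply, extLeft_one, extRight_one, MonoidHom.mul_apply,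
    MonoidHom.one_apply, Units.val_mul, Units.val_one, mul_one, one_mul]
  ring

theorem cycF_isIrr (hdisj : W₁ ⊓ W₂ = ⊥) (hcomm : ∀ a ∈ W₁, ∀ b ∈ W₂, a * b = b * a)
    (a : W₁ →* ℂˣ) (b : W₂ →* ℂˣ) : IsIrrCharacter ↥(W₁ ⊔ W₂) (cycF hdisj hcomm a b) :=
  Cfsg.Agent.Helper79.isIrrCharacter_of_hom _

theorem cycF_eq_iff (hdisj : W₁ ⊓ W₂ = ⊥) (hcomm : ∀ a ∈ W₁, ∀ b ∈ W₂, a * b = b * a)
    (a a' : W₁ →* ℂˣ) (b b' : W₂ →* ℂˣ) :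
    extLeft hdisj hcomm a * extRight hdisj hcomm b =
      extLeft hdisj hcomm a' * extRight hdisj hcomm b' ↔ a = a' ∧ b = b' := by
  constructor
  · intro h
    have h1 := (extLeft_mul_extRight_bijective hdisj hcomm).1 (a₁ := (a, b)) (a₂ := (a', b')) h
    exact ⟨congrArg Prod.fst h1, congrArg Prod.snd h1⟩
  · rintro ⟨rfl, rfl⟩; rfl

open Classical in
theorem cycF_inner [Fintype ↥(W₁ ⊔ W₂)] (hdisj : W₁ ⊓ W₂ = ⊥)
    (hcomm : ∀ a ∈ W₁, ∀ b ∈ W₂, a * b = b * a) (a a' : W₁ →* ℂˣ) (b b' : W₂ →* ℂˣ) :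
    classInner (cycF hdisj hcomm a b) (cycF hdisj hcomm a' b')
      = if a = a' ∧ b = b' then 1 else 0 := by
  unfold cycF
  rw [classInner_monoidHom]
  have hiff := cycF_eq_iff hdisj hcomm a a' b b'
  by_cases h : a = a' ∧ b = b'
  · rw [if_pos h, if_pos (hiff.mpr h)]
  · rw [if_neg h, if_neg (fun hh => h (hiff.mp hh))]

open Classical in
/-- the Gram matrix of the functions `(1 - φ)(1 - ψ)`. -/
theorem cycAlpha_inner [Fintype ↥(W₁ ⊔ W₂)] (hdisj : W₁ ⊓ W₂ = ⊥)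
    (hcomm : ∀ a ∈ W₁, ∀ b ∈ W₂, a * b = b * a) {a a' : W₁ →* ℂˣ} {b b' : W₂ →* ℂˣ}
    (ha : a ≠ 1) (ha' : a' ≠ 1) (hb : b ≠ 1) (hb' : b' ≠ 1) :
    classInner (cycAlpha hdisj hcomm a b) (cycAlpha hdisj hcomm a' b')
      = 1 + (if a = a' then 1 else 0) + (if b = b' then 1 else 0)
        + (if a = a' ∧ b = b' then 1 else 0) := by
  have ha2 : ¬ (1 : W₁ →* ℂˣ) = a := fun h => ha h.symm
  have ha2' : ¬ (1 : W₁ →* ℂˣ) = a' := fun h => ha' h.symm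
  have hb2 : ¬ (1 : W₂ →* ℂˣ) = b := fun h => hb h.symm
  have hb2' : ¬ (1 : W₂ →* ℂˣ) = b' := fun h => hb' h.symm
  rw [cycAlpha_eq, cycAlpha_eq, Cfsg.Agent.Helper3.classInner_sub_sub,
    Cfsg.Agent.Helper3.classInner_sub_sub, Cfsg.Agent.Helper3.classInner_sub_sub,
    Cfsg.Agent.Helper3.classInner_sub_sub, Cfsg.Agent.Helper3.classInner_sub_sub]
  simp only [cycF_inner]
  by_cases h : a = a' <;> by_cases h' : b = b' <;>
    simp [h, h', ha, ha', hb, hb', ha2, ha2', hb2, hb2'] <;> ring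

open Classical in
theorem cycAlpha_inner_one [Fintype ↥(W₁ ⊔ W₂)] (hdisj : W₁ ⊓ W₂ = ⊥)
    (hcomm : ∀ a ∈ W₁, ∀ b ∈ W₂, a * b = b * a) {a : W₁ →* ℂˣ} {b : W₂ →* ℂˣ}
    (ha : a ≠ 1) (hb : b ≠ 1) :
    classInner (cycAlpha hdisj hcomm a b) (fun _ => 1) = 1 := by
  rw [← cycF_one_one hdisj hcomm, cycAlpha_eq, Cfsg.Agent.Helper3.classInner_sub_left,
    Cfsg.Agent.Helper3.classInner_sub_left, Cfsg.Agent.Helper3.classInner_sub_left]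
  simp only [cycF_inner]
  simp [ha, hb]

theorem cycAlpha_vanish (hdisj : W₁ ⊓ W₂ = ⊥) (hcomm : ∀ a ∈ W₁, ∀ b ∈ W₂, a * b = b * a)
    (a : W₁ →* ℂˣ) (b : W₂ →* ℂˣ) (x : ↥(W₁ ⊔ W₂)) (hx : (x : G) ∈ W₁ ∨ (x : G) ∈ W₂) :
    cycAlpha hdisj hcomm a b x = 0 := by
  unfold cycAlpha
  rcases hx with h | h
  · rw [extRight_trivial hdisj hcomm b x h, Units.val_one]; ring
  · rw [extLeft_trivial hdisj hcomm a x h, Units.val_one]; ring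

theorem cycAlpha_one_left (hdisj : W₁ ⊓ W₂ = ⊥) (hcomm : ∀ a ∈ W₁, ∀ b ∈ W₂, a * b = b * a)
    (b : W₂ →* ℂˣ) : cycAlpha hdisj hcomm 1 b = 0 := by
  funext x
  simp [cycAlpha, extLeft_one]

theorem cycAlpha_one_right (hdisj : W₁ ⊓ W₂ = ⊥) (hcomm : ∀ a ∈ W₁, ∀ b ∈ W₂, a * b = b * a)
    (a : W₁ →* ℂˣ) : cycAlpha hdisj hcomm a 1 = 0 := by
  funext x
  simp [cycAlpha, extRight_one]

theorem isClassFunction_of_comm {H : Type*} [Group H] (hc : ∀ x y : H, x * y = y * x)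
    (f : H → ℂ) : IsClassFunction H f := by
  intro g h
  rw [hc h g, mul_inv_cancel_right]

theorem selfNormalizingCyclic_comm (hW : IsSelfNormalizingCyclic W₁ W₂) :
    ∀ x y : ↥(W₁ ⊔ W₂), x * y = y * x := by
  obtain ⟨-, -, -, -, hcyc, -⟩ := hW
  intro x y
  obtain ⟨c, hc⟩ := hcyc.exists_generator
  obtain ⟨i, hi⟩ := Subgroup.mem_zpowers_iff.mp (hc x)
  obtain ⟨j, hj⟩ := Subgroup.mem_zpowers_iff.mp (hc y)
  have := (Commute.refl c).zpow_zpow i j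
  rw [hi, hj] at this
  exact this

variable [Fintype G]

/-- TI-isometry for the functions `(1 - φ)(1 - ψ)`. -/
theorem cyc_ind_inner [Fintype ↥(W₁ ⊔ W₂)] (hW : IsSelfNormalizingCyclic W₁ W₂)
    (hdisj : W₁ ⊓ W₂ = ⊥) (hcomm : ∀ a ∈ W₁, ∀ b ∈ W₂, a * b = b * a)
    (a a' : W₁ →* ℂˣ) (b b' : W₂ →* ℂˣ) :
    classInner (indFun (W₁ ⊔ W₂) (cycAlpha hdisj hcomm a b))
        (indFun (W₁ ⊔ W₂) (cycAlpha hdisj hcomm a' b'))
      = classInner (cycAlpha hdisj hcomm a b) (cycAlpha hdisj hcomm a' b') := by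
  have hvan : ∀ (a : W₁ →* ℂˣ) (b : W₂ →* ℂˣ) (x : ↥(W₁ ⊔ W₂)),
      (x : G) ∉ (↑(W₁ ⊔ W₂) : Set G) \ (↑W₁ ∪ ↑W₂) → cycAlpha hdisj hcomm a b x = 0 := by
    intro a b x hx
    apply cycAlpha_vanish
    by_contra hcon
    push Not at hcon
    apply hx
    refine ⟨x.2, ?_⟩
    rintro (h | h)
    · exact hcon.1 h
    · exact hcon.2 h
  exact classInner_indFun_TI' (W₁ ⊔ W₂) ((↑(W₁ ⊔ W₂) : Set G) \ (↑W₁ ∪ ↑W₂))
    (fun g t ht hgt => selfNormalizingCyclic_TI hW ht hgt) _ _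
    (isClassFunction_of_comm (selfNormalizingCyclic_comm hW) _) (hvan a b) (hvan a' b')

theorem cyc_ind_one [Fintype ↥(W₁ ⊔ W₂)] (hdisj : W₁ ⊓ W₂ = ⊥)
    (hcomm : ∀ a ∈ W₁, ∀ b ∈ W₂, a * b = b * a) {a : W₁ →* ℂˣ} {b : W₂ →* ℂˣ}
    (ha : a ≠ 1) (hb : b ≠ 1) :
    classInner (indFun (W₁ ⊔ W₂) (cycAlpha hdisj hcomm a b)) (fun _ => 1) = 1 := by
  rw [Cfsg.Agent.Helper3.frobenius_reciprocity (W₁ ⊔ W₂) _ _ (fun g h => rfl)]
  exact cycAlpha_inner_one hdisj hcomm ha hb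

theorem cyc_ind_genChar (hdisj : W₁ ⊓ W₂ = ⊥)
    (hcomm : ∀ a ∈ W₁, ∀ b ∈ W₂, a * b = b * a) (a : W₁ →* ℂˣ) (b : W₂ →* ℂˣ) :
    IsGeneralizedCharacter G (indFun (W₁ ⊔ W₂) (cycAlpha hdisj hcomm a b)) := by
  have hF : ∀ (a : W₁ →* ℂˣ) (b : W₂ →* ℂˣ), IsCharacter ↥(W₁ ⊔ W₂) (cycF hdisj hcomm a b) :=
    fun a b => Cfsg.Agent.Helper79.irr_isCharacter ⟨_, cycF_isIrr hdisj hcomm a b⟩
  refine ⟨indFun (W₁ ⊔ W₂) (cycF hdisj hcomm 1 1 + cycF hdisj hcomm a b),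
    indFun (W₁ ⊔ W₂) (cycF hdisj hcomm a 1 + cycF hdisj hcomm 1 b),
    Cfsg.Agent.Helper3.isCharacter_indFun _ _
      (Cfsg.Agent.Helper79.isCharacter_add (hF 1 1) (hF a b)),
    Cfsg.Agent.Helper3.isCharacter_indFun _ _
      (Cfsg.Agent.Helper79.isCharacter_add (hF a 1) (hF 1 b)), ?_⟩
  rw [← Cfsg.Agent.Helper3.indFun_sub, cycAlpha_eq]
  congr 1
  abel

end CycEx

end Cfsg.Agent.Helper25
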