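import Mathlib
import Cfsg.Agent.Helper25.CycEx5

/-!
# Values of a cyclic TI family on `W ∖ (W₁ ∪ W₂)` (helper25)

`cyc_eq_on`: an orthonormal family `χ ω` of class functions of `G` with `χ 1 = 1` and
`Ind ((1 - φ)(1 - ψ)) = 1 - χ φ - χ ψ + χ (φ ψ)` satisfies `χ ω w = ω w` for
`w ∈ W ∖ (W₁ ∪ W₂)` (Peterfalvi (3.2)(a)).
-/

set_option autoImplicit false
set_option linter.style.haveILetI false
set_option linter.unusedVariables false
set_option linter.unusedSectionVars false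
set_option maxHeartbeats 1000000

namespace Cfsg.Agent.Helper25

open Cfsg

theorem sum_prod_smul_four {A B M : Type*} [Fintype A] [Fintype B] [AddCommGroup M] [Module ℂ M]
    (c : A → ℂ) (d : B → ℂ) (hc : ∑ a, c a = 0) (hd : ∑ b, d b = 0) (P : M) (Q : A → M)
    (R : B → M) (S : A → B → M) :
    ∑ p : A × B, (c p.1 * d p.2) • (P - Q p.1 - R p.2 + S p.1 p.2)
      = ∑ p : A × B, (c p.1 * d p.2) • S p.1 p.2 := by
  have h1 : ∑ p : A × B, (c p.1 * d p.2) • P = 0 := by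
    rw [← Finset.sum_smul, Fintype.sum_prod_type]
    have : ∑ x : A, ∑ y : B, c x * d y = 0 := by
      simp only [← Finset.mul_sum, hd, mul_zero, Finset.sum_const_zero]
    rw [this, zero_smul]
  have h2 : ∑ p : A × B, (c p.1 * d p.2) • Q p.1 = 0 := by
    rw [Fintype.sum_prod_type]
    apply Finset.sum_eq_zero
    intro a _
    show ∑ y : B, (c a * d y) • Q a = 0
    rw [← Finset.sum_smul, ← Finset.mul_sum, hd, mul_zero, zero_smul]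
  have h3 : ∑ p : A × B, (c p.1 * d p.2) • R p.2 = 0 := by
    rw [Fintype.sum_prod_type_right]
    apply Finset.sum_eq_zero
    intro b _
    show ∑ x : A, (c x * d b) • R b = 0
    rw [← Finset.sum_smul, ← Finset.sum_mul, hc, zero_mul, zero_smul]
  simp only [smul_add, smul_sub, Finset.sum_add_distrib, Finset.sum_sub_distrib]
  rw [h1, h2, h3, sub_zero, sub_zero, zero_add]

section CycEq

variable {G : Type*} [Group G] [Fintype G] {W₁ W₂ : Subgroup G}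

theorem cyc_eq_on (hdisj : W₁ ⊓ W₂ = ⊥) (hcomm : ∀ a ∈ W₁, ∀ b ∈ W₂, a * b = b * a)
    (hWcomm : ∀ x y : ↥(W₁ ⊔ W₂), x * y = y * x)
    (χ : (↥(W₁ ⊔ W₂) →* ℂˣ) → (G → ℂ))
    (hcf : ∀ ω, IsClassFunction G (χ ω))
    (horth1 : ∀ ω, classInner (χ ω) (χ ω) = 1)
    (horth0 : ∀ ω ω', ω ≠ ω' → classInner (χ ω) (χ ω') = 0)
    (hind : ∀ (a : W₁ →* ℂˣ) (b : W₂ →* ℂˣ),
      indFun (W₁ ⊔ W₂) (cycAlpha hdisj hcomm a b) =
        χ (extLeft hdisj hcomm 1 * extRight hdisj hcomm 1) -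
          χ (extLeft hdisj hcomm a * extRight hdisj hcomm 1) -
          χ (extLeft hdisj hcomm 1 * extRight hdisj hcomm b) +
          χ (extLeft hdisj hcomm a * extRight hdisj hcomm b))
    (ω₀ : ↥(W₁ ⊔ W₂) →* ℂˣ) (w : ↥(W₁ ⊔ W₂)) (hw₁ : (w : G) ∉ W₁) (hw₂ : (w : G) ∉ W₂) :
    χ ω₀ w = ((ω₀ w : ℂˣ) : ℂ) := by
  classical
  haveI : Fintype ↥(W₁ ⊔ W₂) := Fintype.ofFinite _
  haveI : Fintype W₁ := Fintype.ofFinite _
  haveI : Fintype W₂ := Fintype.ofFinite _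
  haveI : Finite (W₁ →* ℂˣ) := Cfsg.Agent.Helper80.finite_hom
  haveI : Finite (W₂ →* ℂˣ) := Cfsg.Agent.Helper80.finite_hom
  haveI : Finite (↥(W₁ ⊔ W₂) →* ℂˣ) := Cfsg.Agent.Helper80.finite_hom
  haveI : Fintype (W₁ →* ℂˣ) := Fintype.ofFinite _
  haveI : Fintype (W₂ →* ℂˣ) := Fintype.ofFinite _
  haveI : Fintype (↥(W₁ ⊔ W₂) →* ℂˣ) := Fintype.ofFinite _
  have hW₁comm : ∀ x y : W₁, x * y = y * x := by
    intro x y
    have h := hWcomm ⟨x, Subgroup.mem_sup_left x.2⟩ ⟨y, Subgroup.mem_sup_left y.2⟩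
    have h' : (x : G) * (y : G) = (y : G) * (x : G) :=
      congrArg (Subtype.val : ↥(W₁ ⊔ W₂) → G) h
    exact Subtype.ext h'
  have hW₂comm : ∀ x y : W₂, x * y = y * x := by
    intro x y
    have h := hWcomm ⟨x, Subgroup.mem_sup_right x.2⟩ ⟨y, Subgroup.mem_sup_right y.2⟩
    have h' : (x : G) * (y : G) = (y : G) * (x : G) :=
      congrArg (Subtype.val : ↥(W₁ ⊔ W₂) → G) h
    exact Subtype.ext h'
  obtain ⟨a₀, b₀, ha₀, hb₀, hab⟩ := exists_mul_of_mem_sup_of_commute hcomm w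
  have hw' : (w : G) = (a₀ : G) * (b₀ : G) := congrArg Subtype.val hab
  have ha1 : (⟨a₀, ha₀⟩ : W₁) ≠ 1 := by
    intro h
    have h1 : (a₀ : G) = 1 := congrArg Subtype.val h
    apply hw₂
    rw [hw', h1, one_mul]
    exact hb₀
  have hb1 : (⟨b₀, hb₀⟩ : W₂) ≠ 1 := by
    intro h
    have h1 : (b₀ : G) = 1 := congrArg Subtype.val h
    apply hw₁
    rw [hw', h1, mul_one]
    exact ha₀
  have hbij := extLeft_mul_extRight_bijective hdisj hcomm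
  -- the coefficients
  obtain ⟨c, hcdef⟩ : ∃ c : (W₁ →* ℂˣ) → ℂ,
      c = fun a => (starRingEnd ℂ) ((a ⟨a₀, ha₀⟩ : ℂˣ) : ℂ) := ⟨_, rfl⟩
  obtain ⟨d, hddef⟩ : ∃ d : (W₂ →* ℂˣ) → ℂ,
      d = fun b => (starRingEnd ℂ) ((b ⟨b₀, hb₀⟩ : ℂˣ) : ℂ) := ⟨_, rfl⟩
  have hc0 : ∑ a, c a = 0 := by
    rw [hcdef]
    show ∑ a : W₁ →* ℂˣ, (starRingEnd ℂ) ((a ⟨a₀, ha₀⟩ : ℂˣ) : ℂ) = 0
    rw [← map_sum, sum_hom_apply_of_commute hW₁comm, if_neg ha1, map_zero]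
  have hd0 : ∑ b, d b = 0 := by
    rw [hddef]
    show ∑ b : W₂ →* ℂˣ, (starRingEnd ℂ) ((b ⟨b₀, hb₀⟩ : ℂˣ) : ℂ) = 0
    rw [← map_sum, sum_hom_apply_of_commute hW₂comm, if_neg hb1, map_zero]
  have hκ : ∀ p : (W₁ →* ℂˣ) × (W₂ →* ℂˣ),
      (starRingEnd ℂ) (((extLeft hdisj hcomm p.1 * extRight hdisj hcomm p.2) w : ℂˣ) : ℂ)
        = c p.1 * d p.2 := by
    intro p
    rw [extLeft_mul_extRight_apply hdisj hcomm p.1 p.2 ⟨a₀, ha₀⟩ ⟨b₀, hb₀⟩ w hw', Units.val_mul,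
      map_mul, hcdef, hddef]
  -- the function `ψ = |W| 1_w`
  obtain ⟨ψ, hψdef⟩ : ∃ ψ : ↥(W₁ ⊔ W₂) → ℂ, ψ = ∑ ω : ↥(W₁ ⊔ W₂) →* ℂˣ,
      (starRingEnd ℂ) ((ω w : ℂˣ) : ℂ) • (fun x => ((ω x : ℂˣ) : ℂ)) := ⟨_, rfl⟩
  have hψ : ∀ x, ψ x = if x = w then (Nat.card ↥(W₁ ⊔ W₂) : ℂ) else 0 := by
    intro x
    rw [hψdef, Finset.sum_apply]
    have h1 : ∀ ω : ↥(W₁ ⊔ W₂) →* ℂˣ,
        ((starRingEnd ℂ) ((ω w : ℂˣ) : ℂ) • (fun x => ((ω x : ℂˣ) : ℂ))) x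
          = ((ω (w⁻¹ * x) : ℂˣ) : ℂ) := by
      intro ω
      rw [Pi.smul_apply, smul_eq_mul, Cfsg.Agent.Helper79.conj_hom_apply, map_mul, Units.val_mul]
    rw [Finset.sum_congr rfl (fun ω _ => h1 ω), sum_hom_apply_of_commute hWcomm]
    have h2 : w⁻¹ * x = 1 ↔ x = w := by
      rw [inv_mul_eq_one]
      exact eq_comm
    simp only [h2]
  -- `ψ` in terms of pairs
  have hψ2 : ψ = ∑ p : (W₁ →* ℂˣ) × (W₂ →* ℂˣ), (c p.1 * d p.2) • cycF hdisj hcomm p.1 p.2 := by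
    rw [hψdef]
    symm
    refine Fintype.sum_bijective
      (fun p : (W₁ →* ℂˣ) × (W₂ →* ℂˣ) => extLeft hdisj hcomm p.1 * extRight hdisj hcomm p.2)
      hbij _ _ ?_
    intro p
    rw [← hκ p]
    rfl
  have hψ3 : ψ = ∑ p : (W₁ →* ℂˣ) × (W₂ →* ℂˣ),
      (c p.1 * d p.2) • cycAlpha hdisj hcomm p.1 p.2 := by
    rw [hψ2]
    have h1 : ∀ p : (W₁ →* ℂˣ) × (W₂ →* ℂˣ), cycAlpha hdisj hcomm p.1 p.2 =
        cycF hdisj hcomm 1 1 - cycF hdisj hcomm p.1 1 - cycF hdisj hcomm 1 p.2 +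
          cycF hdisj hcomm p.1 p.2 := by
      intro p
      rw [cycAlpha_eq]
      abel
    have e : ∑ p : (W₁ →* ℂˣ) × (W₂ →* ℂˣ), (c p.1 * d p.2) • cycAlpha hdisj hcomm p.1 p.2
        = ∑ p : (W₁ →* ℂˣ) × (W₂ →* ℂˣ), (c p.1 * d p.2) •
          (cycF hdisj hcomm 1 1 - cycF hdisj hcomm p.1 1 - cycF hdisj hcomm 1 p.2 +
            cycF hdisj hcomm p.1 p.2) :=
      Finset.sum_congr rfl (fun p _ => by rw [h1 p])
    rw [e]
    exact (sum_prod_smul_four c d hc0 hd0 (cycF hdisj hcomm 1 1)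
      (fun a => cycF hdisj hcomm a 1) (fun b => cycF hdisj hcomm 1 b)
      (fun a b => cycF hdisj hcomm a b)).symm
  -- induction
  have hindψ : indFun (W₁ ⊔ W₂) ψ = ∑ ω : ↥(W₁ ⊔ W₂) →* ℂˣ,
      (starRingEnd ℂ) ((ω w : ℂˣ) : ℂ) • χ ω := by
    rw [hψ3, indFun_finset_sum]
    have h1 : ∀ p : (W₁ →* ℂˣ) × (W₂ →* ℂˣ),
        indFun (W₁ ⊔ W₂) ((c p.1 * d p.2) • cycAlpha hdisj hcomm p.1 p.2)
          = (c p.1 * d p.2) • (χ (extLeft hdisj hcomm 1 * extRight hdisj hcomm 1) -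
            χ (extLeft hdisj hcomm p.1 * extRight hdisj hcomm 1) -
            χ (extLeft hdisj hcomm 1 * extRight hdisj hcomm p.2) +
            χ (extLeft hdisj hcomm p.1 * extRight hdisj hcomm p.2)) := by
      intro p
      rw [Cfsg.Agent.Helper3.indFun_smul, hind]
    rw [Finset.sum_congr rfl (fun p _ => h1 p),
      sum_prod_smul_four c d hc0 hd0 (χ (extLeft hdisj hcomm 1 * extRight hdisj hcomm 1))
        (fun a => χ (extLeft hdisj hcomm a * extRight hdisj hcomm 1))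
        (fun b => χ (extLeft hdisj hcomm 1 * extRight hdisj hcomm b))
        (fun a b => χ (extLeft hdisj hcomm a * extRight hdisj hcomm b))]
    refine Fintype.sum_bijective
      (fun p : (W₁ →* ℂˣ) × (W₂ →* ℂˣ) => extLeft hdisj hcomm p.1 * extRight hdisj hcomm p.2)
      hbij _ _ ?_
    intro p
    rw [← hκ p]
  -- Frobenius reciprocity
  have hb : classInner (indFun (W₁ ⊔ W₂) ψ) (χ ω₀) = (starRingEnd ℂ) (χ ω₀ w) := by
    rw [Cfsg.Agent.Helper3.frobenius_reciprocity (W₁ ⊔ W₂) ψ (χ ω₀) (hcf ω₀)]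
    unfold classInner
    rw [Finset.sum_eq_single w]
    · rw [hψ w, if_pos rfl, ← mul_assoc, inv_mul_cancel₀, one_mul]
      exact_mod_cast Nat.card_pos.ne'
    · intro x _ hx
      rw [hψ x, if_neg hx, zero_mul]
    · intro h
      exact absurd (Finset.mem_univ w) h
  have hb2 : classInner (indFun (W₁ ⊔ W₂) ψ) (χ ω₀) = (starRingEnd ℂ) ((ω₀ w : ℂˣ) : ℂ) := by
    rw [hindψ, Cfsg.Agent.Helper3.classInner_sum_left, Finset.sum_eq_single ω₀]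
    · rw [horth1, mul_one]
    · intro ω _ hω
      rw [horth0 ω ω₀ hω, mul_zero]
    · intro h
      exact absurd (Finset.mem_univ ω₀) h
  rw [hb] at hb2
  exact (starRingEnd ℂ).injective hb2

end CycEq

end Cfsg.Agent.Helper25
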