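import Mathlib
import Cfsg.Agent.Helper25.CycEx6

/-!
# Cyclic TI families: the value condition is automatic; cardinalities (helper25)

* `isCyclicTIFamily_of`: the four conditions other than `eq_on` imply `IsCyclicTIFamily`.
* `selfNormalizingCyclic_card`: `|W₁|`, `|W₂|` are odd, at least `3`, and not both `3`.
* `card_hom_ne_one`: the number of nontrivial linear characters of a finite abelian group.
-/

set_option autoImplicit false
set_option linter.style.haveILetI false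
set_option linter.unusedVariables false
set_option linter.unusedSectionVars false
set_option maxHeartbeats 1000000

namespace Cfsg.Agent.Helper25

open Cfsg

section CycOf

variable {G : Type*} [Group G] [Fintype G] {W₁ W₂ : Subgroup G}

theorem cycω_one_one (hdisj : W₁ ⊓ W₂ = ⊥) (hcomm : ∀ a ∈ W₁, ∀ b ∈ W₂, a * b = b * a) :
    extLeft hdisj hcomm 1 * extRight hdisj hcomm 1 = 1 := by
  rw [extLeft_one, extRight_one]
  ext w
  simp

theorem cycω_left (hdisj : W₁ ⊓ W₂ = ⊥) (hcomm : ∀ a ∈ W₁, ∀ b ∈ W₂, a * b = b * a)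
    (a : W₁ →* ℂˣ) : extLeft hdisj hcomm a * extRight hdisj hcomm 1 = extLeft hdisj hcomm a := by
  rw [extRight_one]
  ext w
  simp

theorem cycω_right (hdisj : W₁ ⊓ W₂ = ⊥) (hcomm : ∀ a ∈ W₁, ∀ b ∈ W₂, a * b = b * a)
    (b : W₂ →* ℂˣ) : extLeft hdisj hcomm 1 * extRight hdisj hcomm b = extRight hdisj hcomm b := by
  rw [extLeft_one]
  ext w
  simp

theorem isCyclicTIFamily_of (hW : IsSelfNormalizingCyclic W₁ W₂)
    (χ : (↥(W₁ ⊔ W₂) →* ℂˣ) → (G → ℂ))
    (h1 : ∀ ω, IsIrrCharacter G (χ ω) ∨ IsIrrCharacter G (-χ ω))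
    (h2a : ∀ ω, classInner (χ ω) (χ ω) = 1)
    (h2b : ∀ ω ω', ω ≠ ω' → classInner (χ ω) (χ ω') = 0)
    (h3 : χ 1 = fun _ => 1)
    (h4 : ∀ φ ψ : ↥(W₁ ⊔ W₂) →* ℂˣ, φ ≠ 1 → ψ ≠ 1 →
      (∀ w : ↥(W₁ ⊔ W₂), (w : G) ∈ W₂ → φ w = 1) →
      (∀ w : ↥(W₁ ⊔ W₂), (w : G) ∈ W₁ → ψ w = 1) →
      indFun (W₁ ⊔ W₂) (fun w => 1 - (φ w : ℂ) - (ψ w : ℂ) + (φ w : ℂ) * (ψ w : ℂ)) =
        fun g => 1 - χ φ g - χ ψ g + χ (φ * ψ) g) : IsCyclicTIFamily W₁ W₂ χ := by
  obtain ⟨hW₁, hW₂, hdisj, hcomm, hcyc, hnorm⟩ := id hW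
  refine ⟨h1, ?_, h3, ?_, h4⟩
  · intro ω ω'
    by_cases h : ω = ω'
    · subst h
      rw [if_pos rfl]
      exact h2a ω
    · rw [if_neg h]
      exact h2b ω ω' h
  intro ω w hw₁ hw₂
  apply cyc_eq_on hdisj hcomm (selfNormalizingCyclic_comm hW) χ
  · intro ω
    rcases h1 ω with h | h
    · exact Cfsg.Agent.Helper79.isCharacter_isClassFunction
        (Cfsg.Agent.Helper79.irr_isCharacter ⟨_, h⟩)
    · have hc := Cfsg.Agent.Helper79.isCharacter_isClassFunction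
        (Cfsg.Agent.Helper79.irr_isCharacter ⟨_, h⟩)
      intro g x
      have h5 := hc g x
      simp only [Pi.neg_apply, neg_inj] at h5
      exact h5
  · exact h2a
  · exact h2b
  · intro a b
    by_cases ha : a = 1
    · subst ha
      rw [cycAlpha_one_left, Cfsg.Agent.Helper3.indFun_zero]
      abel
    by_cases hb : b = 1
    · subst hb
      rw [cycAlpha_one_right, Cfsg.Agent.Helper3.indFun_zero]
      abel
    have hφ : extLeft hdisj hcomm a ≠ 1 := by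
      intro h
      apply ha
      have h5 : extLeft hdisj hcomm a * extRight hdisj hcomm 1 =
          extLeft hdisj hcomm 1 * extRight hdisj hcomm 1 := by rw [h, extLeft_one]
      have h6 := congrArg resLeft h5
      rwa [resLeft_extLeft_mul_extRight, resLeft_extLeft_mul_extRight] at h6
    have hψ : extRight hdisj hcomm b ≠ 1 := by
      intro h
      apply hb
      have h5 : extLeft hdisj hcomm 1 * extRight hdisj hcomm b =
          extLeft hdisj hcomm 1 * extRight hdisj hcomm 1 := by rw [h, extRight_one]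
      have h6 := congrArg resRight h5
      rwa [resRight_extLeft_mul_extRight, resRight_extLeft_mul_extRight] at h6
    have key := h4 (extLeft hdisj hcomm a) (extRight hdisj hcomm b) hφ hψ
      (fun w hw => extLeft_trivial hdisj hcomm a w hw)
      (fun w hw => extRight_trivial hdisj hcomm b w hw)
    rw [cycω_one_one, cycω_left, cycω_right, h3]
    exact key
  · exact hw₁
  · exact hw₂

end CycOf

section Card

theorem card_hom_ne_one {H : Type*} [Group H] [Finite H] (hc : ∀ a b : H, a * b = b * a)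
    [Fintype {a : H →* ℂˣ // a ≠ 1}] :
    Fintype.card {a : H →* ℂˣ // a ≠ 1} = Nat.card H - 1 := by
  classical
  haveI : Finite (H →* ℂˣ) := Cfsg.Agent.Helper80.finite_hom
  letI : Fintype (H →* ℂˣ) := Fintype.ofFinite _
  rw [Fintype.card_subtype, Finset.filter_ne' Finset.univ (1 : H →* ℂˣ),
    Finset.card_erase_of_mem (Finset.mem_univ _), Finset.card_univ,
    ← Nat.card_eq_fintype_card, card_monoidHom_of_commute hc]

variable {G : Type*} [Group G] [Finite G] {W₁ W₂ : Subgroup G}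

theorem selfNormalizingCyclic_card (hW : IsSelfNormalizingCyclic W₁ W₂)
    (hodd : Odd (Nat.card ↥(W₁ ⊔ W₂))) :
    (Odd (Nat.card W₁) ∧ 3 ≤ Nat.card W₁) ∧ (Odd (Nat.card W₂) ∧ 3 ≤ Nat.card W₂) ∧
      (5 ≤ Nat.card W₁ ∨ 5 ≤ Nat.card W₂) := by
  obtain ⟨hW₁, hW₂, hdisj, hcomm, hcyc, hnorm⟩ := hW
  have ho₁ : Odd (Nat.card W₁) :=
    Odd.of_dvd_nat hodd (Subgroup.card_dvd_of_le (le_sup_left : W₁ ≤ W₁ ⊔ W₂))
  have ho₂ : Odd (Nat.card W₂) :=
    Odd.of_dvd_nat hodd (Subgroup.card_dvd_of_le (le_sup_right : W₂ ≤ W₁ ⊔ W₂))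
  have h1₁ : Nat.card W₁ ≠ 1 := fun h => hW₁ (Subgroup.card_eq_one.mp h)
  have h1₂ : Nat.card W₂ ≠ 1 := fun h => hW₂ (Subgroup.card_eq_one.mp h)
  have hp₁ : 0 < Nat.card W₁ := Nat.card_pos
  have hp₂ : 0 < Nat.card W₂ := Nat.card_pos
  obtain ⟨k₁, hk₁⟩ := ho₁
  obtain ⟨k₂, hk₂⟩ := ho₂
  have h3₁ : 3 ≤ Nat.card W₁ := by omega
  have h3₂ : 3 ≤ Nat.card W₂ := by omega
  refine ⟨⟨⟨k₁, hk₁⟩, h3₁⟩, ⟨⟨k₂, hk₂⟩, h3₂⟩, ?_⟩
  by_contra hcon
  push Not at hcon
  have e₁ : Nat.card W₁ = 3 := by omega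
  have e₂ : Nat.card W₂ = 3 := by omega
  apply hW₁
  rw [eq_bot_iff]
  intro x hx
  have hpow : x ^ Nat.card W₂ = 1 := by
    rw [e₂, ← e₁]
    have h5 : (⟨x, hx⟩ : W₁) ^ Nat.card W₁ = 1 := pow_card_eq_one'
    have h6 : (((⟨x, hx⟩ : W₁) ^ Nat.card W₁ : W₁) : G) = ((1 : W₁) : G) :=
      congrArg Subtype.val h5
    rw [Subgroup.coe_pow, Subgroup.coe_one] at h6
    exact h6
  have hx₂ : x ∈ W₂ := mem_of_pow_card_eq_one_of_isCyclic hcyc le_sup_right
    (Subgroup.mem_sup_left hx) hpow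
  have : x ∈ W₁ ⊓ W₂ := ⟨hx, hx₂⟩
  rw [hdisj] at this
  exact this

end Card

end Cfsg.Agent.Helper25
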