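import Mathlib
import Cfsg.Agent.Helper25.CycEx4
import Cfsg.Agent.Helper25.CycEx7
import Cfsg.Agent.Helper4.GenChar

/-!
# Existence of a cyclic TI family (helper25)

Peterfalvi (3.2) / (3.5): for a self-normalising cyclic subgroup `W = W₁ × W₂` of odd order
there is a cyclic TI family of irreducible characters up to sign.
-/

set_option autoImplicit false
set_option linter.style.haveILetI false
set_option linter.unusedVariables false
set_option linter.unusedSectionVars false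
set_option linter.unusedSimpArgs false
set_option linter.unnecessarySeqFocus false
set_option maxHeartbeats 2000000

namespace Cfsg.Agent.Helper25

open Cfsg

/-- nontrivial linear characters. -/
abbrev NtHom (H : Type*) [Group H] : Type _ := {a : H →* ℂˣ // a ≠ 1}

section CycMain

variable {G : Type*} [Group G] [Fintype G] {W₁ W₂ : Subgroup G}

theorem exists_cyclicTIFamily (hW : IsSelfNormalizingCyclic W₁ W₂)
    (hodd : Odd (Nat.card ↥(W₁ ⊔ W₂))) :
    ∃ χ : (↥(W₁ ⊔ W₂) →* ℂˣ) → (G → ℂ), IsCyclicTIFamily W₁ W₂ χ := by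
  classical
  obtain ⟨hW₁, hW₂, hdisj, hcomm, hcyc, hnorm⟩ := id hW
  have hWcomm := selfNormalizingCyclic_comm hW
  haveI : Fintype ↥(W₁ ⊔ W₂) := Fintype.ofFinite _
  haveI : Finite (W₁ →* ℂˣ) := Cfsg.Agent.Helper80.finite_hom
  haveI : Finite (W₂ →* ℂˣ) := Cfsg.Agent.Helper80.finite_hom
  letI : Fintype (IrrCharacter G) := Fintype.ofFinite _
  letI : Fintype (NtHom W₁) := Fintype.ofFinite _
  letI : Fintype (NtHom W₂) := Fintype.ofFinite _
  -- cardinalities
  obtain ⟨⟨ho₁, h3₁⟩, ⟨ho₂, h3₂⟩, h5⟩ := selfNormalizingCyclic_card hW hodd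
  have hW₁comm : ∀ x y : W₁, x * y = y * x := by
    intro x y
    have h := hWcomm ⟨x, Subgroup.mem_sup_left x.2⟩ ⟨y, Subgroup.mem_sup_left y.2⟩
    have h' : (x : G) * (y : G) = (y : G) * (x : G) :=
      congrArg (Subtype.val : ↥(W₁ ⊔ W₂) → G) h
    exact Subtype.ext h'
  have hW₂comm : ∀ x y : W₂, x * y = y * x := by
    intro x y
    have h := hWcomm ⟨x, Subgroup.mem_sup_right x.2⟩ ⟨y, Subgroup.mem_sup_right y.2⟩
    have h' : (x : G) * (y : G) = (y : G) * (x : G) :=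
      congrArg (Subtype.val : ↥(W₁ ⊔ W₂) → G) h
    exact Subtype.ext h'
  have hcI : Fintype.card (NtHom W₁) = Nat.card W₁ - 1 := card_hom_ne_one hW₁comm
  have hcJ : Fintype.card (NtHom W₂) = Nat.card W₂ - 1 := card_hom_ne_one hW₂comm
  obtain ⟨k₁, hk₁⟩ := ho₁
  obtain ⟨k₂, hk₂⟩ := ho₂
  have hI : Fintype.card (NtHom W₁) = 2 ∨ 4 ≤ Fintype.card (NtHom W₁) := by omega
  have hJ : Fintype.card (NtHom W₂) = 2 ∨ 4 ≤ Fintype.card (NtHom W₂) := by omega
  have hIJ : 4 ≤ Fintype.card (NtHom W₁) ∨ 4 ≤ Fintype.card (NtHom W₂) := by omega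
  obtain ⟨i₀⟩ : Nonempty (NtHom W₁) := by
    rw [← Fintype.card_pos_iff]; omega
  obtain ⟨j₀⟩ : Nonempty (NtHom W₂) := by
    rw [← Fintype.card_pos_iff]; omega
  -- the generalized characters `Ind α - 1` and their coefficients
  have hgen : ∀ (i : NtHom W₁) (j : NtHom W₂), IsGeneralizedCharacter G
      (indFun (W₁ ⊔ W₂) (cycAlpha hdisj hcomm i.1 j.1) - fun _ => 1) := by
    intro i j
    have h1 := cyc_ind_genChar (G := G) hdisj hcomm i.1 j.1
    have h2 : IsGeneralizedCharacter G (fun _ : G => (1 : ℂ)) :=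
      ⟨fun _ => 1, 0, Cfsg.Agent.Helper79.isCharacter_one, Cfsg.Agent.Helper79.isCharacter_zero,
        (sub_zero _).symm⟩
    rw [sub_eq_add_neg]
    exact Cfsg.Agent.Helper3.isGeneralizedCharacter_add h1
      (Cfsg.Agent.Helper3.isGeneralizedCharacter_neg h2)
  have hcoef : ∀ (i : NtHom W₁) (j : NtHom W₂), ∃ c : IrrCharacter G → ℤ,
      indFun (W₁ ⊔ W₂) (cycAlpha hdisj hcomm i.1 j.1) - (fun _ => 1)
        = ∑ ψ : IrrCharacter G, (c ψ : ℂ) • (ψ : G → ℂ) :=
    fun i j => Cfsg.Agent.Helper4.genChar_eq_sum (hgen i j)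
  choose c hc using hcoef
  have hone_inner : classInner (fun _ : G => (1 : ℂ)) (fun _ : G => (1 : ℂ)) = 1 :=
    Cfsg.Agent.Helper15.irr_inner_self Cfsg.Agent.Helper79.isIrrCharacter_one
  have hinner : ∀ (i k : NtHom W₁) (j l : NtHom W₂),
      classInner (indFun (W₁ ⊔ W₂) (cycAlpha hdisj hcomm i.1 j.1) - fun _ => 1)
        (indFun (W₁ ⊔ W₂) (cycAlpha hdisj hcomm k.1 l.1) - fun _ => 1)
        = (if i = k then 1 else 0) + (if j = l then 1 else 0)
          + (if i = k ∧ j = l then 1 else 0) := by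
    intro i k j l
    have h1 : classInner (fun _ : G => (1 : ℂ))
        (indFun (W₁ ⊔ W₂) (cycAlpha hdisj hcomm k.1 l.1)) = 1 := by
      rw [Cfsg.Agent.Helper3.classInner_conj, cyc_ind_one hdisj hcomm k.2 l.2, map_one]
    rw [Cfsg.Agent.Helper3.classInner_sub_sub, cyc_ind_inner hW hdisj hcomm,
      cycAlpha_inner hdisj hcomm i.2 k.2 j.2 l.2, cyc_ind_one hdisj hcomm i.2 j.2, h1, hone_inner]
    have e1 : (i.1 = k.1) ↔ (i = k) := Subtype.ext_iff.symm
    have e2 : (j.1 = l.1) ↔ (j = l) := Subtype.ext_iff.symm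
    by_cases hik : i = k <;> by_cases hjl : j = l <;> simp [e1, e2, hik, hjl]
  have hgrid : IsGrid c := by
    intro i j k l
    have h3 := Cfsg.Agent.Helper4.classInner_sum_irr (G := G) (fun ψ => (c i j ψ : ℂ))
      (fun ψ => (c k l ψ : ℂ))
    rw [← hc i j, ← hc k l, hinner i k j l] at h3
    have h5 : ((∑ ψ : IrrCharacter G, c i j ψ * c k l ψ : ℤ) : ℂ)
        = (((if i = k then 1 else 0) + (if j = l then 1 else 0)
          + (if i = k ∧ j = l then 1 else 0) : ℤ) : ℂ) := by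
      push_cast
      rw [h3]
      apply Finset.sum_congr rfl
      intro ψ _
      simp
    exact_mod_cast h5
  obtain ⟨x, y, z, ε, η, θ, hform, hε, hη, hθ, D1, hxinj, hyinj, Dzx, Dzy, Dzz⟩ :=
    hgrid.structure' hI hJ hIJ
  have hcx : ∀ i j, c i j (x i) = ε i := by
    intro i j
    rw [hform, if_pos rfl, if_neg (D1 i j), if_neg (Ne.symm (Dzx i j i)), add_zero, add_zero]
  have hcy : ∀ i j, c i j (y j) = η j := by
    intro i j
    rw [hform, if_neg (Ne.symm (D1 i j)), if_pos rfl, if_neg (Ne.symm (Dzy i j j)), zero_add,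
      add_zero]
  have hcz : ∀ i j, c i j (z i j) = θ i j := by
    intro i j
    rw [hform, if_neg (Dzx i j i), if_neg (Dzy i j j), if_pos rfl, zero_add, zero_add]
  have hdecomp : ∀ i j, indFun (W₁ ⊔ W₂) (cycAlpha hdisj hcomm i.1 j.1) - (fun _ => 1)
      = (ε i : ℂ) • (x i : G → ℂ) + (η j : ℂ) • (y j : G → ℂ) + (θ i j : ℂ) • (z i j : G → ℂ) := by
    intro i j
    rw [hc i j]
    have h1 : ∀ ψ : IrrCharacter G, ((c i j ψ : ℤ) : ℂ) • (ψ : G → ℂ)
        = (if ψ = x i then (ε i : ℂ) • (ψ : G → ℂ) else 0)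
          + (if ψ = y j then (η j : ℂ) • (ψ : G → ℂ) else 0)
          + (if ψ = z i j then (θ i j : ℂ) • (ψ : G → ℂ) else 0) := by
      intro ψ
      rw [hform i j ψ]
      push_cast
      rw [add_smul, add_smul, ite_smul, ite_smul, ite_smul, zero_smul]
    rw [Finset.sum_congr rfl (fun ψ _ => h1 ψ), Finset.sum_add_distrib, Finset.sum_add_distrib,
      Finset.sum_ite_eq', Finset.sum_ite_eq', Finset.sum_ite_eq', if_pos (Finset.mem_univ _),
      if_pos (Finset.mem_univ _), if_pos (Finset.mem_univ _)]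
  -- the principal character
  obtain ⟨one, hone⟩ : ∃ o : IrrCharacter G, (o : G → ℂ) = fun _ => 1 :=
    ⟨⟨_, Cfsg.Agent.Helper79.isIrrCharacter_one⟩, rfl⟩
  have hc1 : ∀ i j, c i j one = 0 := by
    intro i j
    have h1 : classInner (indFun (W₁ ⊔ W₂) (cycAlpha hdisj hcomm i.1 j.1) - fun _ => 1)
        (one : G → ℂ) = 0 := by
      rw [hone, Cfsg.Agent.Helper3.classInner_sub_left, cyc_ind_one hdisj hcomm i.2 j.2,
        hone_inner, sub_self]
    rw [hc i j, Cfsg.Agent.Helper3.classInner_sum_left, Finset.sum_eq_single one] at h1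
    · rw [Cfsg.Agent.Helper3.classInner_irr, if_pos rfl, mul_one] at h1
      exact_mod_cast h1
    · intro ψ _ hψ
      rw [Cfsg.Agent.Helper3.classInner_irr, if_neg hψ, mul_zero]
    · intro h
      exact absurd (Finset.mem_univ _) h
  have hx1 : ∀ i, x i ≠ one := by
    intro i h
    have h1 := hcx i j₀
    rw [h, hc1] at h1
    rcases hε i with h' | h' <;> omega
  have hy1 : ∀ j, y j ≠ one := by
    intro j h
    have h1 := hcy i₀ j
    rw [h, hc1] at h1
    rcases hη j with h' | h' <;> omega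
  have hz1 : ∀ i j, z i j ≠ one := by
    intro i j h
    have h1 := hcz i j
    rw [h, hc1] at h1
    rcases hθ i j with h' | h' <;> omega
  -- the family
  obtain ⟨ι, hι⟩ : ∃ ι : (↥(W₁ ⊔ W₂) →* ℂˣ) → IrrCharacter G, ∀ ω, ι ω =
      if ha : resLeft ω = 1 then (if hb : resRight ω = 1 then one else y ⟨resRight ω, hb⟩)
      else (if hb : resRight ω = 1 then x ⟨resLeft ω, ha⟩
        else z ⟨resLeft ω, ha⟩ ⟨resRight ω, hb⟩) := ⟨_, fun _ => rfl⟩
  obtain ⟨s, hs⟩ : ∃ s : (↥(W₁ ⊔ W₂) →* ℂˣ) → ℤ, ∀ ω, s ω =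
      if ha : resLeft ω = 1 then (if hb : resRight ω = 1 then 1 else -η ⟨resRight ω, hb⟩)
      else (if hb : resRight ω = 1 then -ε ⟨resLeft ω, ha⟩
        else θ ⟨resLeft ω, ha⟩ ⟨resRight ω, hb⟩) := ⟨_, fun _ => rfl⟩
  have hT : ∀ ω, (ι ω = one ∧ s ω = 1 ∧ resLeft ω = 1 ∧ resRight ω = 1) ∨
      (∃ j : NtHom W₂, ι ω = y j ∧ s ω = -η j ∧ resLeft ω = 1 ∧ resRight ω = j.1) ∨
      (∃ i : NtHom W₁, ι ω = x i ∧ s ω = -ε i ∧ resLeft ω = i.1 ∧ resRight ω = 1) ∨
      (∃ (i : NtHom W₁) (j : NtHom W₂), ι ω = z i j ∧ s ω = θ i j ∧ resLeft ω = i.1 ∧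
        resRight ω = j.1) := by
    intro ω
    by_cases ha : resLeft ω = 1
    · by_cases hb : resRight ω = 1
      · left
        exact ⟨by rw [hι, dif_pos ha, dif_pos hb], by rw [hs, dif_pos ha, dif_pos hb], ha, hb⟩
      · right; left
        exact ⟨⟨resRight ω, hb⟩, by rw [hι, dif_pos ha, dif_neg hb],
          by rw [hs, dif_pos ha, dif_neg hb], ha, rfl⟩
    · by_cases hb : resRight ω = 1
      · right; right; left
        exact ⟨⟨resLeft ω, ha⟩, by rw [hι, dif_neg ha, dif_pos hb],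
          by rw [hs, dif_neg ha, dif_pos hb], rfl, hb⟩
      · right; right; right
        exact ⟨⟨resLeft ω, ha⟩, ⟨resRight ω, hb⟩, by rw [hι, dif_neg ha, dif_neg hb],
          by rw [hs, dif_neg ha, dif_neg hb], rfl, rfl⟩
  have hres : ∀ ω ω' : ↥(W₁ ⊔ W₂) →* ℂˣ, resLeft ω = resLeft ω' → resRight ω = resRight ω' →
      ω = ω' := by
    intro ω ω' h1 h2
    rw [← extLeft_mul_extRight_res hdisj hcomm ω, ← extLeft_mul_extRight_res hdisj hcomm ω',
      h1, h2]
  have hιinj : ∀ ω ω', ι ω = ι ω' → ω = ω' := by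
    intro ω ω' h
    rcases hT ω with ⟨e, -, l, r⟩ | ⟨j, e, -, l, r⟩ | ⟨i, e, -, l, r⟩ | ⟨i, j, e, -, l, r⟩ <;>
      rcases hT ω' with ⟨e', -, l', r'⟩ | ⟨j', e', -, l', r'⟩ | ⟨i', e', -, l', r'⟩ |
        ⟨i', j', e', -, l', r'⟩ <;>
      rw [e, e'] at h
    · exact hres ω ω' (l.trans l'.symm) (r.trans r'.symm)
    · exact absurd h.symm (hy1 j')
    · exact absurd h.symm (hx1 i')
    · exact absurd h.symm (hz1 i' j')
    · exact absurd h (hy1 j)
    · have h1 := hyinj h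
      subst h1
      exact hres ω ω' (l.trans l'.symm) (r.trans r'.symm)
    · exact absurd h.symm (D1 i' j)
    · exact absurd h.symm (Dzy i' j' j)
    · exact absurd h (hx1 i)
    · exact absurd h (D1 i j')
    · have h1 := hxinj h
      subst h1
      exact hres ω ω' (l.trans l'.symm) (r.trans r'.symm)
    · exact absurd h.symm (Dzx i' j' i)
    · exact absurd h (hz1 i j)
    · exact absurd h (Dzy i j j')
    · exact absurd h (Dzx i j i')
    · obtain ⟨h1, h2⟩ := Dzz i j i' j' h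
      subst h1
      subst h2
      exact hres ω ω' (l.trans l'.symm) (r.trans r'.symm)
  have hspm : ∀ ω, s ω = 1 ∨ s ω = -1 := by
    intro ω
    rcases hT ω with ⟨-, e, -, -⟩ | ⟨j, -, e, -, -⟩ | ⟨i, -, e, -, -⟩ | ⟨i, j, -, e, -, -⟩
    · left; exact e
    · rcases hη j with h | h <;> omega
    · rcases hε i with h | h <;> omega
    · rcases hθ i j with h | h <;> omega
  have hl1 : resLeft (1 : ↥(W₁ ⊔ W₂) →* ℂˣ) = 1 := by
    ext w
    simp [resLeft]
  have hr1 : resRight (1 : ↥(W₁ ⊔ W₂) →* ℂˣ) = 1 := by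
    ext w
    simp [resRight]
  obtain ⟨χ, hχ⟩ : ∃ χ : (↥(W₁ ⊔ W₂) →* ℂˣ) → (G → ℂ),
      ∀ ω, χ ω = ((s ω : ℤ) : ℂ) • (ι ω : G → ℂ) := ⟨_, fun _ => rfl⟩
  refine ⟨χ, isCyclicTIFamily_of hW χ ?_ ?_ ?_ ?_ ?_⟩
  · intro ω
    rw [hχ]
    rcases hspm ω with h | h
    · left
      rw [h, Int.cast_one, one_smul]
      exact (ι ω).2
    · right
      rw [h]
      have h1 : -(((-1 : ℤ) : ℂ) • (ι ω : G → ℂ)) = (ι ω : G → ℂ) := by simp
      rw [h1]
      exact (ι ω).2
  · intro ω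
    rw [hχ, classInner_smul_smul, Cfsg.Agent.Helper3.classInner_irr, if_pos rfl]
    rcases hspm ω with h | h <;> simp [h]
  · intro ω ω' hne
    rw [hχ, hχ, classInner_smul_smul, Cfsg.Agent.Helper3.classInner_irr,
      if_neg (fun h => hne (hιinj _ _ h)), mul_zero]
  · rw [hχ]
    rcases hT 1 with ⟨e, es, -, -⟩ | ⟨j, -, -, -, r⟩ | ⟨i, -, -, l, -⟩ | ⟨i, j, -, -, l, -⟩
    · rw [e, es, hone, Int.cast_one, one_smul]
    · exact absurd (r.symm.trans hr1) j.2
    · exact absurd (l.symm.trans hl1) i.2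
    · exact absurd (l.symm.trans hl1) i.2
  · intro φ ψ hφ hψ hφ₂ hψ₁
    have rφ : resRight φ = 1 := by
      ext b
      exact congrArg Units.val (hφ₂ (Subgroup.inclusion le_sup_right b) b.2)
    have lψ : resLeft ψ = 1 := by
      ext a
      exact congrArg Units.val (hψ₁ (Subgroup.inclusion le_sup_left a) a.2)
    have hφa : resLeft φ ≠ 1 := fun h => hφ (hres φ 1 (h.trans hl1.symm) (rφ.trans hr1.symm))
    have hψb : resRight ψ ≠ 1 := fun h => hψ (hres ψ 1 (lψ.trans hl1.symm) (h.trans hr1.symm))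
    have eφ : extLeft hdisj hcomm (resLeft φ) = φ := by
      have h1 := extLeft_mul_extRight_res hdisj hcomm φ
      rw [rφ, cycω_left] at h1
      exact h1
    have eψ : extRight hdisj hcomm (resRight ψ) = ψ := by
      have h1 := extLeft_mul_extRight_res hdisj hcomm ψ
      rw [lψ, cycω_right] at h1
      exact h1
    have lφψ : resLeft (φ * ψ) = resLeft φ := by
      conv_lhs => rw [← eφ, ← eψ]
      exact resLeft_extLeft_mul_extRight hdisj hcomm _ _
    have rφψ : resRight (φ * ψ) = resRight ψ := by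
      conv_lhs => rw [← eφ, ← eψ]
      exact resRight_extLeft_mul_extRight hdisj hcomm _ _
    obtain ⟨i, hi⟩ : ∃ i : NtHom W₁, i.1 = resLeft φ := ⟨⟨resLeft φ, hφa⟩, rfl⟩
    obtain ⟨j, hj⟩ : ∃ j : NtHom W₂, j.1 = resRight ψ := ⟨⟨resRight ψ, hψb⟩, rfl⟩
    have Tφ : ι φ = x i ∧ s φ = -ε i := by
      rcases hT φ with ⟨-, -, l, -⟩ | ⟨j', -, -, l, -⟩ | ⟨i', e, es, l, -⟩ | ⟨i', j', -, -, -, r⟩
      · exact absurd l hφa
      · exact absurd l hφa
      · have h1 : i' = i := Subtype.ext (l.symm.trans hi.symm)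
        rw [h1] at e es
        exact ⟨e, es⟩
      · exact absurd (r.symm.trans rφ) j'.2
    have Tψ : ι ψ = y j ∧ s ψ = -η j := by
      rcases hT ψ with ⟨-, -, -, r⟩ | ⟨j', e, es, -, r⟩ | ⟨i', -, -, -, r⟩ | ⟨i', j', -, -, l, -⟩
      · exact absurd r hψb
      · have h1 : j' = j := Subtype.ext (r.symm.trans hj.symm)
        rw [h1] at e es
        exact ⟨e, es⟩
      · exact absurd r hψb
      · exact absurd (l.symm.trans lψ) i'.2
    have Tφψ : ι (φ * ψ) = z i j ∧ s (φ * ψ) = θ i j := by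
      rcases hT (φ * ψ) with ⟨-, -, l, -⟩ | ⟨j', -, -, l, -⟩ | ⟨i', -, -, -, r⟩ |
        ⟨i', j', e, es, l, r⟩
      · exact absurd (lφψ.symm.trans l) hφa
      · exact absurd (lφψ.symm.trans l) hφa
      · exact absurd (rφψ.symm.trans r) hψb
      · have h1 : i' = i := Subtype.ext (l.symm.trans (lφψ.trans hi.symm))
        have h2 : j' = j := Subtype.ext (r.symm.trans (rφψ.trans hj.symm))
        rw [h1, h2] at e es
        exact ⟨e, es⟩
    have hα : (fun w : ↥(W₁ ⊔ W₂) => 1 - ((φ w : ℂˣ) : ℂ) - ((ψ w : ℂˣ) : ℂ) +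
        ((φ w : ℂˣ) : ℂ) * ((ψ w : ℂˣ) : ℂ)) = cycAlpha hdisj hcomm i.1 j.1 := by
      unfold cycAlpha
      rw [hi, hj, eφ, eψ]
    rw [hα]
    have hd := hdecomp i j
    have hd' : indFun (W₁ ⊔ W₂) (cycAlpha hdisj hcomm i.1 j.1) = (fun _ => 1) +
        ((ε i : ℂ) • (x i : G → ℂ) + (η j : ℂ) • (y j : G → ℂ) + (θ i j : ℂ) • (z i j : G → ℂ)) := by
      rw [← hd]
      abel
    rw [hd']
    funext g
    rw [hχ, hχ, hχ, Tφ.1, Tφ.2, Tψ.1, Tψ.2, Tφψ.1, Tφψ.2]
    simp only [Pi.add_apply, Pi.smul_apply, smul_eq_mul]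
    push_cast
    ring

end CycMain

end Cfsg.Agent.Helper25
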