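import Mathlib
import Cfsg.Prelude.Def_Characters
import Cfsg.Prelude.Def_OddOrderChar
import Cfsg.Prelude.Def_OddOrderLocal
import Cfsg.Agent.Helper3.IndFun
import Cfsg.Agent.Helper75.InnerLin
import Cfsg.Agent.Helper75.Galois
import Cfsg.Agent.Helper25.CyclicTI3

/-!
# Power maps (Galois conjugation) and cyclic TI families (helper25)

* `classInner_pow`, `indFun_pow`: the twist `f ↦ (g ↦ f (g ^ k))`, `k` coprime to `|G|`, preserves
  inner products and commutes with induction.
* `signedIrr_inner`, `signedIrr_unique_index`: inner products of irreducible characters up to sign.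
* `exists_coprime_modEq`: a Chinese remainder lemma for units.
-/

set_option autoImplicit false
set_option linter.style.haveILetI false
set_option linter.unusedVariables false
set_option maxHeartbeats 1000000

namespace Cfsg.Agent.Helper25

open Cfsg

section PowTwist

variable {G : Type*} [Group G] [Fintype G]

theorem classInner_pow (k : ℕ) (hk : Nat.Coprime k (Nat.card G)) (α β : G → ℂ) :
    classInner (fun g => α (g ^ k)) (fun g => β (g ^ k)) = classInner α β := by
  unfold classInner
  congr 1
  exact Fintype.sum_equiv (powCoprime hk.symm) _ _ (fun g => rfl)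

omit [Fintype G] in
theorem mem_of_pow_mem_of_coprime [Finite G] (H : Subgroup G) (k : ℕ)
    (hk : Nat.Coprime k (Nat.card G)) {y : G} (h : y ^ k ∈ H) : y ∈ H := by
  have h1 := (powCoprime hk.symm).left_inv y
  have h2 : y = (y ^ k) ^ ((Nat.card G).gcdB k) := h1.symm
  rw [h2]
  exact H.zpow_mem h _

theorem indFun_pow (H : Subgroup G) (f : H → ℂ) (k : ℕ) (hk : Nat.Coprime k (Nat.card G))
    (g : G) : indFun H f (g ^ k) = indFun H (fun w => f (w ^ k)) g := by
  unfold indFun
  congr 1
  apply Finset.sum_congr rfl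
  intro x _
  have e : x⁻¹ * g ^ k * x = (x⁻¹ * g * x) ^ k := by
    have h1 := conj_pow (a := x⁻¹) (b := g) (i := k)
    rw [inv_inv] at h1
    exact h1.symm
  rw [e]
  by_cases hy : x⁻¹ * g * x ∈ H
  · rw [Cfsg.Agent.Helper3.extendByZero_of_mem H _ hy,
      Cfsg.Agent.Helper3.extendByZero_of_mem H _ (H.pow_mem hy k)]
    rfl
  · rw [Cfsg.Agent.Helper3.extendByZero_of_not_mem H _ hy,
      Cfsg.Agent.Helper3.extendByZero_of_not_mem H _
        (fun h => hy (mem_of_pow_mem_of_coprime H k hk h))]

/-- inner product of two irreducible characters up to sign. -/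
theorem signedIrr_inner {u v : G → ℂ} (hu : IsIrrCharacter G u ∨ IsIrrCharacter G (-u))
    (hv : IsIrrCharacter G v ∨ IsIrrCharacter G (-v)) (h : classInner u v ≠ 0) :
    (u = v ∧ classInner u v = 1) ∨ (u = -v ∧ classInner u v = -1) := by
  rcases hu with hu | hu <;> rcases hv with hv | hv
  · by_cases e : u = v
    · left
      exact ⟨e, by rw [e]; exact Cfsg.Agent.Helper75.classInner_irr_self hv⟩
    · exact absurd (Cfsg.Agent.Helper75.classInner_irr_of_ne hu hv e) h
  · have h1 : classInner u v = - classInner u (-v) := by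
      rw [Cfsg.Agent.Helper75.classInner_neg_right, neg_neg]
    by_cases e : u = -v
    · right
      refine ⟨e, ?_⟩
      rw [h1, ← e, Cfsg.Agent.Helper75.classInner_irr_self hu]
    · exfalso
      apply h
      rw [h1, Cfsg.Agent.Helper75.classInner_irr_of_ne hu hv e, neg_zero]
  · have h1 : classInner u v = - classInner (-u) v := by
      rw [Cfsg.Agent.Helper75.classInner_neg_left, neg_neg]
    by_cases e : -u = v
    · right
      refine ⟨by rw [← e, neg_neg], ?_⟩
      rw [h1, e, Cfsg.Agent.Helper75.classInner_irr_self hv]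
    · exfalso
      apply h
      rw [h1, Cfsg.Agent.Helper75.classInner_irr_of_ne hu hv e, neg_zero]
  · have h1 : classInner u v = classInner (-u) (-v) := by
      rw [Cfsg.Agent.Helper75.classInner_neg_left, Cfsg.Agent.Helper75.classInner_neg_right, neg_neg]
    by_cases e : -u = -v
    · left
      exact ⟨neg_injective e, by rw [h1, e, Cfsg.Agent.Helper75.classInner_irr_self hv]⟩
    · exfalso
      apply h
      rw [h1, Cfsg.Agent.Helper75.classInner_irr_of_ne hu hv e]

/-- an irreducible character up to sign meets at most one member of an orthogonal family of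
irreducible characters up to sign. -/
theorem signedIrr_unique_index {ι : Type*} {v : ι → G → ℂ}
    (hv : ∀ i, IsIrrCharacter G (v i) ∨ IsIrrCharacter G (-v i))
    (horth : ∀ i j, i ≠ j → classInner (v i) (v j) = 0) {u : G → ℂ}
    (hu : IsIrrCharacter G u ∨ IsIrrCharacter G (-u)) {i j : ι}
    (hi : classInner u (v i) ≠ 0) (hj : classInner u (v j) ≠ 0) : i = j := by
  by_contra hij
  have h0 := horth i j hij
  rcases signedIrr_inner hu (hv i) hi with ⟨e1, -⟩ | ⟨e1, -⟩
  · rw [← e1] at h0
    exact hj h0
  · have e : v i = -u := by rw [e1, neg_neg]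
    rw [e, Cfsg.Agent.Helper75.classInner_neg_left, neg_eq_zero] at h0
    exact hj h0

end PowTwist

/-- Chinese remainder for units: a unit `k` mod `N` can be changed to a unit `k'` mod `N`
congruent to `k` mod `a` and to `1` mod `b`, for coprime divisors `a, b` of `N`. -/
theorem exists_coprime_modEq (N a b k : ℕ) (hN : N ≠ 0) (ha : a ∣ N) (hb : b ∣ N)
    (hab : Nat.Coprime a b) (hk : Nat.Coprime k N) :
    ∃ k', Nat.Coprime k' N ∧ k' ≡ k [MOD a] ∧ k' ≡ 1 [MOD b] := by
  haveI : NeZero N := ⟨hN⟩
  obtain ⟨m, hm1, hm2⟩ := Nat.chineseRemainder hab k 1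
  have hma : Nat.Coprime m a := by
    have h1 := hm1.gcd_eq
    unfold Nat.Coprime
    rw [h1]
    exact Nat.Coprime.coprime_dvd_right ha hk
  have hmb : Nat.Coprime m b := by
    have h1 := hm2.gcd_eq
    unfold Nat.Coprime
    rw [h1]
    exact Nat.gcd_one_left b
  have hmab : Nat.Coprime m (a * b) := Nat.Coprime.mul_right hma hmb
  have hdvd : a * b ∣ N := Nat.Coprime.mul_dvd_of_dvd_of_dvd hab ha hb
  obtain ⟨u, hu⟩ := ZMod.unitsMap_surjective hdvd (ZMod.unitOfCoprime m hmab)
  have h1 : (((u : ZMod N).val : ℕ) : ZMod (a * b)) = (m : ZMod (a * b)) := by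
    have h2 := congrArg Units.val hu
    rw [ZMod.coe_unitOfCoprime] at h2
    rw [← h2]
    simp [ZMod.unitsMap]
  have h2 : (u : ZMod N).val ≡ m [MOD a * b] := (ZMod.natCast_eq_natCast_iff _ _ _).mp h1
  exact ⟨(u : ZMod N).val, ZMod.val_coe_unit_coprime u, (h2.of_mul_right b).trans hm1,
    (h2.of_mul_left a).trans hm2⟩

end Cfsg.Agent.Helper25
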