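import Mathlib
import Cfsg.Agent.Helper25.CyclicGal
import Cfsg.Agent.Helper25.CyclicTI

/-!
# Galois equivariance of cyclic TI families (helper25)

`cyclicTI_pow`: for a cyclic TI family `χ` and `k` coprime to `|G|`,
`χ ω (g ^ k) = χ (ω ^ k) g`.
-/

set_option autoImplicit false
set_option linter.style.haveILetI false
set_option linter.unusedVariables false
set_option maxHeartbeats 1000000

namespace Cfsg.Agent.Helper25

open Cfsg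

section Equivariance

variable {G : Type*} [Group G] [Fintype G]

theorem signedIrr_eq_of_two_rel {ι : Type*} {v : ι → G → ℂ}
    (hv : ∀ i, IsIrrCharacter G (v i) ∨ IsIrrCharacter G (-v i))
    (horth : ∀ i j, i ≠ j → classInner (v i) (v j) = 0) {u : G → ℂ}
    (hu : IsIrrCharacter G u ∨ IsIrrCharacter G (-u)) {a b₁ c₁ b₂ c₂ : ι}
    (hab : a ≠ b₁) (hac : a ≠ c₁) (h1 : b₁ ≠ b₂) (h2 : b₁ ≠ c₂) (h3 : c₁ ≠ b₂) (h4 : c₁ ≠ c₂)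
    (e1 : classInner u (v a) + classInner u (v b₁) - classInner u (v c₁) = 1)
    (e2 : classInner u (v a) + classInner u (v b₂) - classInner u (v c₂) = 1) : v a = u := by
  by_cases ha : classInner u (v a) = 0
  · exfalso
    rw [ha, zero_add] at e1 e2
    have hi : classInner u (v b₁) ≠ 0 ∨ classInner u (v c₁) ≠ 0 := by
      by_contra hcon
      push Not at hcon
      rw [hcon.1, hcon.2] at e1
      norm_num at e1
    have hj : classInner u (v b₂) ≠ 0 ∨ classInner u (v c₂) ≠ 0 := by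
      by_contra hcon
      push Not at hcon
      rw [hcon.1, hcon.2] at e2
      norm_num at e2
    rcases hi with hi | hi <;> rcases hj with hj | hj
    · exact h1 (signedIrr_unique_index hv horth hu hi hj)
    · exact h2 (signedIrr_unique_index hv horth hu hi hj)
    · exact h3 (signedIrr_unique_index hv horth hu hi hj)
    · exact h4 (signedIrr_unique_index hv horth hu hi hj)
  · have hb : classInner u (v b₁) = 0 := by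
      by_contra hcon
      exact hab (signedIrr_unique_index hv horth hu ha hcon)
    have hc : classInner u (v c₁) = 0 := by
      by_contra hcon
      exact hac (signedIrr_unique_index hv horth hu ha hcon)
    rw [hb, hc, add_zero, sub_zero] at e1
    rcases signedIrr_inner hu (hv a) ha with ⟨e, -⟩ | ⟨-, e⟩
    · exact e.symm
    · rw [e1] at e
      norm_num at e

variable {W₁ W₂ : Subgroup G}

/-- two distinct nontrivial linear characters of a group of odd order `≠ 1` whose elements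
commute. -/
theorem exists_two_nontrivial_hom {H : Type*} [Group H] [Finite H]
    (hc : ∀ a b : H, a * b = b * a) (hodd : Odd (Nat.card H)) (hne : Nat.card H ≠ 1) :
    ∃ β₁ β₂ : H →* ℂˣ, β₁ ≠ 1 ∧ β₂ ≠ 1 ∧ β₁ ≠ β₂ := by
  classical
  have hcard : Nat.card (H →* ℂˣ) = Nat.card H := card_monoidHom_of_commute hc
  have h3 : 2 < Nat.card H := by
    have hpos : 0 < Nat.card H := Nat.card_pos
    obtain ⟨m, hm⟩ := hodd
    omega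
  haveI : Finite (H →* ℂˣ) := Nat.finite_of_card_ne_zero (by omega)
  haveI : Fintype (H →* ℂˣ) := Fintype.ofFinite _
  obtain ⟨a, b, c, hab, hac, hbc⟩ := (Fintype.two_lt_card_iff (α := H →* ℂˣ)).mp
    (by rw [← Nat.card_eq_fintype_card]; omega)
  by_cases ha : a = 1
  · exact ⟨b, c, fun h => hab (ha.trans h.symm), fun h => hac (ha.trans h.symm), hbc⟩
  · by_cases hb : b = 1
    · exact ⟨a, c, ha, fun h => hbc (hb.trans h.symm), hac⟩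
    · exact ⟨a, b, ha, hb, hab⟩

theorem cyclicTI_pow (hW : IsSelfNormalizingCyclic W₁ W₂) (hodd : Odd (Nat.card ↥(W₁ ⊔ W₂)))
    {χ : (↥(W₁ ⊔ W₂) →* ℂˣ) → (G → ℂ)} (hχ : IsCyclicTIFamily W₁ W₂ χ)
    (k : ℕ) (hk : Nat.Coprime k (Nat.card G)) (ω : ↥(W₁ ⊔ W₂) →* ℂˣ) :
    (fun g => χ ω (g ^ k)) = χ (ω ^ k) := by
  classical
  obtain ⟨hW₁, hW₂, hdisj, hcomm, hcyc, hnorm⟩ := hW
  -- the twisted family
  let v : (↥(W₁ ⊔ W₂) →* ℂˣ) → (G → ℂ) := fun ω g => χ ω (g ^ k)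
  have hvSI : ∀ ω, IsIrrCharacter G (v ω) ∨ IsIrrCharacter G (-v ω) := by
    intro ω
    rcases hχ.irr_or_neg ω with h | h
    · left
      exact Cfsg.Agent.Helper75.isIrrCharacter_pow k hk h
    · right
      exact Cfsg.Agent.Helper75.isIrrCharacter_pow k hk h
  have hvorth : ∀ ω ω', ω ≠ ω' → classInner (v ω) (v ω') = 0 := by
    intro ω ω' hne
    show classInner (fun g => χ ω (g ^ k)) (fun g => χ ω' (g ^ k)) = 0
    rw [classInner_pow k hk, hχ.orthonormal ω ω', if_neg hne]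
  have hχorth : ∀ ω ω', ω ≠ ω' → classInner (χ ω) (χ ω') = 0 := by
    intro ω ω' hne
    rw [hχ.orthonormal ω ω', if_neg hne]
  -- powers of characters
  have hpow_ne : ∀ φ : ↥(W₁ ⊔ W₂) →* ℂˣ, φ ≠ 1 → φ ^ k ≠ 1 := by
    intro φ hφ h
    apply hφ
    have h1 : orderOf φ ∣ k := orderOf_dvd_of_pow_eq_one h
    have h2 : orderOf φ ∣ Nat.card G := by
      apply orderOf_dvd_of_pow_eq_one
      ext w
      rw [MonoidHom.pow_apply, ← map_pow]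
      have h3 : w ^ Nat.card G = 1 :=
        orderOf_dvd_iff_pow_eq_one.mp
          ((orderOf_dvd_natCard w).trans (Subgroup.card_subgroup_dvd_card (W₁ ⊔ W₂)))
      rw [h3, map_one, MonoidHom.one_apply]
    have h3 : orderOf φ = 1 := Nat.dvd_one.mp (hk ▸ Nat.dvd_gcd h1 h2)
    exact orderOf_eq_one_iff.mp h3
  have hpowW₂ : ∀ φ : ↥(W₁ ⊔ W₂) →* ℂˣ, (∀ w : ↥(W₁ ⊔ W₂), (w : G) ∈ W₂ → φ w = 1) →
      ∀ w : ↥(W₁ ⊔ W₂), (w : G) ∈ W₂ → (φ ^ k) w = 1 := by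
    intro φ h w hw
    rw [MonoidHom.pow_apply, h w hw, one_pow]
  have hpowW₁ : ∀ φ : ↥(W₁ ⊔ W₂) →* ℂˣ, (∀ w : ↥(W₁ ⊔ W₂), (w : G) ∈ W₁ → φ w = 1) →
      ∀ w : ↥(W₁ ⊔ W₂), (w : G) ∈ W₁ → (φ ^ k) w = 1 := by
    intro φ h w hw
    rw [MonoidHom.pow_apply, h w hw, one_pow]
  have hone : ∀ (S : Subgroup G) (w : ↥(W₁ ⊔ W₂)), (w : G) ∈ S →
      (1 : ↥(W₁ ⊔ W₂) →* ℂˣ) w = 1 := fun _ _ _ => rfl
  have hmul1 : ∀ φ : ↥(W₁ ⊔ W₂) →* ℂˣ, φ * 1 = φ := fun φ => by ext w; simp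
  have h1mul : ∀ φ : ↥(W₁ ⊔ W₂) →* ℂˣ, 1 * φ = φ := fun φ => by ext w; simp
  have honepow : (1 : ↥(W₁ ⊔ W₂) →* ℂˣ) ^ k = 1 := by ext w; simp
  have hmulpow : ∀ φ ψ : ↥(W₁ ⊔ W₂) →* ℂˣ, (φ * ψ) ^ k = φ ^ k * ψ ^ k := fun φ ψ => by
    ext w; simp [mul_pow]
  -- injectivity of (φ, ψ) ↦ φ * ψ
  have hinj : ∀ φ ψ φ' ψ' : ↥(W₁ ⊔ W₂) →* ℂˣ,
      (∀ w : ↥(W₁ ⊔ W₂), (w : G) ∈ W₂ → φ w = 1) →
      (∀ w : ↥(W₁ ⊔ W₂), (w : G) ∈ W₁ → ψ w = 1) →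
      (∀ w : ↥(W₁ ⊔ W₂), (w : G) ∈ W₂ → φ' w = 1) →
      (∀ w : ↥(W₁ ⊔ W₂), (w : G) ∈ W₁ → ψ' w = 1) →
      φ * ψ = φ' * ψ' → φ = φ' ∧ ψ = ψ' :=
    fun φ ψ φ' ψ' h1 h2 h3 h4 h => hom_eq_of_mul_eq hcomm h1 h2 h3 h4 h
  -- the key relation
  have hstar : ∀ φ ψ : ↥(W₁ ⊔ W₂) →* ℂˣ, φ ≠ 1 → ψ ≠ 1 →
      (∀ w : ↥(W₁ ⊔ W₂), (w : G) ∈ W₂ → φ w = 1) →
      (∀ w : ↥(W₁ ⊔ W₂), (w : G) ∈ W₁ → ψ w = 1) →
      v φ + v ψ - v (φ * ψ) = χ (φ ^ k) + χ (ψ ^ k) - χ (φ ^ k * ψ ^ k) := by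
    intro φ ψ hφ1 hψ1 hφ hψ
    funext g
    have h1 := congrFun (hχ.induced_eq φ ψ hφ1 hψ1 hφ hψ) (g ^ k)
    have h2 := congrFun (hχ.induced_eq (φ ^ k) (ψ ^ k) (hpow_ne φ hφ1) (hpow_ne ψ hψ1)
      (hpowW₂ φ hφ) (hpowW₁ ψ hψ)) g
    rw [indFun_pow _ _ k hk] at h1
    have e : (fun w : ↥(W₁ ⊔ W₂) => (1 - (φ (w ^ k) : ℂ) - (ψ (w ^ k) : ℂ) +
        (φ (w ^ k) : ℂ) * (ψ (w ^ k) : ℂ))) =
        fun w => 1 - ((φ ^ k) w : ℂ) - ((ψ ^ k) w : ℂ) + ((φ ^ k) w : ℂ) * ((ψ ^ k) w : ℂ) := by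
      funext w
      simp only [map_pow, MonoidHom.pow_apply]
    rw [e, h2] at h1
    simp only [Pi.add_apply, Pi.sub_apply]
    show χ φ (g ^ k) + χ ψ (g ^ k) - χ (φ * ψ) (g ^ k) = _
    linear_combination h1
  -- existence of two nontrivial characters on each side
  have hWcomm : ∀ a b : ↥(W₁ ⊔ W₂), a * b = b * a := by
    obtain ⟨g₀, hg₀⟩ := hcyc
    intro a b
    obtain ⟨n, rfl⟩ := Subgroup.mem_zpowers_iff.mp (hg₀ a)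
    obtain ⟨m, rfl⟩ := Subgroup.mem_zpowers_iff.mp (hg₀ b)
    exact zpow_mul_comm g₀ n m
  have hodd1 : Odd (Nat.card W₁) := Odd.of_dvd_nat hodd (Subgroup.card_dvd_of_le le_sup_left)
  have hodd2 : Odd (Nat.card W₂) := Odd.of_dvd_nat hodd (Subgroup.card_dvd_of_le le_sup_right)
  obtain ⟨α₁, α₂, hα₁, hα₂, hα₁₂⟩ := exists_two_nontrivial_hom (H := W₁)
    (fun a b => Subtype.ext (by
      have := congrArg Subtype.val (hWcomm ⟨a, Subgroup.mem_sup_left a.2⟩ ⟨b, Subgroup.mem_sup_left b.2⟩)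
      exact this)) hodd1 (fun h => hW₁ (Subgroup.eq_bot_of_card_eq W₁ h))
  obtain ⟨β₁, β₂, hβ₁, hβ₂, hβ₁₂⟩ := exists_two_nontrivial_hom (H := W₂)
    (fun a b => Subtype.ext (by
      have := congrArg Subtype.val (hWcomm ⟨a, Subgroup.mem_sup_right a.2⟩ ⟨b, Subgroup.mem_sup_right b.2⟩)
      exact this)) hodd2 (fun h => hW₂ (Subgroup.eq_bot_of_card_eq W₂ h))
  have hLinj : ∀ α α' : W₁ →* ℂˣ, extLeft hdisj hcomm α = extLeft hdisj hcomm α' → α = α' := by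
    intro α α' h
    ext a
    have h1 := DFunLike.congr_fun h ⟨a, Subgroup.mem_sup_left a.2⟩
    rw [extLeft_apply hdisj hcomm α a 1 _ (by simp),
      extLeft_apply hdisj hcomm α' a 1 _ (by simp)] at h1
    rw [h1]
  have hRinj : ∀ β β' : W₂ →* ℂˣ, extRight hdisj hcomm β = extRight hdisj hcomm β' → β = β' := by
    intro β β' h
    ext b
    have h1 := DFunLike.congr_fun h ⟨b, Subgroup.mem_sup_right b.2⟩
    rw [extRight_apply hdisj hcomm β 1 b _ (by simp),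
      extRight_apply hdisj hcomm β' 1 b _ (by simp)] at h1
    rw [h1]
  have hL1 : extLeft hdisj hcomm (1 : W₁ →* ℂˣ) = 1 := by
    ext w
    obtain ⟨a, b, ha, hb, hw⟩ := exists_mul_of_mem_sup_of_commute hcomm w
    rw [extLeft_apply hdisj hcomm 1 ⟨a, ha⟩ ⟨b, hb⟩ w (by rw [hw]; rfl)]
    rfl
  have hR1 : extRight hdisj hcomm (1 : W₂ →* ℂˣ) = 1 := by
    ext w
    obtain ⟨a, b, ha, hb, hw⟩ := exists_mul_of_mem_sup_of_commute hcomm w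
    rw [extRight_apply hdisj hcomm 1 ⟨a, ha⟩ ⟨b, hb⟩ w (by rw [hw]; rfl)]
    rfl
  set φ₁ := extLeft hdisj hcomm α₁ with hφ₁def
  set φ₂ := extLeft hdisj hcomm α₂ with hφ₂def
  set ψ₁ := extRight hdisj hcomm β₁ with hψ₁def
  set ψ₂ := extRight hdisj hcomm β₂ with hψ₂def
  have hφ₁1 : φ₁ ≠ 1 := fun h => hα₁ (hLinj _ _ (h.trans hL1.symm))
  have hφ₂1 : φ₂ ≠ 1 := fun h => hα₂ (hLinj _ _ (h.trans hL1.symm))
  have hφ₁₂ : φ₁ ≠ φ₂ := fun h => hα₁₂ (hLinj _ _ h)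
  have hψ₁1 : ψ₁ ≠ 1 := fun h => hβ₁ (hRinj _ _ (h.trans hR1.symm))
  have hψ₂1 : ψ₂ ≠ 1 := fun h => hβ₂ (hRinj _ _ (h.trans hR1.symm))
  have hψ₁₂ : ψ₁ ≠ ψ₂ := fun h => hβ₁₂ (hRinj _ _ h)
  have hφ₁t : ∀ w : ↥(W₁ ⊔ W₂), (w : G) ∈ W₂ → φ₁ w = 1 := extLeft_trivial hdisj hcomm α₁
  have hφ₂t : ∀ w : ↥(W₁ ⊔ W₂), (w : G) ∈ W₂ → φ₂ w = 1 := extLeft_trivial hdisj hcomm α₂
  have hψ₁t : ∀ w : ↥(W₁ ⊔ W₂), (w : G) ∈ W₁ → ψ₁ w = 1 := extRight_trivial hdisj hcomm β₁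
  have hψ₂t : ∀ w : ↥(W₁ ⊔ W₂), (w : G) ∈ W₁ → ψ₂ w = 1 := extRight_trivial hdisj hcomm β₂
  -- the relation E
  have hE : ∀ φ ψ : ↥(W₁ ⊔ W₂) →* ℂˣ, φ ≠ 1 → ψ ≠ 1 →
      (∀ w : ↥(W₁ ⊔ W₂), (w : G) ∈ W₂ → φ w = 1) →
      (∀ w : ↥(W₁ ⊔ W₂), (w : G) ∈ W₁ → ψ w = 1) →
      (classInner (χ (φ ^ k)) (v φ) + classInner (χ (φ ^ k)) (v ψ)
        - classInner (χ (φ ^ k)) (v (φ * ψ)) = 1) ∧
      (classInner (χ (ψ ^ k)) (v ψ) + classInner (χ (ψ ^ k)) (v φ)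
        - classInner (χ (ψ ^ k)) (v (φ * ψ)) = 1) := by
    intro φ ψ hφ1 hψ1 hφ hψ
    have hs := hstar φ ψ hφ1 hψ1 hφ hψ
    have hne1 : φ ^ k ≠ ψ ^ k := by
      intro h
      have h' : φ ^ k * 1 = 1 * ψ ^ k := by rw [hmul1, h1mul]; exact h
      exact hpow_ne φ hφ1 (hinj _ _ _ _ (hpowW₂ φ hφ) (hone W₁) (hone W₂) (hpowW₁ ψ hψ) h').1
    have hne2 : φ ^ k ≠ φ ^ k * ψ ^ k := by
      intro h
      have h' : φ ^ k * 1 = φ ^ k * ψ ^ k := by rw [hmul1]; exact h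
      exact hpow_ne ψ hψ1
        (hinj _ _ _ _ (hpowW₂ φ hφ) (hone W₁) (hpowW₂ φ hφ) (hpowW₁ ψ hψ) h').2.symm
    have hne3 : ψ ^ k ≠ φ ^ k * ψ ^ k := by
      intro h
      have h' : 1 * ψ ^ k = φ ^ k * ψ ^ k := by rw [h1mul]; exact h
      exact hpow_ne φ hφ1
        (hinj _ _ _ _ (hone W₂) (hpowW₁ ψ hψ) (hpowW₂ φ hφ) (hpowW₁ ψ hψ) h').1.symm
    constructor
    · have h1 : classInner (χ (φ ^ k)) (v φ + v ψ - v (φ * ψ)) = 1 := by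
        rw [hs, Cfsg.Agent.Helper75.classInner_sub_right, Cfsg.Agent.Helper75.classInner_add_right,
          hχ.orthonormal, if_pos rfl, hχorth _ _ hne1, hχorth _ _ hne2]
        ring
      rw [Cfsg.Agent.Helper75.classInner_sub_right, Cfsg.Agent.Helper75.classInner_add_right] at h1
      exact h1
    · have h1 : classInner (χ (ψ ^ k)) (v φ + v ψ - v (φ * ψ)) = 1 := by
        rw [hs, Cfsg.Agent.Helper75.classInner_sub_right, Cfsg.Agent.Helper75.classInner_add_right,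
          hχ.orthonormal (ψ ^ k) (ψ ^ k), if_pos rfl, hχorth _ _ (Ne.symm hne1), hχorth _ _ hne3]
        ring
      rw [Cfsg.Agent.Helper75.classInner_sub_right, Cfsg.Agent.Helper75.classInner_add_right] at h1
      linear_combination h1
  -- C1
  have hC1 : ∀ φ : ↥(W₁ ⊔ W₂) →* ℂˣ, φ ≠ 1 →
      (∀ w : ↥(W₁ ⊔ W₂), (w : G) ∈ W₂ → φ w = 1) → v φ = χ (φ ^ k) := by
    intro φ hφ1 hφ
    have e1 := (hE φ ψ₁ hφ1 hψ₁1 hφ hψ₁t).1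
    have e2 := (hE φ ψ₂ hφ1 hψ₂1 hφ hψ₂t).1
    refine signedIrr_eq_of_two_rel hvSI hvorth (hχ.irr_or_neg (φ ^ k))
      (a := φ) (b₁ := ψ₁) (c₁ := φ * ψ₁) (b₂ := ψ₂) (c₂ := φ * ψ₂) ?_ ?_ hψ₁₂ ?_ ?_ ?_ e1 e2
    · intro h
      have h' : φ * 1 = 1 * ψ₁ := by rw [hmul1, h1mul]; exact h
      exact hφ1 (hinj _ _ _ _ hφ (hone W₁) (hone W₂) hψ₁t h').1
    · intro h
      have h' : φ * 1 = φ * ψ₁ := by rw [hmul1]; exact h
      exact hψ₁1 (hinj _ _ _ _ hφ (hone W₁) hφ hψ₁t h').2.symm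
    · intro h
      have h' : 1 * ψ₁ = φ * ψ₂ := by rw [h1mul]; exact h
      exact hφ1 (hinj _ _ _ _ (hone W₂) hψ₁t hφ hψ₂t h').1.symm
    · intro h
      have h' : φ * ψ₁ = 1 * ψ₂ := by rw [h1mul]; exact h
      exact hφ1 (hinj _ _ _ _ hφ hψ₁t (hone W₂) hψ₂t h').1
    · intro h
      exact hψ₁₂ (hinj _ _ _ _ hφ hψ₁t hφ hψ₂t h).2
  -- C2
  have hC2 : ∀ ψ : ↥(W₁ ⊔ W₂) →* ℂˣ, ψ ≠ 1 →
      (∀ w : ↥(W₁ ⊔ W₂), (w : G) ∈ W₁ → ψ w = 1) → v ψ = χ (ψ ^ k) := by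
    intro ψ hψ1 hψ
    have e1 := (hE φ₁ ψ hφ₁1 hψ1 hφ₁t hψ).2
    have e2 := (hE φ₂ ψ hφ₂1 hψ1 hφ₂t hψ).2
    refine signedIrr_eq_of_two_rel hvSI hvorth (hχ.irr_or_neg (ψ ^ k))
      (a := ψ) (b₁ := φ₁) (c₁ := φ₁ * ψ) (b₂ := φ₂) (c₂ := φ₂ * ψ) ?_ ?_ hφ₁₂ ?_ ?_ ?_ e1 e2
    · intro h
      have h' : 1 * ψ = φ₁ * 1 := by rw [hmul1, h1mul]; exact h
      exact hψ1 (hinj _ _ _ _ (hone W₂) hψ hφ₁t (hone W₁) h').2
    · intro h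
      have h' : 1 * ψ = φ₁ * ψ := by rw [h1mul]; exact h
      exact hφ₁1 (hinj _ _ _ _ (hone W₂) hψ hφ₁t hψ h').1.symm
    · intro h
      have h' : φ₁ * 1 = φ₂ * ψ := by rw [hmul1]; exact h
      exact hψ1 (hinj _ _ _ _ hφ₁t (hone W₁) hφ₂t hψ h').2.symm
    · intro h
      have h' : φ₁ * ψ = φ₂ * 1 := by rw [hmul1]; exact h
      exact hψ1 (hinj _ _ _ _ hφ₁t hψ hφ₂t (hone W₁) h').2
    · intro h
      exact hφ₁₂ (hinj _ _ _ _ hφ₁t hψ hφ₂t hψ h).1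
  -- general ω
  obtain ⟨⟨α, β⟩, hαβ⟩ := (extLeft_mul_extRight_bijective hdisj hcomm).2 ω
  simp only at hαβ
  set φ := extLeft hdisj hcomm α with hφdef
  set ψ := extRight hdisj hcomm β with hψdef
  have hφt : ∀ w : ↥(W₁ ⊔ W₂), (w : G) ∈ W₂ → φ w = 1 := extLeft_trivial hdisj hcomm α
  have hψt : ∀ w : ↥(W₁ ⊔ W₂), (w : G) ∈ W₁ → ψ w = 1 := extRight_trivial hdisj hcomm β
  show v ω = χ (ω ^ k)
  rw [← hαβ]
  by_cases hφ1 : φ = 1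
  · by_cases hψ1 : ψ = 1
    · rw [hφ1, hψ1, hmul1, honepow]
      show (fun g => χ 1 (g ^ k)) = χ 1
      rw [hχ.map_one]
    · rw [hφ1, h1mul]
      exact hC2 ψ hψ1 hψt
  · by_cases hψ1 : ψ = 1
    · rw [hψ1, hmul1]
      exact hC1 φ hφ1 hφt
    · have hs := hstar φ ψ hφ1 hψ1 hφt hψt
      rw [hC1 φ hφ1 hφt, hC2 ψ hψ1 hψt] at hs
      rw [hmulpow]
      have h5 : v (φ * ψ) = χ (φ ^ k) + χ (ψ ^ k) - (χ (φ ^ k) + χ (ψ ^ k) - v (φ * ψ)) := by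
        abel
      rw [h5, hs]
      abel

end Equivariance

end Cfsg.Agent.Helper25
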