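import Mathlib
import Cfsg.Prelude.Def_OddOrderChar
import Cfsg.Prelude.Def_OddOrderLocal
import Cfsg.Agent.Helper25.CyclicTI
import Cfsg.Agent.Helper3.IndFun
import Cfsg.Agent.Helper75.InnerLin

set_option autoImplicit false
set_option linter.style.haveILetI false
set_option linter.unusedVariables false
set_option maxHeartbeats 1000000

namespace Cfsg.Agent.Helper25

open Cfsg

section CyclicTI2

variable {G : Type*} [Group G] [Fintype G] {W₁ W₂ : Subgroup G}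

/-- For a cyclic TI family `χ` and a class function `θ` vanishing on `W \ (W₁ ∪ W₂)`, the
inner products `a(ω) = ⟨θ, χ ω⟩` satisfy `a(φψ) = a(φ) + a(ψ) - a(1)`. -/
theorem cyclicTI_rel {χ : (↥(W₁ ⊔ W₂) →* ℂˣ) → (G → ℂ)} (hχ : IsCyclicTIFamily W₁ W₂ χ)
    {θ : G → ℂ} (hθ : IsClassFunction G θ)
    (hθV : ∀ w : ↥(W₁ ⊔ W₂), (w : G) ∉ W₁ → (w : G) ∉ W₂ → θ w = 0)
    (φ ψ : ↥(W₁ ⊔ W₂) →* ℂˣ) (hφ : ∀ w : ↥(W₁ ⊔ W₂), (w : G) ∈ W₂ → φ w = 1)
    (hψ : ∀ w : ↥(W₁ ⊔ W₂), (w : G) ∈ W₁ → ψ w = 1) :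
    classInner θ (χ (φ * ψ))
      = classInner θ (χ φ) + classInner θ (χ ψ) - classInner θ (χ 1) := by
  classical
  by_cases h1 : φ = 1
  · subst h1
    have e : (1 : ↥(W₁ ⊔ W₂) →* ℂˣ) * ψ = ψ := by ext w; simp
    rw [e]; ring
  by_cases h2 : ψ = 1
  · subst h2
    have e : φ * (1 : ↥(W₁ ⊔ W₂) →* ℂˣ) = φ := by ext w; simp
    rw [e]; ring
  have hind := hχ.induced_eq φ ψ h1 h2 hφ hψ
  haveI : Fintype ↥(W₁ ⊔ W₂) := Fintype.ofFinite _
  set f : ↥(W₁ ⊔ W₂) → ℂ :=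
    fun w => 1 - (φ w : ℂ) - (ψ w : ℂ) + (φ w : ℂ) * (ψ w : ℂ) with hf
  have hfr := Cfsg.Agent.Helper3.frobenius_reciprocity (W₁ ⊔ W₂) f θ hθ
  have hzero : classInner f (fun h : ↥(W₁ ⊔ W₂) => θ h) = 0 := by
    unfold classInner
    rw [Finset.sum_eq_zero, mul_zero]
    intro w _
    by_cases hw1 : (w : G) ∈ W₁
    · have : f w = 0 := by simp only [hf]; rw [hψ w hw1]; simp
      rw [this, zero_mul]
    · by_cases hw2 : (w : G) ∈ W₂
      · have : f w = 0 := by simp only [hf]; rw [hφ w hw2]; simp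
        rw [this, zero_mul]
      · show f w * (starRingEnd ℂ) (θ (w : G)) = 0
        rw [hθV w hw1 hw2, map_zero, mul_zero]
  rw [hzero] at hfr
  have h3 : classInner θ (indFun (W₁ ⊔ W₂) f) = 0 := by
    rw [Cfsg.Agent.Helper75.classInner_conj_symm (indFun (W₁ ⊔ W₂) f) θ, hfr, map_zero]
  rw [hind] at h3
  have h4 : (fun g => 1 - χ φ g - χ ψ g + χ (φ * ψ) g) = χ 1 - χ φ - χ ψ + χ (φ * ψ) := by
    ext g; simp [hχ.map_one]
  rw [h4, Cfsg.Agent.Helper75.classInner_add_right, Cfsg.Agent.Helper75.classInner_sub_right,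
    Cfsg.Agent.Helper75.classInner_sub_right] at h3
  linear_combination h3

end CyclicTI2

end Cfsg.Agent.Helper25
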