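import Mathlib
import Cfsg.Prelude.Def_OddOrderChar
import Cfsg.Agent.Helper25.Dade

set_option autoImplicit false
set_option linter.style.haveILetI false
set_option linter.unusedVariables false
set_option maxHeartbeats 1000000

namespace Cfsg.Agent.Helper25

open Cfsg
open scoped Classical

/-- a finsum over a set in a fintype as a filtered finset sum. -/
theorem finsum_mem_eq_sum_univ_filter {α M : Type*} [Fintype α] [AddCommMonoid M] (s : Set α)
    (f : α → M) : ∑ᶠ i ∈ s, f i = ∑ i ∈ Finset.univ.filter (fun i => i ∈ s), f i := by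
  have h : (↑(Finset.univ.filter (fun i => i ∈ s)) : Set α) = s := by ext; simp
  rw [← finsum_mem_coe_finset, h]

theorem card_filter_mem_subgroup {G : Type*} [Group G] [Fintype G] (H : Subgroup G) :
    (Finset.univ.filter (fun u : G => u ∈ H)).card = Nat.card H := by
  rw [Nat.card_eq_fintype_card, ← Fintype.card_subtype]

section Count

variable {G : Type*} [Group G] [Fintype G]

/-- General counting lemma: for a class function `F` and a finite set `X`,
`∑_g #{z | z g z⁻¹ ∈ X} F(g) = |G| ∑_{x ∈ X} F(x)`. -/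
theorem sum_card_conj_mem_mul {K : Type*} [Field K] (X : Finset G) (F : G → K)
    (hF : ∀ g h : G, F (h * g * h⁻¹) = F g) :
    ∑ g : G, ((Finset.univ.filter (fun z : G => z * g * z⁻¹ ∈ X)).card : K) * F g
      = (Fintype.card G : K) * ∑ x ∈ X, F x := by
  have h1 : ∀ g : G, ((Finset.univ.filter (fun z : G => z * g * z⁻¹ ∈ X)).card : K) * F g
      = ∑ z : G, if z * g * z⁻¹ ∈ X then F (z * g * z⁻¹) else 0 := by
    intro g
    rw [Finset.card_filter, Nat.cast_sum, Finset.sum_mul]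
    refine Finset.sum_congr rfl fun z _ => ?_
    split_ifs <;> simp [hF]
  simp_rw [h1]
  rw [Finset.sum_comm]
  have h2 : ∀ z : G, ∑ g : G, (if z * g * z⁻¹ ∈ X then F (z * g * z⁻¹) else 0)
      = ∑ x ∈ X, F x := by
    intro z
    have := Equiv.sum_comp (MulAut.conj z).toEquiv (fun x => if x ∈ X then F x else 0)
    rw [Finset.sum_ite_mem, Finset.univ_inter] at this
    exact this
  simp_rw [h2]
  rw [Finset.sum_const, Finset.card_univ, nsmul_eq_mul]

/-- the number of conjugators of `g` into `X` is a class function of `g`. -/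
theorem card_conj_mem_invariant (X : Set G) (g y : G) :
    (Finset.univ.filter (fun z : G => z * (y * g * y⁻¹) * z⁻¹ ∈ X)).card
      = (Finset.univ.filter (fun z : G => z * g * z⁻¹ ∈ X)).card := by
  refine Finset.card_nbij' (fun z => z * y) (fun z => z * y⁻¹) ?_ ?_ ?_ ?_
  · intro z hz
    simp only [Finset.coe_filter, Finset.mem_univ, true_and, Set.mem_ofPred_eq] at hz ⊢
    have e : z * y * g * (z * y)⁻¹ = z * (y * g * y⁻¹) * z⁻¹ := by group
    rw [e]; exact hz
  · intro z hz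
    simp only [Finset.coe_filter, Finset.mem_univ, true_and, Set.mem_ofPred_eq] at hz ⊢
    have e : z * y⁻¹ * (y * g * y⁻¹) * (z * y⁻¹)⁻¹ = z * g * z⁻¹ := by group
    rw [e]; exact hz
  · intro z _; simp
  · intro z _; simp

variable {A : Set G} {L : Subgroup G} {H : G → Subgroup G}

/-- the set of products `a * u`, `a ∈ A`, `u ∈ H a`. -/
def dadeProd (A : Set G) (H : G → Subgroup G) : Set G := {g | ∃ a ∈ A, ∃ u ∈ H a, g = a * u}

/-- the conjugators of `a * u` into the set of products form `L * H a`, of size `|L| |H a|`. -/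
theorem dade_card_conj_mem (hD : DadeHypothesis A L H) {a u : G} (ha : a ∈ A) (hu : u ∈ H a) :
    (Finset.univ.filter (fun z : G => z * (a * u) * z⁻¹ ∈ dadeProd A H)).card
      = Nat.card L * Nat.card (H a) := by
  rw [← Nat.card_prod, ← Fintype.card_subtype, ← Nat.card_eq_fintype_card]
  symm
  have hmaps : ∀ p : L × H a, (p.1 : G) * (p.2 : G) * (a * u) * ((p.1 : G) * (p.2 : G))⁻¹
      ∈ dadeProd A H := by
    rintro ⟨⟨l, hl⟩, ⟨h, hh⟩⟩
    show l * h * (a * u) * (l * h)⁻¹ ∈ dadeProd A H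
    have hah := dade_commute hD ha hh
    refine ⟨l * a * l⁻¹, hD.conj_mem l hl a ha, l * (h * u * h⁻¹) * l⁻¹,
      dade_conj_mem_H hD ha hl ((H a).mul_mem ((H a).mul_mem hh hu) ((H a).inv_mem hh)), ?_⟩
    have : a * h = h * a := hah
    calc l * h * (a * u) * (l * h)⁻¹ = l * (h * a) * u * h⁻¹ * l⁻¹ := by group
      _ = l * (a * h) * u * h⁻¹ * l⁻¹ := by rw [this]
      _ = l * a * l⁻¹ * (l * (h * u * h⁻¹) * l⁻¹) := by group
  refine Nat.card_congr (Equiv.ofBijective
    (fun p : L × H a => (⟨(p.1 : G) * (p.2 : G), hmaps p⟩ :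
      {z : G // z * (a * u) * z⁻¹ ∈ dadeProd A H})) ⟨?_, ?_⟩)
  · -- injective
    rintro ⟨⟨l, hl⟩, ⟨h, hh⟩⟩ ⟨⟨l', hl'⟩, ⟨h', hh'⟩⟩ e
    have e' : l * h = l' * h' := congrArg Subtype.val e
    have hmem : l'⁻¹ * l ∈ H a ⊓ (L ⊓ Subgroup.centralizer ({a} : Set G)) := by
      have e2 : l'⁻¹ * l = h' * h⁻¹ := by
        calc l'⁻¹ * l = l'⁻¹ * (l * h) * h⁻¹ := by group
          _ = l'⁻¹ * (l' * h') * h⁻¹ := by rw [e']
          _ = h' * h⁻¹ := by group
      have h3 : l'⁻¹ * l ∈ H a := e2 ▸ (H a).mul_mem hh' ((H a).inv_mem hh)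
      exact ⟨h3, L.mul_mem (L.inv_mem hl') hl, hD.le_centralizer a ha h3⟩
    rw [hD.inf_eq_bot a ha, Subgroup.mem_bot] at hmem
    have hll : l = l' := by
      calc l = l' * (l'⁻¹ * l) := by group
        _ = l' := by rw [hmem, mul_one]
    subst hll
    have hhh : h = h' := mul_left_cancel e'
    subst hhh
    rfl
  · -- surjective
    rintro ⟨z, hz⟩
    obtain ⟨b, hb, v, hv, e⟩ := hz
    have hzb := (dade_conj_eq hD ha hb hu hv e).1
    obtain ⟨x, hx, hxa⟩ := hD.fusion a ha z (hzb ▸ hb)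
    have hc : x⁻¹ * z ∈ Subgroup.centralizer ({a} : Set G) := by
      rw [Subgroup.mem_centralizer_iff]
      intro y hy
      rw [Set.mem_singleton_iff] at hy
      subst hy
      calc y * (x⁻¹ * z) = x⁻¹ * (x * y * x⁻¹) * z := by group
        _ = x⁻¹ * (z * y * z⁻¹) * z := by rw [hxa]
        _ = x⁻¹ * z * y := by group
    rw [← hD.sup_eq a ha] at hc
    have hnorm : ∀ k ∈ L ⊓ Subgroup.centralizer ({a} : Set G), ∀ n ∈ H a, k * n * k⁻¹ ∈ H a :=
      fun k hk n hn => hD.conj_mem_H a ha k hk.2 n hn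
    obtain ⟨n, hn, k, hk, e2⟩ := exists_mul_of_mem_sup_of_normalizes hnorm hc
    refine ⟨⟨⟨x * k, L.mul_mem hx hk.1⟩,
      ⟨k⁻¹ * n * k⁻¹⁻¹, hnorm k⁻¹ (Subgroup.inv_mem _ hk) n hn⟩⟩, ?_⟩
    apply Subtype.ext
    show x * k * (k⁻¹ * n * k⁻¹⁻¹) = z
    calc x * k * (k⁻¹ * n * k⁻¹⁻¹) = x * (n * k) := by group
      _ = x * (x⁻¹ * z) := by rw [e2]
      _ = z := by group

/-- The Dade map is well defined on class functions. -/
theorem dadeIsometry_eq (hD : DadeHypothesis A L H) {α : L → ℂ} (hα : IsClassFunction L α)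
    {g x u : G} {a : L} (ha : (a : G) ∈ A) (hu : u ∈ H a) (hx : x * g * x⁻¹ = a * u) :
    dadeIsometry A L H α g = α a := by
  have h : ∃ a : ↥L, (a : G) ∈ A ∧ ∃ x : G, ∃ u ∈ H (a : G), x * g * x⁻¹ = (a : G) * u :=
    ⟨a, ha, x, u, hu, hx⟩
  unfold dadeIsometry
  rw [dif_pos h]
  obtain ⟨ha', x', u', hu', hx'⟩ := Classical.choose_spec h
  set a' := Classical.choose h
  have e : (x' * x⁻¹) * ((a : G) * u) * (x' * x⁻¹)⁻¹ = (a' : G) * u' := by
    rw [← hx, ← hx']; group
  have h1 := (dade_conj_eq hD ha ha' hu hu' e).1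
  obtain ⟨l, hl, hla⟩ := hD.fusion a ha (x' * x⁻¹) (h1 ▸ ha')
  have : a' = ⟨l, hl⟩ * a * ⟨l, hl⟩⁻¹ := by
    apply Subtype.ext
    show (a' : G) = l * a * l⁻¹
    rw [hla, h1]
  rw [this]
  exact hα a ⟨l, hl⟩

omit [Fintype G] in
theorem dadeIsometry_eq_zero {α : L → ℂ} {g : G}
    (h : ¬ ∃ a : ↥L, (a : G) ∈ A ∧ ∃ x : G, ∃ u ∈ H (a : G), x * g * x⁻¹ = (a : G) * u) :
    dadeIsometry A L H α g = 0 := by
  unfold dadeIsometry
  rw [dif_neg h]

theorem dadeIsometry_isClassFunction (hD : DadeHypothesis A L H) {α : L → ℂ}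
    (hα : IsClassFunction L α) : IsClassFunction G (dadeIsometry A L H α) := by
  intro g h
  by_cases hg : ∃ a : ↥L, (a : G) ∈ A ∧ ∃ x : G, ∃ u ∈ H (a : G), x * g * x⁻¹ = (a : G) * u
  · obtain ⟨a, ha, x, u, hu, hx⟩ := hg
    rw [dadeIsometry_eq hD hα ha hu hx]
    refine dadeIsometry_eq hD hα ha hu (x := x * h⁻¹) ?_
    rw [← hx]; group
  · rw [dadeIsometry_eq_zero hg]
    refine dadeIsometry_eq_zero ?_
    rintro ⟨a, ha, x, u, hu, hx⟩
    exact hg ⟨a, ha, x * h, u, hu, by rw [← hx]; group⟩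

/-- Counting lemma for the Dade support: for a class function `F` of `G`,
`|L| ∑_{g ∈ D} F g = |G| ∑_{a ∈ A} |H a|⁻¹ ∑_{u ∈ H a} F (a u)`. -/
theorem dade_sum_supp {K : Type*} [Field K] [CharZero K] [Fintype L]
    (hD : DadeHypothesis A L H) (F : G → K) (hF : ∀ g h : G, F (h * g * h⁻¹) = F g) :
    (Nat.card L : K) * ∑ g ∈ Finset.univ.filter
        (fun g : G => ∃ a ∈ A, ∃ u ∈ H a, ∃ x : G, x * g * x⁻¹ = a * u), F g
      = (Nat.card G : K) * ∑ a ∈ (Finset.univ : Finset L).filter (fun a : L => (a : G) ∈ A),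
          (Nat.card (H a) : K)⁻¹ * ∑ u ∈ Finset.univ.filter (fun u : G => u ∈ H a), F (a * u) := by
  set X : Finset G := Finset.univ.filter (fun g : G => g ∈ dadeProd A H) with hX
  have hXmem : ∀ g : G, g ∈ X ↔ g ∈ dadeProd A H := by
    intro g; simp [hX]
  set n : G → ℕ := fun g => (Finset.univ.filter (fun z : G => z * g * z⁻¹ ∈ X)).card with hn
  have hn' : ∀ g : G, n g = (Finset.univ.filter (fun z : G => z * g * z⁻¹ ∈ dadeProd A H)).card := by
    intro g
    simp only [hn, hXmem]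
  have hn_inv : ∀ g y : G, n (y * g * y⁻¹) = n g := by
    intro g y
    rw [hn', hn']
    exact card_conj_mem_invariant _ g y
  have hn_prod : ∀ a ∈ A, ∀ u ∈ H a, n (a * u) = Nat.card L * Nat.card (H a) := by
    intro a ha u hu
    rw [hn']
    exact dade_card_conj_mem hD ha hu
  have hn_supp : ∀ g, n g ≠ 0 ↔ ∃ a ∈ A, ∃ u ∈ H a, ∃ x : G, x * g * x⁻¹ = a * u := by
    intro g
    rw [hn', ← Nat.pos_iff_ne_zero, Finset.card_pos]
    constructor
    · rintro ⟨z, hz⟩
      simp only [Finset.mem_filter, Finset.mem_univ, true_and] at hz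
      obtain ⟨a, ha, u, hu, e⟩ := hz
      exact ⟨a, ha, u, hu, z, e⟩
    · rintro ⟨a, ha, u, hu, z, e⟩
      exact ⟨z, by simp only [Finset.mem_filter, Finset.mem_univ, true_and]; exact ⟨a, ha, u, hu, e⟩⟩
  have key : ∑ g : G, ((n g : ℕ) : K) * (F g / (n g : K))
      = (Fintype.card G : K) * ∑ x ∈ X, F x / (n x : K) :=
    sum_card_conj_mem_mul X (fun g => F g / (n g : K)) (by
      intro g h
      show F (h * g * h⁻¹) / (n (h * g * h⁻¹) : K) = F g / (n g : K)
      rw [hF, hn_inv])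
  have hL : ∑ g : G, ((n g : ℕ) : K) * (F g / (n g : K))
      = ∑ g ∈ Finset.univ.filter
        (fun g : G => ∃ a ∈ A, ∃ u ∈ H a, ∃ x : G, x * g * x⁻¹ = a * u), F g := by
    rw [Finset.sum_filter]
    refine Finset.sum_congr rfl fun g _ => ?_
    split_ifs with h
    · have : (n g : K) ≠ 0 := Nat.cast_ne_zero.mpr ((hn_supp g).mpr h)
      field_simp
    · have : n g = 0 := by
        by_contra h0
        exact h ((hn_supp g).mp h0)
      simp [this]
  have hcL : (Nat.card L : K) ≠ 0 := Nat.cast_ne_zero.mpr Nat.card_pos.ne'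
  have hR : ∑ x ∈ X, F x / (n x : K)
      = (Nat.card L : K)⁻¹ * ∑ a ∈ (Finset.univ : Finset L).filter (fun a : L => (a : G) ∈ A),
          (Nat.card (H a) : K)⁻¹ * ∑ u ∈ Finset.univ.filter (fun u : G => u ∈ H a), F (a * u) := by
    rw [Finset.mul_sum]
    simp_rw [Finset.mul_sum]
    rw [Finset.sum_sigma']
    symm
    refine Finset.sum_bij (fun p _ => (p.1 : G) * p.2) ?_ ?_ ?_ ?_
    · rintro ⟨a, u⟩ hp
      simp only [Finset.mem_sigma, Finset.mem_filter, Finset.mem_univ, true_and] at hp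
      rw [hXmem]
      exact ⟨a, hp.1, u, hp.2, rfl⟩
    · rintro ⟨a, u⟩ hp ⟨b, v⟩ hq e
      simp only [Finset.mem_sigma, Finset.mem_filter, Finset.mem_univ, true_and] at hp hq
      have e' : 1 * ((a : G) * u) * 1⁻¹ = (b : G) * v := by simpa using e
      obtain ⟨e1, e2⟩ := dade_conj_eq hD hp.1 hq.1 hp.2 hq.2 e'
      have hab : a = b := Subtype.ext (by simpa using e1)
      subst hab
      have huv : u = v := by simpa using e2
      subst huv
      rfl
    · intro x hx
      rw [hXmem] at hx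
      obtain ⟨a, ha, u, hu, rfl⟩ := hx
      exact ⟨⟨⟨a, hD.subset ha⟩, u⟩, by simp [ha, hu], rfl⟩
    · rintro ⟨a, u⟩ hp
      simp only [Finset.mem_sigma, Finset.mem_filter, Finset.mem_univ, true_and] at hp
      simp only
      rw [hn_prod a hp.1 u hp.2]
      have h2 : (Nat.card (H a) : K) ≠ 0 := Nat.cast_ne_zero.mpr Nat.card_pos.ne'
      push_cast
      field_simp
  rw [hL, hR] at key
  rw [key, Nat.card_eq_fintype_card (α := G)]
  field_simp

end Count

end Cfsg.Agent.Helper25
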