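import Cfsg.Agent.Helper6.BN

/-!
# Feit–Higman for rank 2 (B,N)-pairs (S1142): chamber matrices

`fhAdj P g` is the `0/1` matrix on the chambers `G ⧸ B` of the relation `x⁻¹ y ∈ B g B`.
-/

set_option autoImplicit false

namespace Cfsg.Agent.Helper25.FH

open Classical in
/-- the `0/1` matrix of the relation `x⁻¹ * y ∈ B g B` on `G ⧸ B` -/
noncomputable def fhAdj {G : Type*} [Group G] (P : Cfsg.BNPair G) (g : G) :
    Matrix (G ⧸ P.B) (G ⧸ P.B) ℝ :=
  fun x y => if (Quotient.out x)⁻¹ * Quotient.out y ∈ Cfsg.Agent.Helper6.DC P g then 1 else 0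

theorem fhAdj_of_mem {G : Type*} [Group G] (P : Cfsg.BNPair G) (g : G) (x y : G ⧸ P.B)
    (h : (Quotient.out x)⁻¹ * Quotient.out y ∈ Cfsg.Agent.Helper6.DC P g) :
    fhAdj P g x y = 1 := by
  unfold fhAdj
  rw [if_pos h]

theorem fhAdj_of_not_mem {G : Type*} [Group G] (P : Cfsg.BNPair G) (g : G) (x y : G ⧸ P.B)
    (h : (Quotient.out x)⁻¹ * Quotient.out y ∉ Cfsg.Agent.Helper6.DC P g) :
    fhAdj P g x y = 0 := by
  unfold fhAdj
  rw [if_neg h]

/-- `fhAdj` only depends on the double coset -/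
theorem fhAdj_congr {G : Type*} [Group G] (P : Cfsg.BNPair G) {g g' : G}
    (h : Cfsg.Agent.Helper6.DC P g = Cfsg.Agent.Helper6.DC P g') : fhAdj P g = fhAdj P g' := by
  unfold fhAdj
  rw [h]

end Cfsg.Agent.Helper25.FH
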