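import Cfsg.Agent.Helper25.FHChm
import Cfsg.Agent.Helper3.FHDefs
import Cfsg.Agent.Helper65.FHDih

/-!
# Feit–Higman (S1142): the (B,N)-pair half — the chamber matrices form a `HeckeCfg`
-/

set_option autoImplicit false

namespace Cfsg.Agent.Helper25.FH

open Cfsg.Agent.Helper6 Cfsg.Agent.Helper3.FH Cfsg.Agent.Helper65

section

variable {G : Type*} [Group G] (P : Cfsg.BNPair G)

/-- alternating products of distinguished generators lie in `N` and project to the alternating
words of the Weyl group -/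
theorem fh_altProd_proj {c d : G} (hc : c ∈ P.S) (hd : d ∈ P.S) (k : ℕ) :
    altProd c d k ∈ P.N ∧ proj P (altProd c d k) = (altW (proj P c) (proj P d) k).prod := by
  induction k generalizing c d with
  | zero =>
    refine ⟨P.N.one_mem, ?_⟩
    rw [altProd_zero, proj_one, altW_zero, List.prod_nil]
  | succ k ih =>
    obtain ⟨h1, h2⟩ := ih hd hc
    refine ⟨P.N.mul_mem (S_mem_N P hc) h1, ?_⟩
    rw [altProd_succ, proj_mul P (S_mem_N P hc) h1, h2, altW_succ, List.prod_cons]

end

/-- The (B,N)-pair half of Feit–Higman: the chamber matrices of a finite rank 2 (B,N)-pair form a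
`HeckeCfg` with `2 m = |W|`. -/
theorem exists_heckeCfg {G : Type*} [Group G] [Finite G] (P : Cfsg.BNPair G) (h2 : P.rank = 2)
    [Fintype (G ⧸ P.B)] [DecidableEq (G ⧸ P.B)] :
    ∃ C : HeckeCfg (G ⧸ P.B), 2 * C.m = ((P.B ⊓ P.N).subgroupOf P.N).index := by
  -- the two distinguished generators
  have hcard : Nat.card P.S = 2 := h2
  obtain ⟨x, y, hxy, huniv⟩ := Nat.card_eq_two_iff.1 hcard
  have hs1 : (x : G) ∈ P.S := x.2
  have hs2 : (y : G) ∈ P.S := y.2
  have hne : (x : G) ≠ (y : G) := fun h => hxy (Subtype.ext h)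
  have hall : ∀ s ∈ P.S, s = (x : G) ∨ s = (y : G) := by
    intro s hs
    have : (⟨s, hs⟩ : P.S) ∈ ({x, y} : Set P.S) := by rw [huniv]; trivial
    rcases this with h | h
    · left; exact congrArg Subtype.val h
    · right; exact congrArg Subtype.val h
  set s1 : G := (x : G) with hs1def
  set s2 : G := (y : G) with hs2def
  set σ : Wg P := proj P s1 with hσdef
  set τ : Wg P := proj P s2 with hτdef
  have hSW : SW P = ({σ, τ} : Set (Wg P)) := by
    ext w
    constructor
    · rintro ⟨s, hs, rfl⟩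
      rcases hall s hs with h | h
      · left; rw [h]
      · right; rw [h]; rfl
    · rintro (h | h)
      · exact ⟨s1, hs1, h.symm⟩
      · exact ⟨s2, hs2, (Set.mem_singleton_iff.1 h).symm⟩
  have hσ : σ * σ = 1 := SW_sq P ⟨s1, hs1, rfl⟩
  have hτ : τ * τ = 1 := SW_sq P ⟨s2, hs2, rfl⟩
  have hσ1 : σ ≠ 1 := SW_ne_one P ⟨s1, hs1, rfl⟩
  have hτ1 : τ ≠ 1 := SW_ne_one P ⟨s2, hs2, rfl⟩
  have hστ : σ ≠ τ := fun h => hne (proj_inj_S P hs1 hs2 h)
  have hgen : ∀ w : Wg P, ∃ l, IsWord ({σ, τ} : Set (Wg P)) l ∧ l.prod = w := by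
    intro w
    rw [← hSW]
    exact SW_gen P w
  obtain ⟨hn2, hcardW, hredσ, hredτ⟩ := fh_dih σ τ hσ hτ hστ hσ1 hτ1 hgen
  set n := orderOf (σ * τ) with hndef
  -- chamber matrices
  obtain ⟨q1, hq1, hA⟩ := fh_adj_sq P hs1
  obtain ⟨q2, hq2, hB⟩ := fh_adj_sq P hs2
  -- products along reduced alternating words
  have key : ∀ k, k ≤ n →
      altProd (fhAdj P s1) (fhAdj P s2) k = fhAdj P (altProd s1 s2 k) ∧
      altProd (fhAdj P s2) (fhAdj P s1) k = fhAdj P (altProd s2 s1 k) := by
    intro k
    induction k with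
    | zero =>
      intro _
      simp only [altProd_zero]
      exact ⟨(fh_adj_one P).symm, (fh_adj_one P).symm⟩
    | succ k ih =>
      intro hk
      obtain ⟨ih1, ih2⟩ := ih (by omega)
      constructor
      · rw [altProd_succ, ih2, altProd_succ]
        obtain ⟨hN, hp⟩ := fh_altProd_proj P hs2 hs1 k
        refine fh_adj_mul P hs1 hN ?_
        rw [← mem_PsW_iff P hs1 hN, hp]
        have hr := hredσ (k + 1) hk
        rw [altW_succ, ← hSW] at hr
        exact (exchFamily P).mem_of_reduced_cons hr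
      · rw [altProd_succ, ih1, altProd_succ]
        obtain ⟨hN, hp⟩ := fh_altProd_proj P hs1 hs2 k
        refine fh_adj_mul P hs2 hN ?_
        rw [← mem_PsW_iff P hs2 hN, hp]
        have hr := hredτ (k + 1) hk
        rw [altW_succ, ← hSW] at hr
        exact (exchFamily P).mem_of_reduced_cons hr
  -- distinct double cosets
  have hDCne : ∀ (c d c' d' : G) (hc : c ∈ P.S) (hd : d ∈ P.S) (hc' : c' ∈ P.S) (hd' : d' ∈ P.S)
      (i j : ℕ), (altW (proj P c) (proj P d) i).prod ≠ (altW (proj P c') (proj P d') j).prod →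
      DC P (altProd c d i) ≠ DC P (altProd c' d' j) := by
    intro c d c' d' hc hd hc' hd' i j hne' hDC
    obtain ⟨hN1, hp1⟩ := fh_altProd_proj P hc hd i
    obtain ⟨hN2, hp2⟩ := fh_altProd_proj P hc' hd' j
    have := bruhat_unique P hN1 hN2 hDC
    rw [hp1, hp2] at this
    exact hne' this
  have hlen : ∀ (a b a' b' : Wg P) (i j : ℕ), Reduced ({σ, τ} : Set (Wg P)) (altW a b i) →
      Reduced ({σ, τ} : Set (Wg P)) (altW a' b' j) → i ≠ j →
      (altW a b i).prod ≠ (altW a' b' j).prod := by
    intro a b a' b' i j hr1 hr2 hij hp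
    have := hr1.length_eq hr2 hp
    rw [altW_length, altW_length] at this
    exact hij this
  have hbraidW : (altW σ τ n).prod = (altW τ σ n).prod := by
    have h := altW_prod_mul_inv hσ hτ n
    rw [hndef, pow_orderOf_eq_one] at h
    exact mul_inv_eq_one.1 h
  have hbraid : altProd (fhAdj P s1) (fhAdj P s2) n = altProd (fhAdj P s2) (fhAdj P s1) n := by
    rw [(key n le_rfl).1, (key n le_rfl).2]
    apply fhAdj_congr
    obtain ⟨hN1, hp1⟩ := fh_altProd_proj P hs1 hs2 n
    obtain ⟨hN2, hp2⟩ := fh_altProd_proj P hs2 hs1 n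
    apply DC_eq_of_proj_eq P hN1 hN2
    rw [hp1, hp2]
    exact hbraidW
  refine ⟨{ a := fhAdj P s1
            b := fhAdj P s2
            s := q1
            t := q2
            m := n
            hs := hq1
            ht := hq2
            hm := hn2
            a_symm := fhAdj_symm P hs1
            b_symm := fhAdj_symm P hs2
            a_sq := hA
            b_sq := hB
            braid := hbraid
            zero_one_a := ?_
            zero_one_b := ?_
            disj_aa := ?_
            disj_bb := ?_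
            disj_ab := ?_ }, ?_⟩
  · intro j hj u v
    rw [(key j hj).1]
    exact fhAdj_zero_one P _ u v
  · intro j hj u v
    rw [(key j hj).2]
    exact fhAdj_zero_one P _ u v
  · intro i j hij hj u v
    rw [(key i (by omega)).1, (key j hj).1]
    exact fhAdj_disj P (hDCne s1 s2 s1 s2 hs1 hs2 hs1 hs2 i j
      (hlen σ τ σ τ i j (hredσ i (by omega)) (hredσ j hj) (by omega))) u v
  · intro i j hij hj u v
    rw [(key i (by omega)).2, (key j hj).2]
    exact fhAdj_disj P (hDCne s2 s1 s2 s1 hs2 hs1 hs2 hs1 i j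
      (hlen τ σ τ σ i j (hredτ i (by omega)) (hredτ j hj) (by omega))) u v
  · intro i j hi1 hi hj1 hj u v
    rw [(key i hi).1, (key j (by omega)).2]
    refine fhAdj_disj P (hDCne s1 s2 s2 s1 hs1 hs2 hs2 hs1 i j ?_) u v
    by_cases hij : i = j
    · subst hij
      intro hp
      have h := altW_prod_mul_inv hσ hτ i
      rw [hp, mul_inv_cancel] at h
      exact pow_ne_one_of_lt_orderOf (by omega) hj h.symm
    · exact hlen σ τ τ σ i j (hredσ i hi) (hredτ j (by omega)) hij
  · show 2 * n = _
    rw [← hcardW]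
    rfl

end Cfsg.Agent.Helper25.FH
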