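import Cfsg.Agent.Helper25.FH0b
import Cfsg.Agent.Helper3.FHBN

/-!
# Feit–Higman (S1142): chamber matrices of a (B,N)-pair (pieces CHM1, CHM2, CHM3)
-/

set_option autoImplicit false

namespace Cfsg.Agent.Helper25.FH

open Cfsg.Agent.Helper6

section

variable {G : Type*} [Group G] (P : Cfsg.BNPair G)

theorem fhAdj_mk_of_mem {n g h : G} (hm : g⁻¹ * h ∈ DC P n) :
    fhAdj P n (g : G ⧸ P.B) (h : G ⧸ P.B) = 1 :=
  fhAdj_of_mem P n _ _ ((Cfsg.Agent.Helper3.FH.out_rel_iff P n g h).2 hm)

theorem fhAdj_mk_of_not_mem {n g h : G} (hm : g⁻¹ * h ∉ DC P n) :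
    fhAdj P n (g : G ⧸ P.B) (h : G ⧸ P.B) = 0 :=
  fhAdj_of_not_mem P n _ _ (fun h' => hm ((Cfsg.Agent.Helper3.FH.out_rel_iff P n g h).1 h'))

theorem fhAdj_mk_eq_one_iff {n g h : G} :
    fhAdj P n (g : G ⧸ P.B) (h : G ⧸ P.B) = 1 ↔ g⁻¹ * h ∈ DC P n := by
  constructor
  · intro h1
    by_contra hm
    rw [fhAdj_mk_of_not_mem P hm] at h1
    exact zero_ne_one h1
  · exact fhAdj_mk_of_mem P

theorem fhAdj_mk_ne_zero_iff {n g h : G} :
    fhAdj P n (g : G ⧸ P.B) (h : G ⧸ P.B) ≠ 0 ↔ g⁻¹ * h ∈ DC P n := by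
  constructor
  · intro h1
    by_contra hm
    exact h1 (fhAdj_mk_of_not_mem P hm)
  · intro hm
    rw [fhAdj_mk_of_mem P hm]
    exact one_ne_zero

/-- `1 ∈ B n B` iff `n ∈ B` -/
theorem fh_one_mem_DC {n : G} (h : (1 : G) ∈ DC P n) : n ∈ P.B := by
  obtain ⟨b, hb, b', hb', e⟩ := (mem_DC P).1 h
  have : n = b⁻¹ * b'⁻¹ := by
    have e2 : b⁻¹ * (b * n * b') * b'⁻¹ = n := by group
    rw [← e2, ← e]
    group
  rw [this]
  exact P.B.mul_mem (P.B.inv_mem hb) (P.B.inv_mem hb')

/-- `C(s) C(n) ⊆ C(s n)` under `Pg` -/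
theorem fh_mul_mem_DC {s n a c : G} (hP : Pg P s n) (ha : a ∈ DC P s) (hc : c ∈ DC P n) :
    a * c ∈ DC P (s * n) := by
  obtain ⟨b1, hb1, b2, hb2, rfl⟩ := (mem_DC P).1 ha
  obtain ⟨b3, hb3, b4, hb4, rfl⟩ := (mem_DC P).1 hc
  have h := hP (b2 * b3) (P.B.mul_mem hb2 hb3)
  have e : b1 * s * b2 * (b3 * n * b4) = b1 * (s * (b2 * b3) * n) * b4 := by group
  rw [e]
  exact mul_mem_DC P hb1 hb4 h

theorem fhAdj_zero_one (g : G) (x y : G ⧸ P.B) : fhAdj P g x y = 0 ∨ fhAdj P g x y = 1 := by
  by_cases h : (Quotient.out x)⁻¹ * Quotient.out y ∈ DC P g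
  · right; exact fhAdj_of_mem P g x y h
  · left; exact fhAdj_of_not_mem P g x y h

theorem fhAdj_disj {g g' : G} (h : DC P g ≠ DC P g') (x y : G ⧸ P.B) :
    fhAdj P g x y * fhAdj P g' x y = 0 := by
  by_cases h1 : (Quotient.out x)⁻¹ * Quotient.out y ∈ DC P g
  · by_cases h2 : (Quotient.out x)⁻¹ * Quotient.out y ∈ DC P g'
    · exact absurd (DC_eq_of_inter P h1 h2) h
    · rw [fhAdj_of_not_mem P g' x y h2, mul_zero]
  · rw [fhAdj_of_not_mem P g x y h1, zero_mul]

theorem fhAdj_symm {s : G} (hs : s ∈ P.S) : (fhAdj P s).transpose = fhAdj P s := by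
  have hinv : DC P s⁻¹ = DC P s := by
    have e : s⁻¹ = s * (s * s)⁻¹ := by group
    rw [e]
    exact DC_mul_right P (P.B.inv_mem (S_sq P hs))
  ext x y
  rw [Matrix.transpose_apply]
  by_cases h : (Quotient.out x)⁻¹ * Quotient.out y ∈ DC P s
  · rw [fhAdj_of_mem P s x y h]
    apply fhAdj_of_mem
    have := mem_DC_inv P h
    rw [hinv] at this
    simpa using this
  · rw [fhAdj_of_not_mem P s x y h]
    apply fhAdj_of_not_mem
    intro h'
    apply h
    have := mem_DC_inv P h'
    rw [hinv] at this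
    simpa using this

/-- left translation invariance of the chamber matrices -/
theorem fhAdj_smul (n g : G) (x y : G ⧸ P.B) : fhAdj P n (g • x) (g • y) = fhAdj P n x y := by
  induction x using QuotientGroup.induction_on with
  | H a =>
  induction y using QuotientGroup.induction_on with
  | H b =>
  have e1 : g • (a : G ⧸ P.B) = ((g * a : G) : G ⧸ P.B) := rfl
  have e2 : g • (b : G ⧸ P.B) = ((g * b : G) : G ⧸ P.B) := rfl
  rw [e1, e2]
  have e : (g * a)⁻¹ * (g * b) = a⁻¹ * b := by group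
  by_cases hm : a⁻¹ * b ∈ DC P n
  · rw [fhAdj_mk_of_mem P hm, fhAdj_mk_of_mem P (by rw [e]; exact hm)]
  · rw [fhAdj_mk_of_not_mem P hm, fhAdj_mk_of_not_mem P (by rw [e]; exact hm)]

end

section chamber

variable {G : Type*} [Group G] [Finite G] (P : Cfsg.BNPair G)
  [Fintype (G ⧸ P.B)] [DecidableEq (G ⧸ P.B)]

/-- PIECE CHM3 -/
theorem fh_adj_one : fhAdj P 1 = (1 : Matrix (G ⧸ P.B) (G ⧸ P.B) ℝ) := by
  ext x y
  induction x using QuotientGroup.induction_on with
  | H g =>
  induction y using QuotientGroup.induction_on with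
  | H h =>
  rw [Matrix.one_apply]
  by_cases hm : g⁻¹ * h ∈ P.B
  · rw [fhAdj_mk_of_mem P (mem_DC_of_mem_B P P.B.one_mem hm), if_pos (QuotientGroup.eq.2 hm)]
  · rw [fhAdj_mk_of_not_mem P (fun h' => hm (mem_B_of_mem_DC P P.B.one_mem h')),
      if_neg (fun h' => hm (QuotientGroup.eq.1 h'))]

theorem fh_adj_trace {n : G} (hn : n ∈ P.N) (hnB : n ∉ P.B) : (fhAdj P n).trace = 0 := by
  rw [Matrix.trace]
  apply Finset.sum_eq_zero
  intro x _
  rw [Matrix.diag_apply]
  induction x using QuotientGroup.induction_on with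
  | H g =>
  apply fhAdj_mk_of_not_mem
  intro h
  rw [inv_mul_cancel] at h
  exact hnB (fh_one_mem_DC P h)

/-- PIECE CHM2: `C(s) C(n) = C(s n)` for chamber matrices -/
theorem fh_adj_mul {s n : G} (hs : s ∈ P.S) (hn : n ∈ P.N) (hP : Pg P s n) :
    fhAdj P s * fhAdj P n = fhAdj P (s * n) := by
  have hsN := S_mem_N P hs
  have hDCinv : ∀ w : G, w ∈ DC P s → w⁻¹ ∈ DC P s := by
    intro w hw
    have h1 := mem_DC_inv P hw
    have e : s⁻¹ = s * (s * s)⁻¹ := by group
    rw [e, DC_mul_right P (P.B.inv_mem (S_sq P hs))] at h1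
    exact h1
  have hneDC : DC P (s * n) ≠ DC P n := by
    intro h
    have h1 := bruhat_unique P (P.N.mul_mem hsN hn) hn h
    rw [proj_mul P hsN hn] at h1
    have h2 : proj P s = 1 := by simpa using h1
    exact S_not_mem_B P hs ((proj_eq_one_iff P hsN).1 h2)
  ext x z
  induction x using QuotientGroup.induction_on with
  | H g =>
  induction z using QuotientGroup.induction_on with
  | H h =>
  rw [Matrix.mul_apply]
  by_cases hm : g⁻¹ * h ∈ DC P (s * n)
  · rw [fhAdj_mk_of_mem P hm]
    obtain ⟨b, hb, b', hb', e⟩ := (mem_DC P).1 hm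
    have h1 : fhAdj P s (g : G ⧸ P.B) ((g * b * s : G) : G ⧸ P.B) = 1 := by
      apply fhAdj_mk_of_mem
      have e1 : g⁻¹ * (g * b * s) = b * s * 1 := by group
      rw [e1]
      exact (mem_DC P).2 ⟨b, hb, 1, P.B.one_mem, rfl⟩
    have h2 : fhAdj P n ((g * b * s : G) : G ⧸ P.B) (h : G ⧸ P.B) = 1 := by
      apply fhAdj_mk_of_mem
      have e1 : (g * b * s)⁻¹ * h = s⁻¹ * b⁻¹ * (g⁻¹ * h) := by group
      rw [e1, e]
      have e2 : s⁻¹ * b⁻¹ * (b * (s * n) * b') = 1 * n * b' := by group
      rw [e2]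
      exact (mem_DC P).2 ⟨1, P.B.one_mem, b', hb', rfl⟩
    rw [Finset.sum_eq_single ((g * b * s : G) : G ⧸ P.B)]
    · rw [h1, h2, mul_one]
    · intro y _ hy
      induction y using QuotientGroup.induction_on with
      | H k =>
      by_contra hne
      have hk1 : g⁻¹ * k ∈ DC P s := by
        rw [← fhAdj_mk_ne_zero_iff]
        exact left_ne_zero_of_mul hne
      have hk2 : k⁻¹ * h ∈ DC P n := by
        rw [← fhAdj_mk_ne_zero_iff]
        exact right_ne_zero_of_mul hne
      apply hy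
      rw [QuotientGroup.eq]
      -- w = k⁻¹ * (g b s) ∈ P_s
      set w : G := k⁻¹ * (g * b * s) with hw
      have hwP : w ∈ P.parabolic {s} := by
        have e1 : w = (g⁻¹ * k)⁻¹ * (b * s) := by rw [hw]; group
        rw [e1]
        refine (P.parabolic {s}).mul_mem ((P.parabolic {s}).inv_mem ?_) ?_
        · exact (parabolic_singleton P hs _).2 (Or.inr hk1)
        · exact (P.parabolic {s}).mul_mem (B_le_parabolic P _ hb)
            (closure_le_parabolic P _ (Subgroup.subset_closure rfl))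
      rcases (parabolic_singleton P hs w).1 hwP with hwB | hwS
      · exact hwB
      · exfalso
        -- then k⁻¹ h = w * (n b') ∈ C(s) C(n) = C(s n), but also ∈ C(n)
        have e1 : k⁻¹ * h = w * ((g * b * s)⁻¹ * h) := by rw [hw]; group
        have h3 : (g * b * s)⁻¹ * h ∈ DC P n := by
          rw [← fhAdj_mk_eq_one_iff]
          exact h2
        have h4 : k⁻¹ * h ∈ DC P (s * n) := by
          rw [e1]
          exact fh_mul_mem_DC P hP hwS h3
        exact hneDC (DC_eq_of_inter P h4 hk2)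
    · intro h'
      exact absurd (Finset.mem_univ _) h'
  · rw [fhAdj_mk_of_not_mem P hm]
    apply Finset.sum_eq_zero
    intro y _
    induction y using QuotientGroup.induction_on with
    | H k =>
    by_contra hne
    have hk1 : g⁻¹ * k ∈ DC P s := by
      rw [← fhAdj_mk_ne_zero_iff]
      exact left_ne_zero_of_mul hne
    have hk2 : k⁻¹ * h ∈ DC P n := by
      rw [← fhAdj_mk_ne_zero_iff]
      exact right_ne_zero_of_mul hne
    apply hm
    have e1 : g⁻¹ * h = (g⁻¹ * k) * (k⁻¹ * h) := by group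
    rw [e1]
    exact fh_mul_mem_DC P hP hk1 hk2

/-- PIECE CHM1: quadratic relation and thickness -/
theorem fh_adj_sq {s : G} (hs : s ∈ P.S) :
    ∃ q : ℕ, 2 ≤ q ∧ fhAdj P s * fhAdj P s
      = (q : ℝ) • (1 : Matrix (G ⧸ P.B) (G ⧸ P.B) ℝ) + ((q : ℝ) - 1) • fhAdj P s := by
  classical
  have hsB : s ∉ P.B := S_not_mem_B P hs
  have hsymm := fhAdj_symm P hs
  -- `B ∩ B s B = ∅`
  have hdisjB : ∀ h : G, h ∈ P.B → h ∉ DC P s := by
    intro h hB hS
    have h1 : DC P h = DC P s := DC_eq_of_mem P hS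
    have h2 : s ∈ DC P h := by rw [h1]; exact DC_self P s
    exact hsB (mem_B_of_mem_DC P hB h2)
  -- membership in `P_s`
  have hPs : ∀ w : G, w ∈ P.parabolic {s} ↔ w ∈ P.B ∨ w ∈ DC P s := parabolic_singleton P hs
  set e1 : G ⧸ P.B := ((1 : G) : G ⧸ P.B) with he1
  set Y : Finset (G ⧸ P.B) := Finset.univ.filter (fun y => fhAdj P s e1 y = 1) with hY
  refine ⟨Y.card, ?_, ?_⟩
  · -- thickness
    obtain ⟨b, hb, hnot⟩ := exists_conj_not_mem P hs
    rw [Nat.succ_le_iff, Finset.one_lt_card]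
    refine ⟨((s : G) : G ⧸ P.B), ?_, ((b * s : G) : G ⧸ P.B), ?_, ?_⟩
    · rw [hY, Finset.mem_filter]
      refine ⟨Finset.mem_univ _, fhAdj_mk_of_mem P ?_⟩
      rw [inv_one, one_mul]
      exact DC_self P s
    · rw [hY, Finset.mem_filter]
      refine ⟨Finset.mem_univ _, fhAdj_mk_of_mem P ?_⟩
      rw [inv_one, one_mul]
      exact mul_left_mem_DC P hb (DC_self P s)
    · intro h
      rw [QuotientGroup.eq] at h
      apply hnot
      have e : s * b * s = (s * s) * (s⁻¹ * (b * s)) := by group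
      rw [e]
      exact P.B.mul_mem (S_sq P hs) h
  · -- row sum
    have hrow : ∑ y, fhAdj P s e1 y = (Y.card : ℝ) := by
      rw [hY, Finset.card_filter]
      push_cast
      apply Finset.sum_congr rfl
      intro y _
      rcases fhAdj_zero_one P s e1 y with h | h
      · simp [h]
      · simp [h]
    -- reduce to the first index being the base chamber
    have hinvL : ∀ (g : G) (x z : G ⧸ P.B),
        (fhAdj P s * fhAdj P s) (g • x) (g • z) = (fhAdj P s * fhAdj P s) x z := by
      intro g x z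
      rw [Matrix.mul_apply, Matrix.mul_apply]
      rw [← Equiv.sum_comp (MulAction.toPerm g) (fun y => fhAdj P s (g • x) y * fhAdj P s y (g • z))]
      apply Finset.sum_congr rfl
      intro y _
      show fhAdj P s (g • x) (g • y) * fhAdj P s (g • y) (g • z) = _
      rw [fhAdj_smul, fhAdj_smul]
    have hinvR : ∀ (g : G) (x z : G ⧸ P.B),
        ((Y.card : ℝ) • (1 : Matrix (G ⧸ P.B) (G ⧸ P.B) ℝ)
          + ((Y.card : ℝ) - 1) • fhAdj P s) (g • x) (g • z)
        = ((Y.card : ℝ) • (1 : Matrix (G ⧸ P.B) (G ⧸ P.B) ℝ)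
          + ((Y.card : ℝ) - 1) • fhAdj P s) x z := by
      intro g x z
      simp only [Matrix.add_apply, Matrix.smul_apply, Matrix.one_apply, fhAdj_smul, smul_eq_mul]
      have : (g • x = g • z) ↔ (x = z) := smul_left_cancel_iff g
      simp only [this]
    ext x z
    induction x using QuotientGroup.induction_on with
    | H g =>
    induction z using QuotientGroup.induction_on with
    | H h0 =>
    have ex : ((g : G) : G ⧸ P.B) = g • e1 := by
      show _ = ((g * 1 : G) : G ⧸ P.B)
      rw [mul_one]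
    have ez : ((h0 : G) : G ⧸ P.B) = g • ((g⁻¹ * h0 : G) : G ⧸ P.B) := by
      show _ = ((g * (g⁻¹ * h0) : G) : G ⧸ P.B)
      rw [mul_inv_cancel_left]
    rw [ex, ez, hinvL, hinvR]
    generalize g⁻¹ * h0 = h
    -- now compute at `(e1, ↑h)`
    simp only [Matrix.add_apply, Matrix.smul_apply, Matrix.one_apply, smul_eq_mul]
    rw [Matrix.mul_apply]
    have hA11 : ∀ k : G, fhAdj P s e1 (k : G ⧸ P.B) = 1 ↔ k ∈ DC P s := by
      intro k
      rw [he1, fhAdj_mk_eq_one_iff, inv_one, one_mul]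
    have hA11' : ∀ k : G, fhAdj P s e1 (k : G ⧸ P.B) ≠ 0 ↔ k ∈ DC P s := by
      intro k
      rw [he1, fhAdj_mk_ne_zero_iff, inv_one, one_mul]
    by_cases hB : h ∈ P.B
    · -- diagonal
      have heq : e1 = ((h : G) : G ⧸ P.B) := by
        rw [he1, QuotientGroup.eq, inv_one, one_mul]
        exact hB
      rw [if_pos heq, ← heq]
      have h0 : fhAdj P s e1 e1 = 0 := by
        rw [he1]
        apply fhAdj_mk_of_not_mem
        rw [inv_one, one_mul]
        exact hdisjB 1 P.B.one_mem
      rw [h0, mul_zero, add_zero, mul_one, ← hrow]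
      apply Finset.sum_congr rfl
      intro y _
      have h1 : fhAdj P s y e1 = fhAdj P s e1 y := by
        rw [← Matrix.transpose_apply (fhAdj P s) e1 y, hsymm]
      rw [h1]
      rcases fhAdj_zero_one P s e1 y with h2 | h2 <;> rw [h2] <;> simp
    · have hne : e1 ≠ ((h : G) : G ⧸ P.B) := by
        intro heq
        rw [he1, QuotientGroup.eq, inv_one, one_mul] at heq
        exact hB heq
      rw [if_neg hne, mul_zero, zero_add]
      by_cases hS : h ∈ DC P s
      · -- `h ∈ B s B`
        have hA1h : fhAdj P s e1 (h : G ⧸ P.B) = 1 := (hA11 h).2 hS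
        rw [hA1h, mul_one]
        have hterm : ∀ y : G ⧸ P.B, fhAdj P s e1 y * fhAdj P s y (h : G ⧸ P.B)
            = fhAdj P s e1 y - (if y = ((h : G) : G ⧸ P.B) then 1 else 0) := by
          intro y
          induction y using QuotientGroup.induction_on with
          | H k =>
          by_cases hkh : ((k : G) : G ⧸ P.B) = ((h : G) : G ⧸ P.B)
          · rw [if_pos hkh, hkh, hA1h]
            have : fhAdj P s ((h : G) : G ⧸ P.B) ((h : G) : G ⧸ P.B) = 0 := by
              apply fhAdj_mk_of_not_mem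
              rw [inv_mul_cancel]
              exact hdisjB 1 P.B.one_mem
            rw [this]
            ring
          · rw [if_neg hkh, sub_zero]
            by_cases hk : k ∈ DC P s
            · rw [(hA11 k).2 hk, one_mul]
              apply fhAdj_mk_of_mem
              have hP1 : k⁻¹ * h ∈ P.parabolic {s} :=
                (P.parabolic {s}).mul_mem ((P.parabolic {s}).inv_mem ((hPs k).2 (Or.inr hk)))
                  ((hPs h).2 (Or.inr hS))
              rcases (hPs _).1 hP1 with h3 | h3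
              · exact absurd (QuotientGroup.eq.2 h3) hkh
              · exact h3
            · have : fhAdj P s e1 (k : G ⧸ P.B) = 0 := by
                by_contra h3
                exact hk ((hA11' k).1 h3)
              rw [this, zero_mul]
        rw [Finset.sum_congr rfl (fun y _ => hterm y), Finset.sum_sub_distrib, hrow,
          Finset.sum_ite_eq' Finset.univ ((h : G) : G ⧸ P.B) (fun _ => (1 : ℝ)),
          if_pos (Finset.mem_univ _)]
      · -- `h ∉ P_s`
        have hA1h : fhAdj P s e1 (h : G ⧸ P.B) = 0 := by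
          by_contra h3
          exact hS ((hA11' h).1 h3)
        rw [hA1h, mul_zero]
        apply Finset.sum_eq_zero
        intro y _
        induction y using QuotientGroup.induction_on with
        | H k =>
        by_contra hne'
        have hk1 : k ∈ DC P s := (hA11' k).1 (left_ne_zero_of_mul hne')
        have hk2 : k⁻¹ * h ∈ DC P s := by
          rw [← fhAdj_mk_ne_zero_iff]
          exact right_ne_zero_of_mul hne'
        have hP1 : h ∈ P.parabolic {s} := by
          have e : h = k * (k⁻¹ * h) := by group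
          rw [e]
          exact (P.parabolic {s}).mul_mem ((hPs k).2 (Or.inr hk1)) ((hPs _).2 (Or.inr hk2))
        rcases (hPs h).1 hP1 with h3 | h3
        · exact hB h3
        · exact hS h3

end chamber

end Cfsg.Agent.Helper25.FH
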