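import Mathlib
import Cfsg.Agent.Helper25.PrimeAct5

/-!
# Prime action: the main theorem (helper25)

* `prime_action_chars`: Peterfalvi (4.3) for `L = K ⋊ W₁` (abstract form, from the TI-property):
  the irreducible characters `μ ω` and the signs `δ ω`.
-/

set_option autoImplicit false
set_option linter.style.haveILetI false
set_option linter.unusedVariables false
set_option linter.unusedSectionVars false
set_option maxHeartbeats 1000000

namespace Cfsg.Agent.Helper25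

open Cfsg

section Chars6

variable {L : Type*} [Group L] {W₁ W₂ : Subgroup L}

theorem prime_action_chars [Fintype L] (W₁ W₂ : Subgroup L) (hdisj : W₁ ⊓ W₂ = ⊥)
    (hcomm : ∀ a ∈ W₁, ∀ b ∈ W₂, a * b = b * a)
    (hW₁comm : ∀ x ∈ W₁, ∀ y ∈ W₁, x * y = y * x)
    (hW₂comm : ∀ x ∈ W₂, ∀ y ∈ W₂, x * y = y * x) (hW₁ : W₁ ≠ ⊥)
    (hTI : ∀ g : L, ∀ t ∈ {x : L | x ∈ W₁ ⊔ W₂ ∧ x ∉ W₂},
      g * t * g⁻¹ ∈ {x : L | x ∈ W₁ ⊔ W₂ ∧ x ∉ W₂} → g ∈ W₁ ⊔ W₂) :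
    ∃ (μ : (↥(W₁ ⊔ W₂) →* ℂˣ) → (L → ℂ)) (δ : (↥(W₁ ⊔ W₂) →* ℂˣ) → ℂ),
      Function.Injective μ ∧ (∀ ω, IsIrrCharacter L (μ ω)) ∧ (∀ ω, δ ω = 1 ∨ δ ω = -1) ∧
      (∀ ω ω' : ↥(W₁ ⊔ W₂) →* ℂˣ, (∀ w : ↥(W₁ ⊔ W₂), (w : L) ∈ W₂ → ω w = ω' w) →
        δ ω = δ ω' ∧
        indFun (W₁ ⊔ W₂) (fun w => (ω w : ℂ) - (ω' w : ℂ)) = δ ω • (μ ω - μ ω')) ∧
      (∀ ω, ∀ w : ↥(W₁ ⊔ W₂), (w : L) ∉ W₂ → μ ω w = δ ω * (ω w : ℂ)) ∧
      (∀ θ : L → ℂ, IsIrrCharacter L θ → (∀ ω, θ ≠ μ ω) →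
        ∀ w : ↥(W₁ ⊔ W₂), (w : L) ∉ W₂ → θ w = 0) ∧
      (∀ ω, ∃ n : ℤ, μ ω 1 - δ ω = n * (Nat.card W₁ : ℂ)) := by
  classical
  obtain ⟨μ, δ, hirr, hδ, hC⟩ := prime_action_exists W₁ W₂ hdisj hcomm hW₁comm hW₁ hTI
  have hinj := prime_action_injective W₁ W₂ hdisj hcomm hW₁comm hW₁ hTI μ δ hirr hδ hC
  haveI : Finite (↥(W₁ ⊔ W₂) →* ℂˣ) := Cfsg.Agent.Helper80.finite_hom
  haveI : Fintype (↥(W₁ ⊔ W₂) →* ℂˣ) := Fintype.ofFinite _
  have hC' : ∀ ω ω' : ↥(W₁ ⊔ W₂) →* ℂˣ, (∀ w : ↥(W₁ ⊔ W₂), (w : L) ∈ W₂ → ω w = ω' w) →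
      δ ω = δ ω' ∧
      indFun (W₁ ⊔ W₂) (fun w => (ω w : ℂ) - (ω' w : ℂ)) = δ ω • (μ ω - μ ω') :=
    fun ω ω' h => ⟨(hC ω ω' h).1, (hC ω ω' h).2.1⟩
  have hform := fun (θ₀ : L → ℂ) (hθ₀ : IsClassFunction L θ₀) (w : ↥(W₁ ⊔ W₂))
      (hw : (w : L) ∉ W₂) =>
    prime_action_formula W₁ W₂ hdisj hcomm hW₁comm hW₂comm μ δ hC' θ₀ hθ₀ w hw
  have hclass : ∀ θ : L → ℂ, IsIrrCharacter L θ → IsClassFunction L θ := fun θ hθ =>
    Cfsg.Agent.Helper79.isCharacter_isClassFunction (Cfsg.Agent.Helper79.isCharacter_of_irr hθ)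
  have hδconj : ∀ ω, (starRingEnd ℂ) (δ ω) = δ ω := by
    intro ω
    rcases hδ ω with h | h <;> rw [h] <;> simp
  have h5 : ∀ ω, ∀ w : ↥(W₁ ⊔ W₂), (w : L) ∉ W₂ → μ ω w = δ ω * (ω w : ℂ) := by
    intro ω w hw
    have h1 := hform (μ ω) (hclass _ (hirr ω)) w hw
    have h2 : ∀ ω₁ : ↥(W₁ ⊔ W₂) →* ℂˣ,
        (starRingEnd ℂ) ((ω₁ w : ℂˣ) : ℂ) * δ ω₁ * classInner (μ ω₁) (μ ω)
          = if ω₁ = ω then (starRingEnd ℂ) ((ω w : ℂˣ) : ℂ) * δ ω else 0 := by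
      intro ω₁
      rw [classInner_irr_fun (hirr ω₁) (hirr ω)]
      by_cases h : ω₁ = ω
      · rw [if_pos h, if_pos (by rw [h]), h, mul_one]
      · rw [if_neg h, if_neg (fun h' => h (hinj h')), mul_zero]
    rw [Finset.sum_congr rfl (fun ω₁ _ => h2 ω₁), Finset.sum_ite_eq',
      if_pos (Finset.mem_univ _)] at h1
    have h3 := congrArg (starRingEnd ℂ) h1
    rw [Complex.conj_conj, map_mul, Complex.conj_conj, hδconj] at h3
    rw [h3, mul_comm]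
  refine ⟨μ, δ, hinj, hirr, hδ, hC', h5, ?_, ?_⟩
  · intro θ hθ hne w hw
    have h1 := hform θ (hclass θ hθ) w hw
    rw [Finset.sum_eq_zero] at h1
    · exact (map_eq_zero (starRingEnd ℂ)).mp h1
    · intro ω₁ _
      rw [classInner_irr_fun (hirr ω₁) hθ, if_neg (fun h => hne ω₁ h.symm), mul_zero]
  · intro ω
    haveI : Fintype W₁ := Fintype.ofFinite _
    have hn0 : (Nat.card W₁ : ℂ) ≠ 0 := by exact_mod_cast Nat.card_pos.ne'
    obtain ⟨f, hf⟩ : ∃ f : W₁ → ℂ, f = fun x : W₁ => μ ω (x : L) := ⟨_, rfl⟩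
    have hfchar : IsCharacter W₁ f := by
      rw [hf]
      exact Cfsg.Agent.Helper79.isCharacter_restrict
        (Cfsg.Agent.Helper79.isCharacter_of_irr (hirr ω)) W₁
    obtain ⟨m, hm⟩ := Cfsg.Agent.Helper3.classInner_isCharacter_nat hfchar
      (Cfsg.Agent.Helper79.isCharacter_one (G := W₁))
    have hsum : ∑ x : W₁, f x = (m : ℂ) * (Nat.card W₁ : ℂ) := by
      unfold classInner at hm
      simp only [map_one, mul_one] at hm
      rw [← hm]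
      field_simp
    have hval : ∀ x : W₁, x ≠ 1 → f x = δ ω * ((resLeft ω x : ℂˣ) : ℂ) := by
      intro x hx
      have hxW₂ : ((Subgroup.inclusion le_sup_left x : ↥(W₁ ⊔ W₂)) : L) ∉ W₂ := by
        intro h
        have h1 : (x : L) ∈ W₁ ⊓ W₂ := ⟨x.2, h⟩
        rw [hdisj, Subgroup.mem_bot] at h1
        exact hx (Subtype.ext h1)
      rw [hf]
      exact h5 ω (Subgroup.inclusion le_sup_left x) hxW₂
    have hlam : ∑ x : W₁, ((resLeft ω x : ℂˣ) : ℂ)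
        = if resLeft ω = 1 then (Nat.card W₁ : ℂ) else 0 := by
      have h := classInner_monoidHom (resLeft ω) (1 : W₁ →* ℂˣ)
      unfold classInner at h
      simp only [MonoidHom.one_apply, Units.val_one, map_one, mul_one] at h
      by_cases h0 : resLeft ω = 1
      · rw [if_pos h0] at h ⊢
        field_simp at h
        exact h
      · rw [if_neg h0] at h ⊢
        rcases mul_eq_zero.mp h with h1 | h1
        · exact absurd (inv_eq_zero.mp h1) hn0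
        · exact h1
    have hsplit : ∑ x : W₁, f x
        = f 1 + δ ω * (∑ x : W₁, ((resLeft ω x : ℂˣ) : ℂ) - 1) := by
      rw [← Finset.add_sum_erase Finset.univ f (Finset.mem_univ 1),
        ← Finset.add_sum_erase Finset.univ (fun x => ((resLeft ω x : ℂˣ) : ℂ))
          (Finset.mem_univ 1), map_one, Units.val_one, add_sub_cancel_left, Finset.mul_sum]
      congr 1
      apply Finset.sum_congr rfl
      intro x hx
      exact hval x (Finset.ne_of_mem_erase hx)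
    have hf1 : f 1 = μ ω 1 := by
      rw [hf]
      rfl
    rw [hsum, hlam, hf1] at hsplit
    by_cases h0 : resLeft ω = 1
    · rw [if_pos h0] at hsplit
      rcases hδ ω with hd | hd
      · refine ⟨(m : ℤ) - 1, ?_⟩
        rw [hd] at hsplit ⊢
        push_cast
        linear_combination (-1 : ℂ) * hsplit
      · refine ⟨(m : ℤ) + 1, ?_⟩
        rw [hd] at hsplit ⊢
        push_cast
        linear_combination (-1 : ℂ) * hsplit
    · rw [if_neg h0] at hsplit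
      refine ⟨(m : ℤ), ?_⟩
      push_cast
      linear_combination (-1 : ℂ) * hsplit

end Chars6

end Cfsg.Agent.Helper25
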