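import Mathlib
import Cfsg.Prelude.Def_OddOrderLocal

set_option autoImplicit false

namespace Cfsg.Agent.Helper25

open Cfsg
open scoped commutatorElement

set_option linter.style.haveILetI false

section Puig

variable {G : Type*} [Group G]

theorem puigSeq_zero : puigSeq G 0 = ⊥ := rfl

theorem puigSeq_succ (n : ℕ) : puigSeq G (n + 1) = puigStep (puigSeq G n) := rfl

theorem puigStep_anti {X Y : Subgroup G} (h : X ≤ Y) : puigStep Y ≤ puigStep X := by
  apply sSup_le_sSup
  rintro A ⟨hA, hY⟩
  exact ⟨hA, h.trans hY⟩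

theorem puigStep_bot : puigStep (⊥ : Subgroup G) = ⊤ := by
  rw [eq_top_iff]
  intro g _
  have : Subgroup.zpowers g ≤ puigStep (⊥ : Subgroup G) :=
    le_sSup ⟨inferInstance, bot_le⟩
  exact this (Subgroup.mem_zpowers g)

theorem puigSeq_one : puigSeq G 1 = ⊤ := puigStep_bot

theorem puigSeq_even_odd_aux (n : ℕ) :
    puigSeq G (2 * n) ≤ puigSeq G (2 * n + 2) ∧ puigSeq G (2 * n + 3) ≤ puigSeq G (2 * n + 1) := by
  induction n with
  | zero =>
    refine ⟨by simp [puigSeq_zero], ?_⟩
    show puigSeq G 3 ≤ puigSeq G 1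
    rw [puigSeq_one]; exact le_top
  | succ n ih =>
    have h1 : puigSeq G (2 * (n + 1)) ≤ puigSeq G (2 * (n + 1) + 2) := puigStep_anti ih.2
    exact ⟨h1, puigStep_anti h1⟩

theorem puigSeq_even_le_odd : ∀ n m : ℕ, puigSeq G (2 * n) ≤ puigSeq G (2 * m + 1)
  | 0, m => by simp [puigSeq_zero]
  | n + 1, 0 => by
    show puigSeq G (2 * (n + 1)) ≤ puigSeq G 1
    rw [puigSeq_one]; exact le_top
  | n + 1, m + 1 => puigStep_anti (puigStep_anti (puigSeq_even_le_odd n m))

theorem puigSeq_even_mono : Monotone (fun n => puigSeq G (2 * n)) :=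
  monotone_nat_of_le_succ (fun n => (puigSeq_even_odd_aux n).1)

theorem puigSeq_odd_anti : Antitone (fun n => puigSeq G (2 * n + 1)) :=
  antitone_nat_of_succ_le (fun n => (puigSeq_even_odd_aux n).2)

theorem puig_stabilizes [Finite G] : ∃ k : ℕ, ∀ n, k ≤ n →
    puigSeq G (2 * n) = puigLower G ∧ puigSeq G (2 * n + 1) = puigSubgroup G := by
  obtain ⟨k1, hk1⟩ := WellFoundedGT.monotone_chain_condition
    ⟨fun n => puigSeq G (2 * n), puigSeq_even_mono⟩
  obtain ⟨k2, hk2⟩ := WellFoundedLT.antitone_chain_condition (puigSeq_odd_anti (G := G))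
  have hk1' : ∀ m, k1 ≤ m → puigSeq G (2 * k1) = puigSeq G (2 * m) := hk1
  have hL : puigLower G = puigSeq G (2 * k1) := by
    apply le_antisymm
    · apply iSup_le
      intro n
      rcases le_total n k1 with h | h
      · exact puigSeq_even_mono h
      · exact (hk1' n h).symm.le
    · exact le_iSup (fun n => puigSeq G (2 * n)) k1
  have hU : puigSubgroup G = puigSeq G (2 * k2 + 1) := by
    apply le_antisymm
    · exact iInf_le (fun n => puigSeq G (2 * n + 1)) k2
    · apply le_iInf
      intro n
      rcases le_total n k2 with h | h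
      · exact puigSeq_odd_anti h
      · exact (hk2 n h).le
  refine ⟨max k1 k2, fun n hn => ⟨?_, ?_⟩⟩
  · rw [hL]; exact (hk1' n (le_of_max_le_left hn)).symm
  · rw [hU]; exact (hk2 n (le_of_max_le_right hn)).symm

theorem puigStep_normal (N : Subgroup G) [hNn : N.Normal] : (puigStep N).Normal := by
  constructor
  intro n hn g
  have key : puigStep N ≤ (puigStep N).comap (MulAut.conj g).toMonoidHom := by
    apply sSup_le
    rintro A ⟨hA, hN⟩
    rw [← Subgroup.map_le_iff_le_comap]
    apply le_sSup
    refine ⟨?_, ?_⟩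
    · haveI := hA; infer_instance
    · intro m hm
      rw [Subgroup.mem_set_normalizer_iff]
      intro h
      have hm' : g⁻¹ * m * g ∈ N := by
        have := hNn.conj_mem m hm g⁻¹
        simpa using this
      have h1 := Subgroup.mem_set_normalizer_iff.mp (hN hm')
      simp only [SetLike.mem_coe, Subgroup.mem_map, MulEquiv.coe_toMonoidHom, MulAut.conj_apply]
      constructor
      · rintro ⟨a, ha, rfl⟩
        exact ⟨(g⁻¹ * m * g) * a * (g⁻¹ * m * g)⁻¹, (h1 a).mp ha, by group⟩
      · rintro ⟨a, ha, e⟩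
        refine ⟨(g⁻¹ * m * g)⁻¹ * a * (g⁻¹ * m * g), ?_, ?_⟩
        · refine (h1 ((g⁻¹ * m * g)⁻¹ * a * (g⁻¹ * m * g))).mpr ?_
          have e2 : g⁻¹ * m * g * ((g⁻¹ * m * g)⁻¹ * a * (g⁻¹ * m * g)) * (g⁻¹ * m * g)⁻¹ = a := by
            group
          rw [e2]; exact ha
        · have e3 : h = m⁻¹ * (g * a * g⁻¹) * m := by rw [e]; group
          rw [e3]; group
  have := key hn
  simpa [Subgroup.mem_comap, MulAut.conj_apply] using this

theorem puigSeq_normal : ∀ n : ℕ, (puigSeq G n).Normal
  | 0 => by rw [puigSeq_zero]; infer_instance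
  | n + 1 => by
    haveI := puigSeq_normal n
    rw [puigSeq_succ]; exact puigStep_normal _

theorem mem_puigStep_of_commutator_mem (N : Subgroup G) [N.Normal] {x : G}
    (hx : x ∈ Subgroup.centralizer (puigStep N : Set G)) (h : ∀ r : G, ⁅x, r⁆ ∈ puigStep N) :
    x ∈ puigStep N := by
  haveI hLn := puigStep_normal N
  haveI hCn : (Subgroup.centralizer (puigStep N : Set G)).Normal := Subgroup.normal_centralizer
  let T : Set G := (↑(puigStep N ⊓ Subgroup.centralizer (puigStep N : Set G)) : Set G) ∪ {x}
  have hcomm : ∀ s ∈ T, ∀ t ∈ T, s * t = t * s := by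
    rintro s (hs | hs) t (ht | ht)
    · exact Subgroup.mem_centralizer_iff.mp ht.2 s hs.1
    · rw [Set.mem_singleton_iff] at ht; subst ht
      exact Subgroup.mem_centralizer_iff.mp hx s hs.1
    · rw [Set.mem_singleton_iff] at hs; subst hs
      exact (Subgroup.mem_centralizer_iff.mp hx t ht.1).symm
    · rw [Set.mem_singleton_iff] at hs ht; subst hs; subst ht; rfl
  have hAc : IsMulCommutative (Subgroup.closure T) := Subgroup.isMulCommutative_closure hcomm
  have hAn : (Subgroup.closure T).Normal := by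
    constructor
    intro n hn g
    have key : Subgroup.closure T ≤ (Subgroup.closure T).comap (MulAut.conj g).toMonoidHom := by
      rw [Subgroup.closure_le]
      rintro s (hs | hs)
      · show g * s * g⁻¹ ∈ Subgroup.closure T
        apply Subgroup.subset_closure
        left
        exact ⟨hLn.conj_mem s hs.1 g, hCn.conj_mem s hs.2 g⟩
      · rw [Set.mem_singleton_iff] at hs; subst hs
        show g * s * g⁻¹ ∈ Subgroup.closure T
        have h1 : g * s * g⁻¹ * s⁻¹ ∈ puigStep N ⊓ Subgroup.centralizer (puigStep N : Set G) := by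
          refine ⟨?_, ?_⟩
          · have h2 : g * s * g⁻¹ * s⁻¹ = ⁅s, g⁆⁻¹ := by
              rw [commutatorElement_def]; group
            rw [h2]; exact Subgroup.inv_mem _ (h g)
          · exact Subgroup.mul_mem _ (hCn.conj_mem s hx g) (Subgroup.inv_mem _ hx)
        have h3 : g * s * g⁻¹ = (g * s * g⁻¹ * s⁻¹) * s := by group
        rw [h3]
        exact Subgroup.mul_mem _ (Subgroup.subset_closure (Or.inl h1))
          (Subgroup.subset_closure (Or.inr rfl))
    have := key hn
    simpa [Subgroup.mem_comap, MulAut.conj_apply] using this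
  have hle : Subgroup.closure T ≤ puigStep N := by
    apply le_sSup
    refine ⟨hAc, ?_⟩
    rw [Subgroup.normalizer_eq_top]; exact le_top
  exact hle (Subgroup.subset_closure (Or.inr rfl))

theorem centralizer_puigStep_le [Finite G] {p : ℕ} [Fact p.Prime] (hG : IsPGroup p G)
    (N : Subgroup G) [N.Normal] :
    Subgroup.centralizer (puigStep N : Set G) ≤ puigStep N := by
  haveI hLn := puigStep_normal N
  haveI hCn : (Subgroup.centralizer (puigStep N : Set G)).Normal := Subgroup.normal_centralizer
  have hnil : Group.IsNilpotent G := hG.isNilpotent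
  obtain ⟨n, hn⟩ := Subgroup.nilpotent_iff_lowerCentralSeries.mp hnil
  have key : ∀ k, k ≤ n → Subgroup.centralizer (puigStep N : Set G) ⊓
      (⊤ : Subgroup G).lowerCentralSeries (n - k) ≤ puigStep N := by
    intro k
    induction k with
    | zero =>
      intro _
      rw [Nat.sub_zero, hn]; simp
    | succ k ih =>
      intro hk
      have ih' := ih (Nat.le_of_succ_le hk)
      have e : n - k = (n - (k + 1)) + 1 := by omega
      rw [e, Subgroup.lowerCentralSeries_succ] at ih'
      rintro x ⟨hxC, hxL⟩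
      apply mem_puigStep_of_commutator_mem N hxC
      intro r
      apply ih'
      refine ⟨?_, Subgroup.commutator_mem_commutator hxL (Subgroup.mem_top r)⟩
      have h2 : ⁅x, r⁆ = x * (r * x⁻¹ * r⁻¹) := by rw [commutatorElement_def]; group
      rw [h2]
      exact Subgroup.mul_mem _ hxC (hCn.conj_mem _ (Subgroup.inv_mem _ hxC) r)
  have := key n le_rfl
  simpa using this

theorem centralizer_puigSeq_le [Finite G] {p : ℕ} [Fact p.Prime] (hG : IsPGroup p G)
    (i : ℕ) (hi : 0 < i) :
    Subgroup.centralizer (puigSeq G i : Set G) ≤ puigSeq G i := by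
  obtain ⟨j, rfl⟩ : ∃ j, i = j + 1 := ⟨i - 1, by omega⟩
  haveI := puigSeq_normal (G := G) j
  rw [puigSeq_succ]
  exact centralizer_puigStep_le hG _

end Puig

end Cfsg.Agent.Helper25
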